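import Mathlib
import Cfsg.Prelude

set_option autoImplicit false

/-!
# Bender–Glauberman §10: the statements S1403–S1413 as `Prop`s (helper58)

`StNNNN G` is the statement of `SNNNN` for the group `G`, without the hypothesis
`IsMinSimpleOddOrder G`.  The pieces of the team project BG10 are theorems of the form
`IsMinSimpleOddOrder G → St1403 G → … → StNNNN G`.
-/

namespace Cfsg.Agent.H58.BG10

open Cfsg Subgroup

universe u

/-- S1403 (B&G 9.6, the Uniqueness Theorem). -/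
def St1403 (G : Type u) [Group G] : Prop :=
  ∀ K : Subgroup G, K ≠ ⊤ → ¬ RankLE 1 K →
    (¬ RankLE 2 K ∨ ¬ RankLE 2 (centralizer (K : Set G))) → InUniqueMaximal K

/-- S1404 (B&G 10.1 (a), (e)). -/
def St1404 (G : Type u) [Group G] : Prop :=
  ∀ (M : Subgroup G), IsCoatom M → ∀ (p : ℕ) [Fact p.Prime], p ∈ sigma M →
    ∀ X : Subgroup G, IsPGroup p X → X ≠ ⊥ → X ≤ M →
    (∀ g : G, X.map (MulAut.conj g).toMonoidHom ≤ M →
        ∃ m ∈ M, ∃ c ∈ centralizer (X : Set G), g = m * c) ∧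
      normalizer (X : Set G) = (M ⊓ normalizer (X : Set G)) ⊔ centralizer (X : Set G)

/-- S1405 (B&G 10.2). -/
def St1405 (G : Type u) [Group G] : Prop :=
  ∀ (M : Subgroup G), IsCoatom M →
    IsPiHallOf (alpha M) (alphaCore M) M ∧ IsPiHall (alpha M) (alphaCore M) ∧
      alphaCore M ≤ sigmaCore M ∧ RankLE 2 (↥M ⧸ piCore (alpha M) ↥M) ∧
      Group.IsNilpotent ↥((commutator ↥M).map (QuotientGroup.mk' (piCore (alpha M) ↥M)))

/-- S1406 (B&G 10.3). -/
def St1406 (G : Type u) [Group G] : Prop :=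
  ∀ (M : Subgroup G), IsCoatom M → ∀ X : Subgroup G, X ≤ M →
    (∀ p : ℕ, p.Prime → p ∣ Nat.card X → p ∉ alpha M) →
    ¬ RankLE 1 ↥(alphaCore M ⊓ centralizer (X : Set G)) →
    InUniqueMaximal (M ⊓ centralizer (X : Set G))

/-- S1407 (B&G 10.4). -/
def St1407 (G : Type u) [Group G] : Prop :=
  ∀ (M : Subgroup G), IsCoatom M → alphaCore M ≠ ⊥ → ∀ (p : ℕ) [Fact p.Prime],
    p ∣ Nat.card M → p ∉ sigma M → ∀ P : Sylow p M,
    ∃ x : G, x ∈ ((center ↥(P : Subgroup M)).map (P : Subgroup M).subtype).map M.subtype ∧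
        orderOf x = p ∧
        IsZGroup ↥(alphaCore M ⊓ centralizer ({x} : Set G)) ∧
        ¬ (centralizer ({x} : Set G) ≤ M ∧
          ∀ L : Subgroup G, IsCoatom L → centralizer ({x} : Set G) ≤ L → L = M)

/-- S1408 (B&G 10.5). -/
def St1408 (G : Type u) [Group G] : Prop :=
  ∀ (M : Subgroup G), IsCoatom M → ∀ (p : ℕ) [Fact p.Prime], p ∉ sigma M →
    PRankLE p 2 M → ¬ PRankLE p 1 M →
    ¬ IsIdealPrime p G ∧ ∀ A : Subgroup G, A ≤ M → IsElementaryAbelian p A →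
      Nat.card A = p ^ 2 → ∀ B : Subgroup G, IsElementaryAbelian p B → A ≤ B → B = A

/-- S1409 (B&G 10.6). -/
def St1409 (G : Type u) [Group G] : Prop :=
  ∀ (M : Subgroup G), IsCoatom M → ∀ (p : ℕ) [Fact p.Prime], p ∉ sigma M →
    ∀ X : Subgroup G, Nat.card X = p → normalizer (X : Set G) ≤ M →
    (PRankLE p 2 M ∧ ¬ PRankLE p 1 M) ∧ ¬ IsIdealPrime p G ∧
      ∃ A : Subgroup G, IsElementaryAbelian p A ∧ Nat.card A = p ^ 2 ∧ X ≤ A

/-- S1410 (B&G 10.7 (a)). -/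
def St1410 (G : Type u) [Group G] : Prop :=
  ∀ (p : ℕ) [Fact p.Prime] (H : Subgroup G), H ≠ ⊤ → PLengthLE p 1 H

/-- S1411 (B&G 10.7 (b)). -/
def St1411 (G : Type u) [Group G] : Prop :=
  ∀ (p : ℕ) [Fact p.Prime] (P : Sylow p G) (V : Subgroup G),
    IsComplIn (P : Subgroup G) V (normalizer ((P : Subgroup G) : Set G)) →
    (P : Subgroup G) = ⁅(P : Subgroup G), V⁆ ∧
      (P : Subgroup G) ≤ ⁅normalizer ((P : Subgroup G) : Set G),
        normalizer ((P : Subgroup G) : Set G)⁆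

/-- S1412 (B&G 10.7, Sylow subgroups of rank at most 2). -/
def St1412 (G : Type u) [Group G] : Prop :=
  ∀ (p : ℕ) [Fact p.Prime] (P : Sylow p G), PRankLE p 2 (P : Subgroup G) →
    IsMulCommutative (P : Subgroup G) ∨ ∃ P₁ P₂ : Subgroup G, P₁ ⊔ P₂ = (P : Subgroup G) ∧
        (∀ a ∈ P₁, ∀ b ∈ P₂, a * b = b * a) ∧
        ¬ IsMulCommutative P₁ ∧ Nat.card P₁ = p ^ 3 ∧ Monoid.exponent P₁ = p ∧ IsCyclic P₂ ∧
        closure {x : G | x ∈ P₂ ∧ x ^ p = 1} = P₁ ⊓ centralizer (P₁ : Set G)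

/-- S1413 (B&G 10.7 (c), (d), (e)). -/
def St1413 (G : Type u) [Group G] : Prop :=
  ∀ (p : ℕ) [Fact p.Prime] (P : Sylow p G),
    (∀ (Q : Subgroup G) (x : G), Q ≤ (P : Subgroup G) →
        Q.map (MulAut.conj x).toMonoidHom ≤ (P : Subgroup G) →
        ∃ y ∈ normalizer ((P : Subgroup G) : Set G),
          Q.map (MulAut.conj x).toMonoidHom = Q.map (MulAut.conj y).toMonoidHom) ∧
      (∀ Q : Subgroup G, Q ≤ (P : Subgroup G) →
        ¬ p ∣ ((P : Subgroup G) ⊓ normalizer (Q : Set G)).relIndex (normalizer (Q : Set G))) ∧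
      (∀ (R Q : Subgroup G), IsPGroup p R → Q ≤ (P : Subgroup G) ⊓ R →
        normalizer ((P : Subgroup G) : Set G) ≤ normalizer (Q : Set G) →
        normalizer (R : Set G) ≤ normalizer (Q : Set G))

end Cfsg.Agent.H58.BG10
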