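import Mathlib
import Cfsg.Agent.H58.BG10Defs

set_option autoImplicit false

/-!
# Bender–Glauberman §10: two auxiliary statements as `Prop`s (helper58)
-/

namespace Cfsg.Agent.H58.BG10

open Cfsg Subgroup

universe u

/-- Transfer: for `p ∈ σ(M)` the Sylow `p`-subgroups of `M` lie in `M'`. -/
def StSigComm (G : Type u) [Group G] : Prop :=
  ∀ (M : Subgroup G), IsCoatom M → ∀ (p : ℕ) [Fact p.Prime], p ∈ sigma M →
    ∀ P : Sylow p M, (P : Subgroup M) ≤ commutator M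

/-- `N_G(P)` controls strong fusion in a Sylow `p`-subgroup `P` of `G`. -/
def StFusion (G : Type u) [Group G] : Prop :=
  ∀ (p : ℕ) [Fact p.Prime] (P : Sylow p G) (Y : Set G) (x : G), Y ⊆ (P : Subgroup G) →
    (∀ a ∈ Y, x * a * x⁻¹ ∈ (P : Subgroup G)) →
    ∃ y ∈ normalizer ((P : Subgroup G) : Set G), ∀ a ∈ Y, y * a * y⁻¹ = x * a * x⁻¹

end Cfsg.Agent.H58.BG10
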