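import Mathlib
import Cfsg.Agent.H58.BG10Defs2

set_option autoImplicit false

/-!
# Bender–Glauberman §10, §12: the statements S1350, S1414–S1422 as `Prop`s (helper58)
-/

namespace Cfsg.Agent.H58.BG10

open Cfsg Subgroup

universe u

/-- S1350 (`M_σ` is a Hall `σ(M)`-subgroup of `M` and of `G`). -/
def St1350 (G : Type u) [Group G] : Prop :=
  ∀ (M : Subgroup G), IsCoatom M →
    IsPiHallOf (sigma M) (sigmaCore M) M ∧ IsPiHall (sigma M) (sigmaCore M) ∧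
      ∀ N : Subgroup G, M ≤ normalizer (N : Set G) → IsPiHallOf (sigma M) N M →
        N = sigmaCore M

/-- S1414 (`M_β`). -/
def St1414 (G : Type u) [Group G] : Prop :=
  ∀ (M : Subgroup G), IsCoatom M →
    IsPiHallOf (beta M) (piCoreOf (beta M) M) M ∧ IsPiHall (beta M) (piCoreOf (beta M) M) ∧
      (∃ H : Subgroup G, IsPiHallOf {q | q.Prime ∧ q ∉ beta M} H ⁅M, M⁆ ∧ Group.IsNilpotent H) ∧
      (∃ H : Subgroup G, IsPiHallOf {q | q.Prime ∧ q ∉ beta M} H (sigmaCore M) ∧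
        Group.IsNilpotent H) ∧
      ∀ p : ℕ, p.Prime → p ∣ Nat.card M → p ∉ beta M →
        HasNormalPComplement p ↥⁅M, M⁆ ∧ HasNormalPComplement p ↥(sigmaCore M) ∧
        ∀ q : ℕ, q.Prime → q ∣ (pPrimeCore p ↥M).index → q ≤ p

/-- S1415 (B&G 12.1). -/
def St1415 (G : Type u) [Group G] : Prop :=
  ∀ (M : Subgroup G), IsCoatom M → ∀ E : Subgroup G, IsComplIn E (sigmaCore M) M →
    Group.IsNilpotent ↥⁅E, E⁆ ∧
      (∀ E₁ : Subgroup G, IsPiHallOf (tau1 M) E₁ E → IsCyclic E₁) ∧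
      ∀ E₃ : Subgroup G, IsPiHallOf (tau3 M) E₃ E →
        IsCyclic E₃ ∧ E₃ ≤ ⁅E, E⁆ ∧ E ≤ normalizer (E₃ : Set G)

/-- S1416. -/
def St1416 (G : Type u) [Group G] : Prop :=
  ∀ (M : Subgroup G), IsCoatom M → ∀ (p : ℕ) [Fact p.Prime] (A : Subgroup G),
    (A ≤ M ∧ IsElementaryAbelian p A ∧ Nat.card A = p ^ 2) →
    centralizer (A : Set G) ≤ M ∧
      ((∀ A₀ : Subgroup G, A₀ ≤ A → Nat.card A₀ = p →
          ¬ (normalizer (A₀ : Set G) ≤ M ∧
            ∀ L : Subgroup G, IsCoatom L → normalizer (A₀ : Set G) ≤ L → L = M)) →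
        p ∈ sigma M ∧ alphaCore M = ⊥ ∧ Group.IsNilpotent (sigmaCore M))

/-- S1417. -/
def St1417 (G : Type u) [Group G] : Prop :=
  ∀ (M : Subgroup G), IsCoatom M → ∀ (p : ℕ) [Fact p.Prime], p ∈ tau2 M → ∀ (A : Subgroup G),
    (A ≤ M ∧ IsElementaryAbelian p A ∧ Nat.card A = p ^ 2) →
    Group.IsNilpotent (sigmaCore M) ∧
      (∀ P : Sylow p M, IsMulCommutative (P : Subgroup M) ∧
        (A ≤ (P : Subgroup M).map M.subtype →
          (∀ x ∈ (P : Subgroup M).map M.subtype, x ^ p = 1 ↔ x ∈ A) ∧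
          ¬ normalizer ((((P : Subgroup M).map M.subtype : Subgroup G)) : Set G) ≤ M)) ∧
      M ≤ normalizer ((sigmaCore M ⊔ A : Subgroup G) : Set G) ∧
      sigmaCore M ⊓ centralizer (A : Set G) = ⊥ ∧
      (∀ Mstar : Subgroup G, IsCoatom Mstar → Mstar ≠ M → A ≤ Mstar →
        sigmaCore M ⊓ Mstar = ⊥) ∧
      ∃ A₁ : Subgroup G, A₁ ≤ A ∧ Nat.card A₁ = p ∧
        sigmaCore M ⊓ centralizer (A₁ : Set G) = ⊥

/-- S1418. -/
def St1418 (G : Type u) [Group G] : Prop :=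
  ∀ (M : Subgroup G), IsCoatom M → ∀ E : Subgroup G, IsComplIn E (sigmaCore M) M →
    ∀ (p : ℕ) [Fact p.Prime], p ∈ tau2 M → ∀ (A : Subgroup G),
    (A ≤ E ∧ IsElementaryAbelian p A ∧ Nat.card A = p ^ 2) →
    (E ≤ normalizer (A : Set G) ∧ ∀ X : Subgroup G, X ≤ E → Nat.card X = p → X ≤ A) ∧
      (centralizer (A : Set G) ≤ M ⊓ normalizer (A : Set G) ∧
        M ⊓ normalizer (A : Set G) = E ∧ ¬ normalizer (A : Set G) ≤ M) ∧
      ∀ X : Subgroup G, X ≤ A → Nat.card X = p →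
        sigmaCore M ⊓ centralizer (X : Set G) ≠ ⊥ →
        (centralizer (X : Set G) ≤ M ∧
          ∀ L : Subgroup G, IsCoatom L → centralizer (X : Set G) ≤ L → L = M)

/-- S1422 (nonabelian `p`-subgroups are uniqueness subgroups). -/
def St1422 (G : Type u) [Group G] : Prop :=
  ∀ (p : ℕ) [Fact p.Prime] (P : Subgroup G), IsPGroup p P → ¬ IsMulCommutative P →
    InUniqueMaximal P

end Cfsg.Agent.H58.BG10
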