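import Mathlib
import Cfsg.Agent.H31.BG9b
import Cfsg.Agent.S1399
import Cfsg.Agent.S1400

set_option autoImplicit false
set_option linter.unusedSectionVars false

/-!
# Bender–Glauberman Theorem 9.6 (the Uniqueness Theorem) from Theorem 9.5 (helper58)
-/

namespace Cfsg.Agent.H58.BG96

open Cfsg Subgroup

universe u

variable {G : Type u} [Group G]

/-- The statement of B&G Theorem 9.5 (S1402) for the group `G`. -/
def St95 (G : Type u) [Group G] : Prop :=
  ∀ (p : ℕ) [Fact p.Prime] (P : Sylow p G) (A : Subgroup G),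
    IsSCN (P : Subgroup G) A → ¬ PRankLE p 2 ↥A → InUniqueMaximal A

theorem inUniqueMaximal_of_le [Finite G] {X Y : Subgroup G} (hXY : X ≤ Y) (hY : Y ≠ ⊤)
    (hX : InUniqueMaximal X) : InUniqueMaximal Y := by
  obtain ⟨M, ⟨hM, hXM⟩, huniq⟩ := hX
  obtain ⟨M', hM', hYM'⟩ := (eq_top_or_exists_le_coatom Y).resolve_left hY
  have h1 : M' = M := huniq M' ⟨hM', hXY.trans hYM'⟩
  subst h1
  refine ⟨M', ⟨hM', hYM'⟩, ?_⟩
  rintro L ⟨hL, hYL⟩
  exact huniq L ⟨hL, hXY.trans hYL⟩

/-- Every elementary abelian subgroup of order `> q ^ 2` is a uniqueness subgroup. -/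
theorem elem_three [Finite G] (hG : IsMinSimpleOddOrder G) (h95 : St95 G)
    {q : ℕ} [Fact q.Prime] {E : Subgroup G} (hEe : IsElementaryAbelian q E)
    (hE3 : q ^ 2 < Nat.card E) : InUniqueMaximal E := by
  have hq : q.Prime := Fact.out
  have hEp : IsPGroup q E := by
    intro x
    refine ⟨1, ?_⟩
    rw [pow_one]
    exact Subtype.ext (by simpa using hEe.2 x x.2)
  obtain ⟨P, hEP⟩ := hEp.exists_le_sylow
  have hPr : ¬ PRankLE q 2 ↥(P : Subgroup G) :=
    Cfsg.Agent.H31.BG8.not_pRankLE_of_le hEP hEe hE3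
  have hqG : q ∣ Nat.card G := by
    have h1 : q ∣ Nat.card E := by
      obtain ⟨n, hn⟩ := IsPGroup.iff_card.mp hEp
      rw [hn] at hE3 ⊢
      have : n ≠ 0 := by
        rintro rfl
        simp at hE3
        have := hq.one_lt
        nlinarith
      exact dvd_pow_self q this
    exact h1.trans (Subgroup.card_subgroup_dvd_card E)
  have hq2 : q ≠ 2 := Cfsg.Agent.H31.BG9.ne_two_of_dvd hG hqG
  obtain ⟨A, hA, hAr⟩ := Cfsg.Agent.H31.BG9.exists_scn3 hq2 P.isPGroup' hPr
  have hAU : InUniqueMaximal A := h95 q P A hA hAr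
  have hAp : IsPGroup q A := P.isPGroup'.to_le hA.1
  have hAc : IsMulCommutative A := by
    refine ⟨⟨fun a b => ?_⟩⟩
    have ha : (a : G) ∈ (P : Subgroup G) ⊓ centralizer (A : Set G) := by
      rw [hA.2.2]; exact a.2
    have := Subgroup.mem_centralizer_iff.mp (Subgroup.mem_inf.mp ha).2 (b : G) b.2
    exact Subtype.ext this.symm
  have hEnc : ¬ IsCyclic E := by
    haveI : Finite E := inferInstance
    refine Cfsg.Agent.H31.BG9.not_isCyclic_of_not_pRankLE hq ?_
    intro h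
    have h1 := h ⊤ ?_ ?_
    · rw [Subgroup.card_top, pow_one] at h1
      have : q ^ 1 < q ^ 2 := Nat.pow_lt_pow_right hq.one_lt (by norm_num)
      rw [pow_one] at this
      omega
    · exact ⟨⟨fun a b => Subtype.ext (hEe.1.is_comm.comm a.1 b.1)⟩⟩
    · intro a _
      exact Subtype.ext (by simpa using hEe.2 a a.2)
  have hEC : E ≤ centralizer (E : Set G) := by
    intro x hx
    rw [Subgroup.mem_centralizer_iff]
    intro y hy
    exact congrArg Subtype.val (hEe.1.is_comm.comm ⟨y, hy⟩ ⟨x, hx⟩)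
  have hB3 : ¬ PRankLE q 2 ↥(centralizer (E : Set G)) :=
    Cfsg.Agent.H31.BG8.not_pRankLE_of_le hEC hEe hE3
  exact Cfsg.Agent.S1400.result hG q A E hAp hAc hAr hAU hEp hEnc hB3

/-- B&G Theorem 9.6 from Theorem 9.5. -/
theorem bg96 [Finite G] (hG : IsMinSimpleOddOrder G) (h95 : St95 G)
    (K : Subgroup G) (hK : K ≠ ⊤) (hK2 : ¬ RankLE 1 K)
    (hK3 : ¬ RankLE 2 K ∨ ¬ RankLE 2 (centralizer (K : Set G))) :
    InUniqueMaximal K := by
  rcases hK3 with h3 | h3
  · unfold RankLE at h3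
    push Not at h3
    obtain ⟨q, hq, hr⟩ := h3
    haveI : Fact q.Prime := ⟨hq⟩
    obtain ⟨E, hEK, hEc, hEp, hE3⟩ := Cfsg.Agent.H31.T2.exists_elementary_of_not_pRankLE hr
    have hEe : IsElementaryAbelian q E :=
      ⟨⟨⟨fun a b => Subtype.ext (hEc a a.2 b b.2)⟩⟩, hEp⟩
    exact inUniqueMaximal_of_le hEK hK (elem_three hG h95 hEe hE3)
  · unfold RankLE at h3
    push Not at h3
    obtain ⟨q, hq, hr⟩ := h3
    haveI : Fact q.Prime := ⟨hq⟩
    obtain ⟨E, hEK, hEc, hEp, hE3⟩ := Cfsg.Agent.H31.T2.exists_elementary_of_not_pRankLE hr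
    have hEe : IsElementaryAbelian q E :=
      ⟨⟨⟨fun a b => Subtype.ext (hEc a a.2 b b.2)⟩⟩, hEp⟩
    have hEU := elem_three hG h95 hEe hE3
    have hKE : K ≤ centralizer (E : Set G) := by
      intro k hk
      rw [Subgroup.mem_centralizer_iff]
      intro e he
      exact (Subgroup.mem_centralizer_iff.mp (hEK he) k hk).symm
    exact Cfsg.Agent.S1399.result hG E K hEU hKE hK2

end Cfsg.Agent.H58.BG96
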