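import Mathlib
import Cfsg.Agent.H58.BG96
import Cfsg.Agent.H58.BG10Defs2

set_option autoImplicit false
set_option linter.unusedSectionVars false
set_option linter.style.haveILetI false

/-!
# Bender–Glauberman 10.5 and 10.6 (pieces F and G of BG10), and basic tools (helper58)
-/

namespace Cfsg.Agent.H58.BG10

open Cfsg Subgroup
open scoped Pointwise

universe u

variable {G : Type u} [Group G]

theorem centralizer_ne_top' (hG : IsMinSimpleOddOrder G) {A : Subgroup G} (hA : A ≠ ⊥) :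
    centralizer (A : Set G) ≠ ⊤ := by
  intro h
  have hAc : A ≤ center G := by
    intro a ha
    rw [Subgroup.mem_center_iff]
    intro g
    have hg : g ∈ centralizer (A : Set G) := h ▸ Subgroup.mem_top g
    exact (Subgroup.mem_centralizer_iff.mp hg a ha).symm
  haveI := hG.2.1
  rcases (inferInstance : (center G).Normal).eq_bot_or_eq_top with h1 | h1
  · exact hA (le_bot_iff.mp (h1 ▸ hAc))
  · apply hG.2.2.1
    refine ⟨⟨fun a b => ?_⟩⟩
    have hb : b ∈ center G := h1 ▸ Subgroup.mem_top b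
    exact Subgroup.mem_center_iff.mp hb a

theorem le_of_inUniqueMaximal [Finite G] {A M X : Subgroup G} (hA : InUniqueMaximal A)
    (hM : IsCoatom M) (hAM : A ≤ M) (hAX : A ≤ X) (hX : X ≠ ⊤) : X ≤ M := by
  obtain ⟨L, hL, hXL⟩ := (eq_top_or_exists_le_coatom X).resolve_left hX
  obtain ⟨M0, -, huniq⟩ := hA
  have h1 := huniq L ⟨hL, hAX.trans hXL⟩
  have h2 := huniq M ⟨hM, hAM⟩
  rw [h2, ← h1]; exact hXL

theorem eq_of_inUniqueMaximal {A M L : Subgroup G} (hA : InUniqueMaximal A)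
    (hM : IsCoatom M) (hAM : A ≤ M) (hL : IsCoatom L) (hAL : A ≤ L) : L = M := by
  obtain ⟨M0, -, huniq⟩ := hA
  rw [huniq L ⟨hL, hAL⟩, huniq M ⟨hM, hAM⟩]

theorem not_rankLE_one {p : ℕ} (hp : p.Prime) {A : Subgroup G} (hA : IsElementaryAbelian p A)
    (hc : p < Nat.card A) : ¬ RankLE 1 A := fun h =>
  Cfsg.Agent.H31.BG8.not_pRankLE_of_le (le_refl A) hA (by simpa using hc) (h p hp)

theorem not_rankLE_of_not_pRankLE {p k : ℕ} (hp : p.Prime) {A : Subgroup G}
    (h : ¬ PRankLE p k A) : ¬ RankLE k A := fun h' => h (h' p hp)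

theorem not_pRankLE_mono {p k l : ℕ} (hp : p.Prime) (hkl : k ≤ l) {A : Type*} [Group A]
    (h : ¬ PRankLE p l A) : ¬ PRankLE p k A := fun h' => h (fun B hBc hBp =>
  (h' B hBc hBp).trans (Nat.pow_le_pow_right hp.pos hkl))

/-- An elementary abelian subgroup of `M` of order `> p ^ k` moves into any Sylow `p`-subgroup. -/
theorem not_pRankLE_sylow [Finite G] {M : Subgroup G} {p k : ℕ} [Fact p.Prime] (P : Sylow p M)
    (h : ¬ PRankLE p k ↥M) : ¬ PRankLE p k ↥((P : Subgroup M).map M.subtype) := by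
  obtain ⟨B, hBM, hBc, hBp, hBcard⟩ := Cfsg.Agent.H31.T2.exists_elementary_of_not_pRankLE h
  have hBe : IsElementaryAbelian p B := ⟨⟨⟨fun a b => Subtype.ext (hBc a a.2 b b.2)⟩⟩, hBp⟩
  have hBpg : IsPGroup p (B.subgroupOf M) := by
    intro x
    refine ⟨1, ?_⟩
    rw [pow_one]
    apply Subtype.ext
    apply Subtype.ext
    simpa using hBp (x : M) (Subgroup.mem_subgroupOf.mp x.2)
  obtain ⟨Q, hBQ⟩ := hBpg.exists_le_sylow
  obtain ⟨g, hg⟩ := MulAction.exists_smul_eq M Q P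
  have hconj : ∀ b : M, (b : G) ∈ B → g * b * g⁻¹ ∈ (P : Subgroup M) := by
    intro b hb
    have hbQ : b ∈ (Q : Subgroup M) := hBQ (Subgroup.mem_subgroupOf.mpr hb)
    have h1 : MulAut.conj g • b ∈ MulAut.conj g • (Q : Subgroup M) :=
      Subgroup.smul_mem_pointwise_smul b (MulAut.conj g) (Q : Subgroup M) hbQ
    rw [← Sylow.coe_subgroup_smul, hg] at h1
    simpa [MulAut.smul_def] using h1
  have hB₂ : B.map (MulAut.conj (g : G)).toMonoidHom ≤ (P : Subgroup M).map M.subtype := by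
    rintro _ ⟨b, hb, rfl⟩
    refine ⟨g * ⟨b, hBM hb⟩ * g⁻¹, hconj ⟨b, hBM hb⟩ hb, ?_⟩
    simp [MulAut.conj_apply]
  refine Cfsg.Agent.H31.BG8.not_pRankLE_of_le hB₂
    (Cfsg.Agent.H31.BG9.isElementaryAbelian_map _ hBe) ?_
  rw [Subgroup.card_map_of_injective (MulAut.conj (g : G)).injective]
  exact hBcard

/-- `α(M) ⊆ σ(M)`, from the Uniqueness Theorem: Sylow `p`-subgroups of rank `≥ 3` of a maximal
subgroup `M` have their normalizers in `M`. -/
theorem normalizer_sylow_le_of_rank [Finite G] (hG : IsMinSimpleOddOrder G) (h96 : St1403 G)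
    {M : Subgroup G} (hM : IsCoatom M) {p : ℕ} [Fact p.Prime] (hr : ¬ PRankLE p 2 ↥M)
    (P : Sylow p M) : normalizer (((P : Subgroup M).map M.subtype : Subgroup G) : Set G) ≤ M := by
  have hp : p.Prime := Fact.out
  set S : Subgroup G := (P : Subgroup M).map M.subtype with hS
  have hSM : S ≤ M := Subgroup.map_subtype_le _
  have hSr : ¬ PRankLE p 2 ↥S := not_pRankLE_sylow P hr
  have hStop : S ≠ ⊤ := fun h => hM.1 (top_le_iff.mp (h ▸ hSM))
  have hSbot : S ≠ ⊥ := by
    intro h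
    apply hSr
    intro B _ _
    have : Nat.card B = 1 := by
      have h1 : Nat.card S = 1 := by rw [h]; exact Subgroup.card_bot
      exact Nat.eq_one_of_dvd_one (h1 ▸ Subgroup.card_subgroup_dvd_card B)
    rw [this]; exact Nat.one_le_pow _ _ hp.pos
  have hSU : InUniqueMaximal S := h96 S hStop
    (not_rankLE_of_not_pRankLE hp (not_pRankLE_mono hp (by norm_num) hSr))
    (Or.inl (not_rankLE_of_not_pRankLE hp hSr))
  exact le_of_inUniqueMaximal hSU hM hSM Subgroup.le_normalizer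
    (Cfsg.Agent.Lib.Helper30.minSimple_normalizer_ne_top hG hSbot hStop)

theorem alpha_subset_sigma [Finite G] (hG : IsMinSimpleOddOrder G) (h96 : St1403 G)
    {M : Subgroup G} (hM : IsCoatom M) {p : ℕ} (hp : p ∈ alpha M) : p ∈ sigma M := by
  obtain ⟨hpp, hr⟩ := hp
  haveI : Fact p.Prime := ⟨hpp⟩
  obtain ⟨P⟩ : Nonempty (Sylow p M) := inferInstance
  refine ⟨hpp, ?_, P, normalizer_sylow_le_of_rank hG h96 hM hr P⟩
  by_contra hnd
  apply hr
  intro B _ hBp
  have hB1 : Nat.card B = 1 := by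
    by_contra hne
    obtain ⟨q, hq, hqB⟩ := Nat.exists_prime_and_dvd hne
    haveI : Fact q.Prime := ⟨hq⟩
    obtain ⟨x, hx⟩ := exists_prime_orderOf_dvd_card' q hqB
    have h1 : x ^ p = 1 := Subtype.ext (by simpa using hBp x x.2)
    have h2 : q ∣ p := hx ▸ orderOf_dvd_of_pow_eq_one h1
    have h3 : q = p := (Nat.prime_dvd_prime_iff_eq hq hpp).mp h2
    exact hnd (h3 ▸ hqB.trans (Subgroup.card_subgroup_dvd_card B))
  rw [hB1]; exact Nat.one_le_pow _ _ hpp.pos

/-- Piece F: B&G 10.5. -/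
theorem bg105 [Finite G] (hG : IsMinSimpleOddOrder G) (h96 : St1403 G) : St1408 G := by
  intro M hM p _ _ hr2 hr1
  have hp : p.Prime := Fact.out
  have hp12 : p < p ^ 2 := by
    have := Nat.pow_lt_pow_right hp.one_lt (show 1 < 2 by norm_num)
    simpa using this
  have hmax : ∀ A : Subgroup G, A ≤ M → IsElementaryAbelian p A → Nat.card A = p ^ 2 →
      ∀ B : Subgroup G, IsElementaryAbelian p B → A ≤ B → B = A := by
    intro A hAM hAe hAc B hBe hAB
    by_contra hne
    have hlt : A < B := lt_of_le_of_ne hAB (Ne.symm hne)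
    have hcard : p ^ 2 < Nat.card B := by
      rw [← hAc]
      refine lt_of_le_of_ne (Subgroup.card_le_of_le hAB) (fun h => hne ?_)
      exact (Subgroup.eq_of_le_of_card_ge hAB (le_of_eq h.symm)).symm
    have hBC : B ≤ centralizer (A : Set G) := by
      intro b hb
      rw [Subgroup.mem_centralizer_iff]
      intro a ha
      exact congrArg Subtype.val (hBe.1.is_comm.comm ⟨a, hAB ha⟩ ⟨b, hb⟩)
    have hAC : A ≤ centralizer (A : Set G) := hAB.trans hBC
    have hA1 : A ≠ ⊥ := by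
      rintro rfl
      rw [Subgroup.card_bot] at hAc
      have := hp.one_lt
      nlinarith
    have hAtop : A ≠ ⊤ := fun h => hM.1 (top_le_iff.mp (h ▸ hAM))
    have hAU : InUniqueMaximal A := h96 A hAtop (not_rankLE_one hp hAe (hAc ▸ hp12))
      (Or.inr (fun h => Cfsg.Agent.H31.BG8.not_pRankLE_of_le hBC hBe hcard (h p hp)))
    have hCM : centralizer (A : Set G) ≤ M :=
      le_of_inUniqueMaximal hAU hM hAM hAC (centralizer_ne_top' hG hA1)
    exact Cfsg.Agent.H31.BG8.not_pRankLE_of_le (hBC.trans hCM) hBe hcard hr2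
  refine ⟨?_, hmax⟩
  rintro ⟨-, -, hideal⟩
  obtain ⟨A₁, hA₁M, hA₁c, hA₁p, hA₁card⟩ := Cfsg.Agent.H31.T2.exists_elementary_of_not_pRankLE hr1
  have hA₁pg : IsPGroup p A₁ := fun a => ⟨1, by
    rw [pow_one]; exact Subtype.ext (by simpa using hA₁p a a.2)⟩
  have hdvd : p ^ 2 ∣ Nat.card A₁ := by
    obtain ⟨n, hn⟩ := IsPGroup.iff_card.mp hA₁pg
    rw [hn] at hA₁card ⊢
    have h2 : 1 < n := (Nat.pow_lt_pow_iff_right hp.one_lt).mp hA₁card
    exact pow_dvd_pow p h2
  obtain ⟨K, hK⟩ := Sylow.exists_subgroup_card_pow_prime p hdvd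
  set A : Subgroup G := K.map A₁.subtype with hAdef
  have hAA₁ : A ≤ A₁ := Subgroup.map_subtype_le _
  have hAcard : Nat.card A = p ^ 2 := by
    rw [hAdef, Subgroup.card_map_of_injective A₁.subtype_injective]; exact hK
  have hAe : IsElementaryAbelian p A :=
    ⟨⟨⟨fun a b => Subtype.ext (hA₁c a (hAA₁ a.2) b (hAA₁ b.2))⟩⟩, fun a ha => hA₁p a (hAA₁ ha)⟩
  have hApg : IsPGroup p A := hA₁pg.to_le hAA₁
  obtain ⟨P, hAP⟩ := hApg.exists_le_sylow
  obtain ⟨B, -, hBe, hAB⟩ := hideal P A hAP hAe hAcard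
  exact hAB.ne' (hmax A (hAA₁.trans hA₁M) hAe hAcard B hBe hAB.le)

end Cfsg.Agent.H58.BG10
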