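import Cfsg.Agent.H52.SpDefs

/-!
# S2950 (uniqueness of the maximal 2-local subgroup over `⟨K, J(T)⟩`): statements of the pieces

Notation: `J = J(T)`, `K ∈ 𝒦₀(T)` (`jComponentsZero T`), `L`, `L'` maximal 2-local subgroups
containing `⟨K, J⟩`, `T₁`, `T₂` Sylow 2-subgroups of `L`, `L'` containing `J`, with
`J(T₁) = J = J(T₂)` and `L ∈ ℒ(T₁)`, `L' ∈ ℒ(T₂)` (from S2948).

Route.  (S) In a member `X` of the family of `T*`, every `X`-conjugate of `J(T*)` normalizes `W_K`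
for a `J(T*)`-component `K ≤ X` lying in some `𝒦₀(T*^g)`.
(KEY) every `L'`-conjugate of `K` lies in `L`: the `L`-conjugates `K^x` and the `L'`-conjugates
`K^y` are `J`-components inside `N = N_G(W_K) = N_G(K)` (S2944), `N` is in the family of a Sylow
subgroup with Thompson subgroup `J`, so by (S) in `N` each `K^y = [K^y, J]` normalizes every
`W_{K^x}`, hence `U = ⟨W_K^x : x ∈ L⟩`, and `L = N_G(U)` by maximality.
(ORB) so every `K^ρ`, `ρ ∈ R = ⟨N_L(J), N_{L'}(J)⟩`, is in `𝒦₀(T)` and inside `L ∩ L'`.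
(END) `U_R = ⟨W_K^ρ : ρ ∈ R⟩` is a nontrivial 2-group normalized by `R` and, by (S), by all
conjugates of `J` in `L` and in `L'`; Frattini (`L = ⟨J^L⟩ N_L(J)`) gives `L, L' ≤ N_G(U_R)`,
so `L = N_G(U_R) = L'`.
-/

set_option autoImplicit false
open Cfsg

namespace Cfsg.Agent.H58.Uq

universe u

/-- The standing hypotheses (ZN-group of characteristic 2 type). -/
def ZN (G : Type u) [Group G] : Prop :=
  IsCharacteristicTwoType G ∧
  (∀ N : Subgroup G, IsTwoLocal N → Group.IsSolvable ↥N) ∧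
  (∀ S : Sylow 2 G, Subgroup.centralizer (omegaCenterOf (S : Subgroup G) : Set G) ≤
      Subgroup.normalizer ((S : Subgroup G) : Set G))

/-- The statement S2945 (as a hypothesis for route A of piece S). -/
def St45 : Prop := ∀ {G : Type u} [Group G] [Finite G], ZN G →
  ∀ (T : Subgroup G), IsPGroup 2 ↥T → T ≠ ⊥ → ∀ (L : Subgroup G), L ∈ jOvergroups T →
  ∀ (K : Subgroup G), K ≤ L → (K.subgroupOf (K ⊔ thompsonSubgroupOf 2 T)).IsSubnormal →
  (∃ g : G, K ∈ jComponentsZero (T.map (MulAut.conj g).toMonoidHom)) → IsJComponent T K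

/-- S: in a member `L` of the family of `T`, every `L`-conjugate of `J(T)` normalizes `W_K`, for a
`J(T)`-component `K ≤ L` which lies in `𝒦₀(T^g)` for some `g`. -/
def StS : Prop := ∀ {G : Type u} [Group G] [Finite G], ZN G →
  ∀ (T : Subgroup G), IsPGroup 2 ↥T → T ≠ ⊥ → ∀ (L : Subgroup G), L ∈ jOvergroups T →
  ∀ (K : Subgroup G), IsJComponent T K → K ≤ L →
  (∃ g : G, K ∈ jComponentsZero (T.map (MulAut.conj g).toMonoidHom)) →
  ∀ l ∈ L, (thompsonSubgroupOf 2 T).map (MulAut.conj l).toMonoidHom ≤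
    Subgroup.normalizer (wOf K : Set G)

/-- SABS (abstract core of route B of piece S, from S0617 in the holomorph of `V`): a subgroup
`K ≤ J(X)` of order 3 modulo `C_X(V)` with `|[V, K]| = 4` has `[V, K]` normalized by `J(X)`. -/
def StSAbs : Prop := ∀ {X : Type u} [Group X] [Finite X] (V : Subgroup X) [V.Normal],
  IsElementaryAbelian 2 V → IsPSolvable 2 X →
  pCore 2 (X ⧸ Subgroup.centralizer (V : Set X)) = ⊥ →
  ∀ K O : Subgroup X, K ≤ thompsonSubgroup 2 X → O ≤ K →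
  O ≤ Subgroup.centralizer (V : Set X) → O.relIndex K = 3 → Nat.card ↥⁅V, K⁆ = 4 →
  thompsonSubgroup 2 X ≤ Subgroup.normalizer ((⁅V, K⁆ : Subgroup X) : Set X)

/-- FRAT: Frattini argument: if all `L`-conjugates of `J(T)` (`T` Sylow in `L`) and `N_L(J(T))`
normalize `U`, then `L` normalizes `U`. -/
def StFrat : Prop := ∀ {G : Type u} [Group G] [Finite G] (T L U : Subgroup G),
  IsSylowTwoIn T L →
  (∀ l ∈ L, (thompsonSubgroupOf 2 T).map (MulAut.conj l).toMonoidHom ≤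
      Subgroup.normalizer (U : Set G)) →
  L ⊓ Subgroup.normalizer (thompsonSubgroupOf 2 T : Set G) ≤ Subgroup.normalizer (U : Set G) →
  L ≤ Subgroup.normalizer (U : Set G)

/-- K0CONJ: `𝒦₀` is compatible with conjugation. -/
def StK0Conj : Prop := ∀ {G : Type u} [Group G] [Finite G] (T K : Subgroup G) (g : G),
  K ∈ jComponentsZero T →
  K.map (MulAut.conj g).toMonoidHom ∈ jComponentsZero (T.map (MulAut.conj g).toMonoidHom)

/-- O2SN: the 2-core of a subnormal subgroup lies in the 2-core. -/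
def StO2SN : Prop := ∀ {G : Type u} [Group G] [Finite G] (K L : Subgroup G), K ≤ L →
  (K.subgroupOf L).IsSubnormal → pCoreOf 2 K ≤ pCoreOf 2 L

/-- NSET: for `K ∈ 𝒦₀(T)`, `N_G(W_K)` is in the family of a 2-subgroup `S` with `J(S) = J(T)`. -/
def StNSet : Prop := ∀ {G : Type u} [Group G] [Finite G], IsCharacteristicTwoType G →
  ∀ (T K : Subgroup G), IsPGroup 2 ↥T → K ∈ jComponentsZero T →
  ∃ S : Subgroup G, IsPGroup 2 ↥S ∧ S ≠ ⊥ ∧
    thompsonSubgroupOf 2 S = thompsonSubgroupOf 2 T ∧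
    Subgroup.normalizer (wOf K : Set G) ∈ jOvergroups S

/-- KEYA: the `L`-conjugates of `K ∈ 𝒦₀(T)` are `J(T)`-components inside `N_G(W_K)`. -/
def StKeyA : Prop := ∀ {G : Type u} [Group G] [Finite G], ZN G →
  ∀ (T : Subgroup G), IsPGroup 2 ↥T → T ≠ ⊥ →
  ∀ (L T₁ : Subgroup G), L ∈ jOvergroups T₁ →
  thompsonSubgroupOf 2 T₁ = thompsonSubgroupOf 2 T →
  ∀ K : Subgroup G, K ∈ jComponentsZero T → K ≤ L →
  ∀ x ∈ L, IsJComponent T (K.map (MulAut.conj x).toMonoidHom) ∧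
    K.map (MulAut.conj x).toMonoidHom ≤ Subgroup.normalizer (wOf K : Set G)

/-- KEYB: two `J(T)`-components inside `N_G(W_K)`, `K ∈ 𝒦₀(T)`: the second normalizes the `W` of
the first (if the first lies in some `𝒦₀(T^g)`). -/
def StKeyB : Prop := ∀ {G : Type u} [Group G] [Finite G], ZN G →
  ∀ (T : Subgroup G), IsPGroup 2 ↥T → T ≠ ⊥ →
  ∀ K : Subgroup G, K ∈ jComponentsZero T →
  ∀ K₁ K₂ : Subgroup G, IsJComponent T K₁ →
  (∃ g : G, K₁ ∈ jComponentsZero (T.map (MulAut.conj g).toMonoidHom)) →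
  K₁ ≤ Subgroup.normalizer (wOf K : Set G) →
  IsJComponent T K₂ → K₂ ≤ Subgroup.normalizer (wOf K : Set G) →
  K₂ ≤ Subgroup.normalizer (wOf K₁ : Set G)

/-- KEYC: a subgroup normalizing all `L`-conjugates of `W_K` (`K` subnormal in the maximal
2-local `L`) lies in `L`. -/
def StKeyC : Prop := ∀ {G : Type u} [Group G] [Finite G] (L K Y : Subgroup G),
  IsMaximalTwoLocal L → K ≤ L → (K.subgroupOf L).IsSubnormal →
  IsPGroup 2 ↥(wOf K) → wOf K ≠ ⊥ →
  (∀ x ∈ L, Y ≤ Subgroup.normalizer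
    (((wOf K).map (MulAut.conj x).toMonoidHom : Subgroup G) : Set G)) →
  Y ≤ L

/-- KEY: every `L'`-conjugate of `K` lies in `L`. -/
def StKey : Prop := ∀ {G : Type u} [Group G] [Finite G], ZN G →
  ∀ (T : Subgroup G), IsPGroup 2 ↥T → T ≠ ⊥ →
  ∀ (L L' T₁ T₂ : Subgroup G), IsMaximalTwoLocal L →
  L ∈ jOvergroups T₁ → L' ∈ jOvergroups T₂ →
  thompsonSubgroupOf 2 T₁ = thompsonSubgroupOf 2 T →
  thompsonSubgroupOf 2 T₂ = thompsonSubgroupOf 2 T →
  ∀ K : Subgroup G, K ∈ jComponentsZero T → K ≤ L → K ≤ L' →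
  ∀ y ∈ L', K.map (MulAut.conj y).toMonoidHom ≤ L

/-- ORB: the orbit of `K` under `R = ⟨N_L(J), N_{L'}(J)⟩` stays in `𝒦₀(T)` and in `L ∩ L'`. -/
def StOrb : Prop := ∀ {G : Type u} [Group G] [Finite G], ZN G →
  ∀ (T : Subgroup G), IsPGroup 2 ↥T → T ≠ ⊥ →
  ∀ (L L' T₁ T₂ : Subgroup G), IsMaximalTwoLocal L → IsMaximalTwoLocal L' →
  L ∈ jOvergroups T₁ → L' ∈ jOvergroups T₂ →
  thompsonSubgroupOf 2 T₁ = thompsonSubgroupOf 2 T →
  thompsonSubgroupOf 2 T₂ = thompsonSubgroupOf 2 T →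
  ∀ K : Subgroup G, K ∈ jComponentsZero T → K ≤ L → K ≤ L' →
  ∀ ρ ∈ (L ⊓ Subgroup.normalizer (thompsonSubgroupOf 2 T : Set G)) ⊔
      (L' ⊓ Subgroup.normalizer (thompsonSubgroupOf 2 T : Set G)),
    K.map (MulAut.conj ρ).toMonoidHom ∈ jComponentsZero T ∧
      K.map (MulAut.conj ρ).toMonoidHom ≤ L ∧ K.map (MulAut.conj ρ).toMonoidHom ≤ L'

/-- END: uniqueness. -/
def StEnd : Prop := ∀ {G : Type u} [Group G] [Finite G], ZN G →
  ∀ (T : Subgroup G), IsPGroup 2 ↥T → T ≠ ⊥ →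
  ∀ (L L' T₁ T₂ : Subgroup G), IsMaximalTwoLocal L → IsMaximalTwoLocal L' →
  L ∈ jOvergroups T₁ → L' ∈ jOvergroups T₂ →
  thompsonSubgroupOf 2 T₁ = thompsonSubgroupOf 2 T →
  thompsonSubgroupOf 2 T₂ = thompsonSubgroupOf 2 T →
  ∀ K : Subgroup G, K ∈ jComponentsZero T → K ≤ L → K ≤ L' → L' = L

/-- MAXL: every 2-local subgroup lies in a maximal 2-local subgroup. -/
def StMaxL : Prop := ∀ {G : Type u} [Group G] [Finite G] (N : Subgroup G), IsTwoLocal N →
  ∃ L : Subgroup G, IsMaximalTwoLocal L ∧ N ≤ L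

/-- SYLEX: a 2-subgroup of `N` lies in a Sylow 2-subgroup of `N`. -/
def StSylEx : Prop := ∀ {G : Type u} [Group G] [Finite G] (P N : Subgroup G),
  IsPGroup 2 ↥P → P ≤ N → ∃ S : Subgroup G, P ≤ S ∧ IsSylowTwoIn S N

/-- The statement S2948. -/
def St48 : Prop := ∀ {G : Type u} [Group G] [Finite G], IsCharacteristicTwoType G →
  (∀ N : Subgroup G, IsTwoLocal N → Group.IsSolvable ↥N) →
  (∀ S : Sylow 2 G, Subgroup.centralizer (omegaCenterOf (S : Subgroup G) : Set G) ≤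
      Subgroup.normalizer ((S : Subgroup G) : Set G)) → pCore 2 G = ⊥ →
  ∀ (S : Sylow 2 G) (M : Subgroup G), IsTwoLocal M →
  Subgroup.normalizer (thompsonSubgroupOf 2 (S : Subgroup G) : Set G) ≤ M →
  ∀ T : Subgroup G, T ∈ maxStraddlingTwoSubgroups M →
  ∀ L : Subgroup G, IsTwoLocal L → ¬ L ≤ M → ∀ T₀ : Subgroup G, IsSylowTwoIn T₀ L →
  thompsonSubgroupOf 2 T ≤ T₀ →
  thompsonSubgroupOf 2 T = thompsonSubgroupOf 2 T₀ ∧ T₀ ∈ straddlingTwoSubgroups M ∧
    L ∈ jOvergroups T₀ ∧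
    (T ≤ L → L ∈ jOvergroups T ∧ ∃ K : Subgroup G, IsJComponent T K ∧ K ≤ L)

/-- The statement S2950. -/
def StMain : Prop := ∀ {G : Type u} [Group G] [Finite G], IsCharacteristicTwoType G →
  (∀ N : Subgroup G, IsTwoLocal N → Group.IsSolvable ↥N) →
  (∀ S : Sylow 2 G, Subgroup.centralizer (omegaCenterOf (S : Subgroup G) : Set G) ≤
      Subgroup.normalizer ((S : Subgroup G) : Set G)) → pCore 2 G = ⊥ →
  ∀ (S : Sylow 2 G) (M : Subgroup G), IsTwoLocal M →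
  Subgroup.normalizer (thompsonSubgroupOf 2 (S : Subgroup G) : Set G) ≤ M →
  ∀ T : Subgroup G, T ∈ maxStraddlingTwoSubgroups M →
  ∀ K : Subgroup G, K ∈ jComponentsOutside M T →
  ∃ L : Subgroup G, IsMaximalTwoLocal L ∧ K ⊔ thompsonSubgroupOf 2 T ≤ L ∧
    (∀ L' : Subgroup G, IsMaximalTwoLocal L' → K ⊔ thompsonSubgroupOf 2 T ≤ L' → L' = L) ∧
    (K.subgroupOf L).IsSubnormal ∧ IsSylowTwoIn T L

/-- `𝒦₀(T)` and the notion of `J(T)`-component only depend on `J(T)`. -/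
theorem k0_congr {G : Type u} [Group G] (T T' : Subgroup G)
    (h : thompsonSubgroupOf 2 T' = thompsonSubgroupOf 2 T) :
    jComponentsZero T' = jComponentsZero T ∧ ∀ K : Subgroup G, IsJComponent T' K ↔ IsJComponent T K := by
  have h2 : ∀ K : Subgroup G, IsJComponent T' K ↔ IsJComponent T K := by
    intro K
    unfold IsJComponent
    rw [h]
  refine ⟨?_, h2⟩
  ext K
  unfold jComponentsZero
  simp only [Set.mem_ofPred_eq]
  rw [h2 K, h]

end Cfsg.Agent.H58.Uq
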