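import Mathlib

/-!
# FC: the Frobenius counting lemma (abelian case) — exact Props

`|V| = |C_V(ε)| ^ n` for a finite commutative group `V` acted on by a Frobenius-like pair of
automorphisms `β` (order dividing a prime `r`, fixed-point-free) and `ε` (`ε ^ n = 1`,
`ε β ε⁻¹ = β ^ k` with `k` of multiplicative order exactly `n` modulo `r`).
Used for step (Z) of the B&G 14.1 tail (S1353 / S1354).
-/

set_option autoImplicit false

namespace Cfsg.Agent.H58.FC

universe u

/-- Abstract Frobenius data on a group `T`: automorphisms `β`, `ε` with `β ^ r = 1` (`r` prime),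
`ε ^ n = 1` (`0 < n`), `ε β ε⁻¹ = β ^ k` where no `0 < i < n` has `k ^ i ≡ 1 [MOD r]`, and `β`
fixed-point-free. -/
structure Frob (T : Type u) [Group T] (β ε : MulAut T) (r n k : ℕ) : Prop where
  rprime : r.Prime
  npos : 0 < n
  bpow : β ^ r = 1
  epow : ε ^ n = 1
  conj : ε * β * ε⁻¹ = β ^ k
  kord : ∀ i : ℕ, 0 < i → i < n → ¬ (k ^ i ≡ 1 [MOD r])
  fix : ∀ t : T, β t = t → t = 1

/-- FC-AB: the counting lemma for finite commutative groups (no coprimality needed). -/
def StAb : Prop :=
  ∀ (T : Type u) [CommGroup T] [Finite T] (β ε : MulAut T) (r n k : ℕ),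
    Frob T β ε r n k → Nat.card T = Nat.card {t : T // ε t = t} ^ n

/-- FC-SUB: the same inside an ambient group `G`: `V` a finite commutative subgroup normalized by
`b` (of prime order `r`, fixed-point-free on `V`) and by `e`, where `e` normalizes `⟨b⟩` and
`⟨e⟩` acts faithfully on `⟨b⟩`. Then `|V| = |C_V(e)| ^ (orderOf e)`. -/
def StSub (G : Type u) [Group G] : Prop :=
  ∀ (V : Subgroup G) (b e : G) (r : ℕ), r.Prime → Finite V →
    (∀ x ∈ V, ∀ y ∈ V, x * y = y * x) →
    b ∈ Subgroup.normalizer (V : Set G) → e ∈ Subgroup.normalizer (V : Set G) →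
    orderOf b = r → e ∈ Subgroup.normalizer ((Subgroup.zpowers b : Subgroup G) : Set G) →
    (∀ i : ℕ, e ^ i * b = b * e ^ i → e ^ i = 1) →
    (∀ v ∈ V, b * v = v * b → v = 1) → 0 < orderOf e →
    Nat.card V = Nat.card ↥(V ⊓ Subgroup.centralizer ({e} : Set G)) ^ orderOf e

end Cfsg.Agent.H58.FC
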