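import Mathlib
import Cfsg.Prelude
import Cfsg.Agent.H76.NCKillDefs
import Cfsg.Agent.H58.FCDefs

set_option autoImplicit false

/-!
# Step (Z) of the B&G §14 tail (towards S1353 / S1354): exact Props (helper58)

`NC0 M E A P r p` is helper76's configuration `(NC)` WITHOUT the field `Z`.
`(Z)`: in `(NC0)`, `M ≤ C_G(A₀)` where `A₀ = C_A(M_σ)`.
-/

namespace Cfsg.Agent.H58.KU

open Cfsg Subgroup Cfsg.Agent.H76.NCKill

universe u

/-- The configuration `(NC)` without `(Z)`. -/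
structure NC0 {G : Type u} [Group G] (M E A P : Subgroup G) (r p : ℕ) : Prop where
  coatom : IsCoatom M
  compl : IsComplIn E (sigmaCore M) M
  tau2 : r ∈ tau2 M
  nonab : ∀ S : Sylow r G, ¬ IsMulCommutative (S : Subgroup G)
  AE : A ≤ E
  Ael : IsElementaryAbelian r A
  Acard : Nat.card A = r ^ 2
  PE : P ≤ E
  Pcard : Nat.card P = p
  tau1 : p ∈ tau1 M
  PA0 : P ≤ centralizer ((A0 M A : Subgroup G) : Set G)
  PA : ¬ P ≤ centralizer (A : Set G)
  Kstar : sigmaCore M ⊓ centralizer (P : Set G) ≠ ⊥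

theorem NC0.toNC {G : Type u} [Group G] {M E A P : Subgroup G} {r p : ℕ}
    (h : NC0 M E A P r p) (hZ : M ≤ centralizer ((A0 M A : Subgroup G) : Set G)) :
    NC M E A P r p :=
  ⟨h.coatom, h.compl, h.tau2, h.nonab, h.AE, h.Ael, h.Acard, h.PE, h.Pcard, h.tau1, h.PA0, h.PA,
    h.Kstar, hZ⟩

/-- (Z) the goal of the sub-project. -/
def StZ (G : Type u) [Group G] [Finite G] : Prop :=
  IsMinSimpleOddOrder G → ∀ (M E A P : Subgroup G) (r p : ℕ) [Fact r.Prime],
    NC0 M E A P r p → M ≤ centralizer ((A0 M A : Subgroup G) : Set G)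

/-- (PPGEN) pure: a subgroup `C` containing every element of prime-power order of `E`
contains `E`. -/
def StPPGen (G : Type u) [Group G] [Finite G] : Prop :=
  ∀ (E C : Subgroup G),
    (∀ x ∈ E, (∃ q a : ℕ, q.Prime ∧ orderOf x = q ^ a) → x ∈ C) → E ≤ C

/-- (NORM) `E` normalizes `A₀`. -/
def StZNorm (G : Type u) [Group G] [Finite G] : Prop :=
  IsMinSimpleOddOrder G → ∀ (M E A P : Subgroup G) (r p : ℕ) [Fact r.Prime],
    NC0 M E A P r p → E ≤ normalizer ((A0 M A : Subgroup G) : Set G)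

/-- (HALL) a cyclic Hall `τ₁(M)`-subgroup of `E` containing `P`. -/
def StZHall (G : Type u) [Group G] [Finite G] : Prop :=
  IsMinSimpleOddOrder G → ∀ (M E A P : Subgroup G) (r p : ℕ) [Fact r.Prime],
    NC0 M E A P r p →
    ∃ E1 : Subgroup G, IsPiHallOf (tau1 M) E1 E ∧ IsCyclic E1 ∧ P ≤ E1

/-- (PRIME) prime action: `K* = C_{M_σ}(P)` centralizes `E₁`. -/
def StZPrime (G : Type u) [Group G] [Finite G] : Prop :=
  IsMinSimpleOddOrder G → StPPGen G → ∀ (M E A P : Subgroup G) (r p : ℕ) [Fact r.Prime],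
    NC0 M E A P r p → ∀ E1 : Subgroup G, IsPiHallOf (tau1 M) E1 E → IsCyclic E1 → P ≤ E1 →
      sigmaCore M ⊓ centralizer (P : Set G) ≤ centralizer (E1 : Set G)

/-- (B) the line `B = [A, P] = ⟨b⟩`: order `r`, different from `A₀`, normalized by `C_E(P)`,
and `P` acts faithfully on it. -/
def StZB (G : Type u) [Group G] [Finite G] : Prop :=
  IsMinSimpleOddOrder G → ∀ (M E A P : Subgroup G) (r p : ℕ) [Fact r.Prime],
    NC0 M E A P r p →
    ∃ b ∈ A, orderOf b = r ∧ zpowers b ≠ A0 M A ∧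
      (∀ e ∈ E, (∀ g ∈ P, e * g = g * e) →
        e ∈ normalizer ((zpowers b : Subgroup G) : Set G)) ∧
      (∀ g ∈ P, g * b = b * g → g = 1)

/-- (FAITH) `E₁` acts faithfully on every line `⟨b⟩ ≠ A₀` of `A`. -/
def StZFaith (G : Type u) [Group G] [Finite G] : Prop :=
  IsMinSimpleOddOrder G → ∀ (M E A P : Subgroup G) (r p : ℕ) [Fact r.Prime],
    NC0 M E A P r p → ∀ E1 : Subgroup G, IsPiHallOf (tau1 M) E1 E → P ≤ E1 →
      sigmaCore M ⊓ centralizer (P : Set G) ≤ centralizer (E1 : Set G) →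
      ∀ b ∈ A, orderOf b = r → zpowers b ≠ A0 M A → ∀ e ∈ E1, e * b = b * e → e = 1

/-- (ORD) `|E₁| = p`, by the counting lemma on `V = Z(M_σ)`. -/
def StZOrd (G : Type u) [Group G] [Finite G] : Prop :=
  IsMinSimpleOddOrder G → Cfsg.Agent.H58.FC.StSub G →
    ∀ (M E A P : Subgroup G) (r p : ℕ) [Fact r.Prime],
    NC0 M E A P r p → ∀ E1 : Subgroup G, IsPiHallOf (tau1 M) E1 E → IsCyclic E1 → P ≤ E1 →
      sigmaCore M ⊓ centralizer (P : Set G) ≤ centralizer (E1 : Set G) →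
      ∀ b ∈ A, orderOf b = r → zpowers b ≠ A0 M A →
        (∀ e ∈ E, (∀ g ∈ P, e * g = g * e) →
          e ∈ normalizer ((zpowers b : Subgroup G) : Set G)) →
        (∀ e ∈ E1, e * b = b * e → e = 1) →
        Nat.card E1 = p

/-- (ER) pure: an `r`-element normalizing a subgroup `A₀` of order `r` centralizes it. -/
def StZER (G : Type u) [Group G] [Finite G] : Prop :=
  ∀ (A₀ : Subgroup G) (r : ℕ) [Fact r.Prime], Nat.card A₀ = r →
    ∀ x ∈ normalizer (A₀ : Set G), (∃ a : ℕ, orderOf x = r ^ a) →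
      x ∈ centralizer (A₀ : Set G)

/-- (EDER) pure: if `E` normalizes a subgroup `A₀` of prime order then `E'` centralizes it. -/
def StZEDer (G : Type u) [Group G] [Finite G] : Prop :=
  ∀ (E A₀ : Subgroup G) (r : ℕ) [Fact r.Prime], Nat.card A₀ = r →
    E ≤ normalizer (A₀ : Set G) → ⁅E, E⁆ ≤ centralizer (A₀ : Set G)

/-- (E3) every `τ₃(M)`-element of prime-power order of `E` lies in `E'`. -/
def StZE3 (G : Type u) [Group G] [Finite G] : Prop :=
  IsMinSimpleOddOrder G → ∀ (M E : Subgroup G), IsCoatom M → IsComplIn E (sigmaCore M) M →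
    ∀ x ∈ E, ∀ q a : ℕ, q ∈ tau3 M → orderOf x = q ^ a → x ∈ ⁅E, E⁆

/-- (E1) if `P` is a Hall `τ₁(M)`-subgroup of `E` centralizing `A₀` and `E` normalizes `A₀`, every
`τ₁(M)`-element of prime-power order of `E` centralizes `A₀`. -/
def StZE1 (G : Type u) [Group G] [Finite G] : Prop :=
  IsMinSimpleOddOrder G → ∀ (M E P A₀ : Subgroup G), IsCoatom M →
    IsComplIn E (sigmaCore M) M → IsPiHallOf (tau1 M) P E →
    E ≤ normalizer (A₀ : Set G) → P ≤ centralizer (A₀ : Set G) →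
    ∀ x ∈ E, ∀ q a : ℕ, q ∈ tau1 M → orderOf x = q ^ a → x ∈ centralizer (A₀ : Set G)

/-- (CASES) the primes of `E` lie in `τ₁(M) ∪ τ₂(M) ∪ τ₃(M)`. -/
def StZCases (G : Type u) [Group G] [Finite G] : Prop :=
  IsMinSimpleOddOrder G → ∀ (M E : Subgroup G), IsCoatom M → IsComplIn E (sigmaCore M) M →
    ∀ q : ℕ, q.Prime → q ∣ Nat.card E → q ∈ tau1 M ∨ q ∈ tau2 M ∨ q ∈ tau3 M

end Cfsg.Agent.H58.KU
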