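import Mathlib
import Cfsg.Agent.H58.BG10FG
import Cfsg.Agent.H1.Coprime

set_option autoImplicit false
set_option linter.unusedSectionVars false
set_option linter.style.haveILetI false

/-!
# Bender–Glauberman 10.6 (piece G of BG10) (helper58)
-/

namespace Cfsg.Agent.H58.BG10

open Cfsg Subgroup
open scoped Pointwise

universe u

variable {G : Type u} [Group G]

/-- The join of a subgroup `X` of order `p` with `⟨z⟩`, for `z ∉ X` of order `p` commuting
with `X`, is elementary abelian of order `p ^ 2`. -/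
theorem elem_sq_of_central [Finite G] {p : ℕ} [Fact p.Prime] {X : Subgroup G}
    (hX : Nat.card X = p) {z : G} (hz : z ^ p = 1) (hzX : z ∉ X)
    (hcomm : ∀ x ∈ X, x * z = z * x) :
    IsElementaryAbelian p (X ⊔ zpowers z) ∧ Nat.card (X ⊔ zpowers z : Subgroup G) = p ^ 2 := by
  have hp : p.Prime := Fact.out
  have hz1 : z ≠ 1 := fun h => hzX (h ▸ X.one_mem)
  have hoz : orderOf z = p := by
    have h1 : orderOf z ∣ p := orderOf_dvd_of_pow_eq_one hz
    rcases (Nat.dvd_prime hp).mp h1 with h2 | h2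
    · exact absurd (orderOf_eq_one_iff.mp h2) hz1
    · exact h2
  have hZcard : Nat.card (zpowers z) = p := by rw [Nat.card_zpowers, hoz]
  have hXc : ∀ x ∈ X, ∀ w ∈ zpowers z, x * w = w * x := by
    intro x hx w hw
    obtain ⟨k, rfl⟩ := Subgroup.mem_zpowers_iff.mp hw
    exact ((show Commute x z from hcomm x hx).zpow_right k).eq
  have hXN : X ≤ normalizer ((zpowers z : Subgroup G) : Set G) := by
    intro x hx
    rw [Subgroup.mem_normalizer_iff]
    intro w
    constructor
    · intro hw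
      have : x * w * x⁻¹ = w := by rw [hXc x hx w hw]; group
      rwa [this]
    · intro hw
      have h1 : x⁻¹ * (x * w * x⁻¹) * x = w := by group
      have h2 : x⁻¹ * (x * w * x⁻¹) * x = x * w * x⁻¹ := by
        have := hXc x⁻¹ (X.inv_mem hx) _ hw
        rw [this]; group
      rw [← h1, h2]; exact hw
  have hinf : X ⊓ zpowers z = ⊥ := by
    have hdvd : Nat.card (X ⊓ zpowers z : Subgroup G) ∣ p := by
      rw [← hZcard]; exact Subgroup.card_dvd_of_le inf_le_right
    rcases (Nat.dvd_prime hp).mp hdvd with h1 | h1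
    · exact Subgroup.card_eq_one.mp h1
    · exfalso
      have h2 : X ⊓ zpowers z = zpowers z :=
        Subgroup.eq_of_le_of_card_ge inf_le_right (by rw [h1, hZcard])
      exact hzX ((h2 ▸ inf_le_left : zpowers z ≤ X) (Subgroup.mem_zpowers z))
  have hcard : Nat.card (X ⊔ zpowers z : Subgroup G) = p ^ 2 := by
    rw [Cfsg.Agent.H1.card_sup_of_le_normalizer X (zpowers z) hXN hinf, hX, hZcard, sq]
  have hXab : ∀ x ∈ X, ∀ y ∈ X, x * y = y * x := by
    haveI : Fact (Nat.card X).Prime := ⟨hX ▸ hp⟩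
    haveI : IsCyclic X := isCyclic_of_prime_card (p := Nat.card X) rfl
    intro x hx y hy
    have := (IsCyclic.commGroup (α := X)).mul_comm ⟨x, hx⟩ ⟨y, hy⟩
    exact congrArg Subtype.val this
  have hXp : ∀ x ∈ X, x ^ p = 1 := by
    intro x hx
    have h1 : (⟨x, hx⟩ : X) ^ Nat.card X = 1 := pow_card_eq_one'
    rw [hX] at h1
    exact congrArg Subtype.val h1
  have hZp : ∀ w ∈ zpowers z, w ^ p = 1 := by
    intro w hw
    obtain ⟨k, rfl⟩ := Subgroup.mem_zpowers_iff.mp hw
    rw [← zpow_natCast, ← zpow_mul, mul_comm, zpow_mul, zpow_natCast, hz, one_zpow]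
  have hdec : ∀ a ∈ X ⊔ zpowers z, ∃ x ∈ X, ∃ w ∈ zpowers z, a = x * w := by
    intro a ha
    have h := Subgroup.coe_mul_of_left_le_normalizer_right X (zpowers z) hXN
    have ha' : a ∈ ((X ⊔ zpowers z : Subgroup G) : Set G) := ha
    rw [h] at ha'
    obtain ⟨x, hx, w, hw, rfl⟩ := ha'
    exact ⟨x, hx, w, hw, rfl⟩
  have hZab : ∀ w ∈ zpowers z, ∀ v ∈ zpowers z, w * v = v * w := by
    intro w hw v hv
    obtain ⟨k, rfl⟩ := Subgroup.mem_zpowers_iff.mp hw
    obtain ⟨l, rfl⟩ := Subgroup.mem_zpowers_iff.mp hv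
    rw [← zpow_add, ← zpow_add, add_comm]
  refine ⟨⟨⟨⟨fun a b => ?_⟩⟩, ?_⟩, hcard⟩
  · obtain ⟨x, hx, w, hw, ha⟩ := hdec a a.2
    obtain ⟨y, hy, v, hv, hb⟩ := hdec b b.2
    apply Subtype.ext
    show (a : G) * (b : G) = (b : G) * (a : G)
    rw [ha, hb]
    have e1 := hXab x hx y hy
    have e2 := hXc x hx v hv
    have e3 := hXc y hy w hw
    have e4 := hZab w hw v hv
    calc x * w * (y * v) = x * (w * y) * v := by group
      _ = x * (y * w) * v := by rw [e3]
      _ = (x * y) * (w * v) := by group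
      _ = (y * x) * (v * w) := by rw [e1, e4]
      _ = y * (x * v) * w := by group
      _ = y * (v * x) * w := by rw [e2]
      _ = y * v * (x * w) := by group
  · intro a ha
    obtain ⟨x, hx, w, hw, rfl⟩ := hdec a ha
    rw [(show Commute x w from hXc x hx w hw).mul_pow, hXp x hx, hZp w hw, one_mul]

/-- Piece G: B&G 10.6. -/
theorem bg106 [Finite G] (hG : IsMinSimpleOddOrder G) (h96 : St1403 G) (h105 : St1408 G) :
    St1409 G := by
  intro M hM p _ hpσ X hXcard hNX
  have hp : p.Prime := Fact.out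
  have hp12 : p ^ 1 < p ^ 2 := Nat.pow_lt_pow_right hp.one_lt (by norm_num)
  have hXM : X ≤ M := Subgroup.le_normalizer.trans hNX
  have hr2 : PRankLE p 2 ↥M := by
    by_contra hr
    exact hpσ (alpha_subset_sigma hG h96 hM ⟨hp, hr⟩)
  have hXpg : IsPGroup p (X.subgroupOf M) := by
    refine IsPGroup.of_card (n := 1) ?_
    rw [pow_one, ← hXcard]
    exact Nat.card_congr (Subgroup.subgroupOfEquivOfLe hXM).toEquiv
  obtain ⟨P, hXP⟩ := hXpg.exists_le_sylow
  set S : Subgroup G := (P : Subgroup M).map M.subtype with hS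
  have hSM : S ≤ M := Subgroup.map_subtype_le _
  have hXS : X ≤ S := by
    intro x hx
    exact ⟨⟨x, hXM hx⟩, hXP (Subgroup.mem_subgroupOf.mpr hx), rfl⟩
  have hpM : p ∣ Nat.card M := hXcard ▸ Subgroup.card_dvd_of_le hXM
  have hNS : ¬ normalizer (S : Set G) ≤ M := fun h => hpσ ⟨hp, hpM, P, h⟩
  have hSpg : IsPGroup p S := P.isPGroup'.map _
  have hX1 : X ≠ ⊥ := by
    rintro rfl
    rw [Subgroup.card_bot] at hXcard
    exact hp.one_lt.ne hXcard
  have hS1 : Nontrivial S := by
    obtain ⟨x, hx1⟩ := (Subgroup.ne_bot_iff_exists_ne_one).mp hX1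
    exact ⟨⟨⟨(x : G), hXS x.2⟩, 1, fun h => hx1 (Subtype.ext (congrArg (fun t : S => (t : G)) h))⟩⟩
  -- an element of order `p` in the centre of `S` outside `X`
  obtain ⟨z, hzS, hzp, hzc, hzX⟩ : ∃ z ∈ S, z ^ p = 1 ∧ (∀ s ∈ S, s * z = z * s) ∧ z ∉ X := by
    by_contra hcon
    push Not at hcon
    apply hNS
    -- a nontrivial central element of order `p`
    haveI : Nontrivial (center S) := hSpg.center_nontrivial
    have hpc : p ∣ Nat.card (center S) := by
      obtain ⟨n, hn⟩ := IsPGroup.iff_card.mp (hSpg.to_subgroup (center S))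
      have hn0 : n ≠ 0 := by
        rintro rfl
        rw [pow_zero] at hn
        exact (Subgroup.one_lt_card_iff_ne_bot _).mpr
          (Subgroup.nontrivial_iff_ne_bot _ |>.mp inferInstance) |>.ne' hn
      rw [hn]; exact dvd_pow_self p hn0
    obtain ⟨z₀, hz₀⟩ := exists_prime_orderOf_dvd_card' p hpc
    have hz₀1 : ((z₀ : S) : G) ≠ 1 := by
      intro h
      have : z₀ = 1 := Subtype.ext (Subtype.ext h)
      rw [this, orderOf_one] at hz₀
      exact hp.one_lt.ne hz₀
    have hz₀p : ((z₀ : S) : G) ^ p = 1 := by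
      have : z₀ ^ p = 1 := hz₀ ▸ pow_orderOf_eq_one z₀
      have h2 := congrArg (fun t : center S => ((t : S) : G)) this
      simpa using h2
    have hz₀c : ∀ s ∈ S, s * ((z₀ : S) : G) = ((z₀ : S) : G) * s := by
      intro s hs
      have := Subgroup.mem_center_iff.mp z₀.2 ⟨s, hs⟩
      exact congrArg Subtype.val this
    have hz₀X : ((z₀ : S) : G) ∈ X := hcon _ (z₀ : S).2 hz₀p hz₀c
    have hXeq : X = zpowers ((z₀ : S) : G) := by
      symm
      apply Subgroup.eq_of_le_of_card_ge ((Subgroup.zpowers_le).mpr hz₀X)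
      rw [Nat.card_zpowers, hXcard]
      have h1 : orderOf ((z₀ : S) : G) ∣ p := orderOf_dvd_of_pow_eq_one hz₀p
      rcases (Nat.dvd_prime hp).mp h1 with h2 | h2
      · exact absurd (orderOf_eq_one_iff.mp h2) hz₀1
      · exact h2.ge
    refine le_trans ?_ hNX
    intro g hg
    have hgz : g * ((z₀ : S) : G) * g⁻¹ ∈ X := by
      have hmem : g * ((z₀ : S) : G) * g⁻¹ ∈ S :=
        (Subgroup.mem_normalizer_iff.mp hg _).mp (z₀ : S).2
      refine hcon _ hmem ?_ ?_
      · rw [conj_pow, hz₀p]; group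
      · intro s hs
        have hs' : g⁻¹ * s * g ∈ S := by
          have := (Subgroup.mem_normalizer_iff.mp (Subgroup.inv_mem _ hg) s).mp hs
          simpa using this
        have := hz₀c _ hs'
        calc s * (g * ((z₀ : S) : G) * g⁻¹) = g * ((g⁻¹ * s * g) * ((z₀ : S) : G)) * g⁻¹ := by group
          _ = g * (((z₀ : S) : G) * (g⁻¹ * s * g)) * g⁻¹ := by rw [this]
          _ = g * ((z₀ : S) : G) * g⁻¹ * s := by group
    have hconjle : ∀ x ∈ X, g * x * g⁻¹ ∈ X := by
      intro x hx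
      rw [hXeq] at hx
      obtain ⟨k, rfl⟩ := Subgroup.mem_zpowers_iff.mp hx
      have : g * ((z₀ : S) : G) ^ k * g⁻¹ = (g * ((z₀ : S) : G) * g⁻¹) ^ k := by
        rw [conj_zpow]
      rw [this]
      exact X.zpow_mem hgz k
    -- `g` normalizes `X`
    rw [Subgroup.mem_normalizer_iff]
    intro x
    constructor
    · exact hconjle x
    · intro hx
      -- conjugation by `g` is an injective self-map of the finite set `X`
      have hinj : Function.Injective (fun x : X => (⟨g * x * g⁻¹, hconjle x x.2⟩ : X)) := by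
        intro a b hab
        have := congrArg Subtype.val hab
        simp only [mul_left_inj, mul_right_inj] at this
        exact Subtype.ext this
      obtain ⟨y, hy⟩ := (Finite.injective_iff_surjective.mp hinj) ⟨g * x * g⁻¹, hx⟩
      have := congrArg Subtype.val hy
      simp only [mul_left_inj, mul_right_inj] at this
      rw [← this]; exact y.2
  have hcomm : ∀ x ∈ X, x * z = z * x := fun x hx => hzc x (hXS hx)
  obtain ⟨hAe, hAcard⟩ := elem_sq_of_central hXcard hzp hzX hcomm
  have hAM : X ⊔ zpowers z ≤ M :=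
    sup_le hXM ((Subgroup.zpowers_le).mpr (hSM hzS))
  have hr1 : ¬ PRankLE p 1 ↥M :=
    Cfsg.Agent.H31.BG8.not_pRankLE_of_le hAM hAe (hAcard ▸ hp12)
  exact ⟨⟨hr2, hr1⟩, (h105 M hM p hpσ hr2 hr1).1, X ⊔ zpowers z, hAe, hAcard, le_sup_left⟩

end Cfsg.Agent.H58.BG10
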