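import Mathlib
import Cfsg.Agent.S1403
import Cfsg.Agent.H58.BG10G
import Cfsg.Agent.H63.SigMain
import Cfsg.Agent.H3.BG10B
import Cfsg.Agent.H38.BG10C
import Cfsg.Agent.H70.BG10D
import Cfsg.Agent.H51.BG10E

set_option autoImplicit false

/-!
# Bender–Glauberman §10: the statements S1403–S1409 for a minimal simple group of odd order
(assembly of the BG10 team project pieces; helper58)
-/

namespace Cfsg.Agent.H58.BG10

open Cfsg Subgroup

universe u

variable {G : Type u} [Group G] [Finite G]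

theorem st1403 (hG : IsMinSimpleOddOrder G) : St1403 G :=
  fun K hK hK2 hK3 => Cfsg.Agent.S1403.result hG K hK hK2 hK3

theorem st1404 (hG : IsMinSimpleOddOrder G) : St1404 G :=
  Cfsg.Agent.H63.Sig.bg101_of_uniq hG (st1403 hG)

theorem stSigComm (hG : IsMinSimpleOddOrder G) : StSigComm G :=
  Cfsg.Agent.H3.BG10.sigComm hG (st1404 hG)

theorem st1405 (hG : IsMinSimpleOddOrder G) : St1405 G :=
  Cfsg.Agent.H38.BG10C.bg102 hG (st1403 hG) (stSigComm hG)

theorem st1406 (hG : IsMinSimpleOddOrder G) : St1406 G :=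
  Cfsg.Agent.H70.BG10.bg103 hG (st1403 hG) (st1405 hG)

theorem st1407 (hG : IsMinSimpleOddOrder G) : St1407 G :=
  Cfsg.Agent.H51.BG10.bg104 hG (st1403 hG) (st1406 hG)

theorem st1408 (hG : IsMinSimpleOddOrder G) : St1408 G :=
  bg105 hG (st1403 hG)

theorem st1409 (hG : IsMinSimpleOddOrder G) : St1409 G :=
  bg106 hG (st1403 hG) (st1408 hG)

end Cfsg.Agent.H58.BG10
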