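import Mathlib

/-!
# Linear algebra of "Frobenius actions"

* `free_graded`: a finite group `R` permuting freely the summands of a direct sum decomposition
  of a finite-dimensional space `W` has `dim W = |R| * dim Fix(R)`.
-/

set_option autoImplicit false
set_option linter.unusedSectionVars false
set_option linter.style.haveILetI false

namespace Cfsg.Agent.H58.FrobLin

open Module

section FreeGraded

variable {L W R Ξ : Type*} [Field L] [AddCommGroup W] [Module L W]
  [Group R] [MulAction R Ξ]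

/-- The subspace of vectors fixed by a representation. -/
def fixedSub (ρ : R →* Module.End L W) : Submodule L W where
  carrier := {w | ∀ r : R, ρ r w = w}
  add_mem' := by intro a b ha hb r; rw [map_add, ha r, hb r]
  zero_mem' := by intro r; rw [map_zero]
  smul_mem' := by intro c a ha r; rw [map_smul, ha r]

theorem mem_fixedSub (ρ : R →* Module.End L W) (w : W) :
    w ∈ fixedSub ρ ↔ ∀ r : R, ρ r w = w := Iff.rfl

theorem rho_inv_apply (ρ : R →* Module.End L W) (r : R) (w : W) : ρ r⁻¹ (ρ r w) = w := by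
  have : ρ r⁻¹ * ρ r = 1 := by rw [← map_mul, inv_mul_cancel, map_one]
  calc ρ r⁻¹ (ρ r w) = (ρ r⁻¹ * ρ r) w := rfl
    _ = w := by rw [this]; rfl

theorem rho_apply_inv (ρ : R →* Module.End L W) (r : R) (w : W) : ρ r (ρ r⁻¹ w) = w := by
  have := rho_inv_apply ρ r⁻¹ w
  rwa [inv_inv] at this

theorem finrank_eq_of_maps [FiniteDimensional L W] (ρ : R →* Module.End L W) (M : Ξ → Submodule L W)
    (hmap : ∀ (r : R) (x : Ξ) (w : W), w ∈ M x → ρ r w ∈ M (r • x)) (r : R) (x : Ξ) :
    finrank L (M (r • x)) = finrank L (M x) := by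
  have key : ∀ (r : R) (x : Ξ), finrank L (M x) ≤ finrank L (M (r • x)) := by
    intro r x
    let f : M x →ₗ[L] M (r • x) := (ρ r).restrict (fun w hw => hmap r x w hw)
    have hf : Function.Injective f := by
      intro a b hab
      have h1 : ρ r (a : W) = ρ r (b : W) := congrArg Subtype.val hab
      have h2 := congrArg (ρ r⁻¹) h1
      rw [rho_inv_apply, rho_inv_apply] at h2
      exact Subtype.ext h2
    exact LinearMap.finrank_le_finrank_of_injective hf
  apply le_antisymm
  · have := key r⁻¹ (r • x)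
    rwa [inv_smul_smul] at this
  · exact key r x

theorem free_graded [FiniteDimensional L W] [Finite R] [Finite Ξ]
    (ρ : R →* Module.End L W) (M : Ξ → Submodule L W)
    (hind : iSupIndep M) (htop : ⨆ x, M x = ⊤)
    (hmap : ∀ (r : R) (x : Ξ) (w : W), w ∈ M x → ρ r w ∈ M (r • x))
    (hfree : ∀ (r : R) (x : Ξ), r • x = x → r = 1) :
    finrank L W = Nat.card R * finrank L (fixedSub ρ) := by
  classical
  have : Fintype R := Fintype.ofFinite R
  have : Fintype Ξ := Fintype.ofFinite Ξ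
  let Q := Quotient (MulAction.orbitRel R Ξ)
  have : Fintype Q := Fintype.ofFinite Q
  -- the parametrisation of `Ξ`
  have hmk : ∀ (r : R) (x : Ξ), (Quotient.mk (MulAction.orbitRel R Ξ) (r • x)) =
      Quotient.mk (MulAction.orbitRel R Ξ) x := by
    intro r x
    apply Quotient.sound
    show MulAction.orbitRel R Ξ (r • x) x
    rw [MulAction.orbitRel_apply]
    exact MulAction.mem_orbit x r
  have hbij : Function.Bijective (fun p : Q × R => p.2 • (Quotient.out p.1 : Ξ)) := by
    constructor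
    · rintro ⟨q, r⟩ ⟨q', r'⟩ h
      simp only at h
      have hq : q = q' := by
        have h1 := congrArg (Quotient.mk (MulAction.orbitRel R Ξ)) h
        rwa [hmk, hmk, Quotient.out_eq, Quotient.out_eq] at h1
      subst hq
      have h2 : (r'⁻¹ * r) • (Quotient.out q : Ξ) = Quotient.out q := by
        rw [mul_smul, h, inv_smul_smul]
      have h3 := hfree _ _ h2
      have h4 : r = r' := by
        have := congrArg (fun t => r' * t) h3
        simpa using this
      rw [h4]
    · intro x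
      have h1 : MulAction.orbitRel R Ξ (Quotient.out (Quotient.mk (MulAction.orbitRel R Ξ) x)) x :=
        Quotient.exact (Quotient.out_eq _)
      rw [MulAction.orbitRel_apply] at h1
      obtain ⟨r, hr⟩ := h1
      refine ⟨(Quotient.mk (MulAction.orbitRel R Ξ) x, r⁻¹), ?_⟩
      show r⁻¹ • (Quotient.out (Quotient.mk (MulAction.orbitRel R Ξ) x) : Ξ) = x
      rw [← hr, inv_smul_smul]
  let eqv : Q × R ≃ Ξ := Equiv.ofBijective _ hbij
  have heqv : ∀ (q : Q) (r : R), eqv (q, r) = r • (Quotient.out q : Ξ) := fun q r => rfl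
  -- dimension of `W`
  have hint : DirectSum.IsInternal M :=
    DirectSum.isInternal_submodule_of_iSupIndep_of_iSup_eq_top hind htop
  have hW : finrank L W = ∑ x : Ξ, finrank L (M x) := by
    have e1 : (DirectSum Ξ fun x => M x) ≃ₗ[L] W :=
      LinearEquiv.ofBijective (DirectSum.coeLinearMap M) hint
    have e2 : (DirectSum Ξ fun x => M x) ≃ₗ[L] (∀ x, M x) :=
      DirectSum.linearEquivFunOnFintype L Ξ (fun x => M x)
    rw [← e1.finrank_eq, e2.finrank_eq, Module.finrank_pi_fintype]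
  have hW2 : finrank L W = Fintype.card R * ∑ q : Q, finrank L (M (Quotient.out q)) := by
    rw [hW, ← Equiv.sum_comp eqv, Fintype.sum_prod_type, Finset.mul_sum]
    apply Finset.sum_congr rfl
    intro q _
    have h1 : ∀ r : R, finrank L (M (eqv (q, r))) = finrank L (M (Quotient.out q)) := fun r => by
      rw [heqv]; exact finrank_eq_of_maps ρ M hmap r (Quotient.out q)
    rw [Finset.sum_congr rfl (fun r _ => h1 r), Finset.sum_const, Finset.card_univ, smul_eq_mul]
  -- the map `Φ`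
  let U := ∀ q : Q, M (Quotient.out q)
  let Φ : (R → U) →ₗ[L] W :=
    ∑ r : R, ∑ q : Q, (ρ r) ∘ₗ (M (Quotient.out q)).subtype ∘ₗ
      (LinearMap.proj q : U →ₗ[L] M (Quotient.out q)) ∘ₗ (LinearMap.proj r : (R → U) →ₗ[L] U)
  have hΦ : ∀ f : R → U, Φ f = ∑ r : R, ∑ q : Q, ρ r (f r q : W) := by
    intro f
    simp only [Φ, LinearMap.sum_apply, LinearMap.comp_apply, LinearMap.proj_apply,
      Submodule.subtype_apply]
  have hΦsurj : Function.Surjective Φ := by
    rw [← LinearMap.range_eq_top, eq_top_iff, ← htop]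
    apply iSup_le
    intro x w hw
    obtain ⟨⟨q, r⟩, hqr⟩ := eqv.surjective x
    rw [heqv] at hqr
    have hw' : ρ r⁻¹ w ∈ M (Quotient.out q) := by
      have := hmap r⁻¹ x w hw
      rwa [← hqr, inv_smul_smul] at this
    refine ⟨Pi.single r (Pi.single q ⟨ρ r⁻¹ w, hw'⟩), ?_⟩
    rw [hΦ, Finset.sum_eq_single r, Finset.sum_eq_single q]
    · rw [Pi.single_eq_same, Pi.single_eq_same]
      exact rho_apply_inv ρ r w
    · intro q' _ hq'
      rw [Pi.single_eq_same, Pi.single_eq_of_ne hq', ZeroMemClass.coe_zero, map_zero]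
    · intro h; exact absurd (Finset.mem_univ q) h
    · intro r' _ hr'
      apply Finset.sum_eq_zero
      intro q' _
      rw [Pi.single_eq_of_ne hr', Pi.zero_apply, ZeroMemClass.coe_zero, map_zero]
    · intro h; exact absurd (Finset.mem_univ r) h
  have hdim : finrank L (R → U) = finrank L W := by
    rw [hW2, Module.finrank_pi_fintype, Finset.sum_const, Finset.card_univ, smul_eq_mul,
      Module.finrank_pi_fintype]
  have hΦinj : Function.Injective Φ :=
    (LinearMap.injective_iff_surjective_of_finrank_eq_finrank hdim).mpr hΦsurj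
  -- equivariance
  have hequiv : ∀ (s : R) (f : R → U), ρ s (Φ f) = Φ (fun r => f (s⁻¹ * r)) := by
    intro s f
    rw [hΦ, hΦ, map_sum]
    refine Fintype.sum_equiv (Equiv.mulLeft s) _ _ (fun r => ?_)
    rw [map_sum]
    apply Finset.sum_congr rfl
    intro q _
    rw [Equiv.coe_mulLeft, inv_mul_cancel_left, map_mul]; rfl
  -- the fixed subspace
  let κ : U →ₗ[L] (R → U) := LinearMap.pi (fun _ => LinearMap.id)
  have hκ : ∀ u r, κ u r = u := fun u r => rfl
  have hfix : fixedSub ρ = LinearMap.range (Φ ∘ₗ κ) := by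
    apply le_antisymm
    · intro w hw
      obtain ⟨f, rfl⟩ := hΦsurj w
      have hconst : ∀ r, f r = f 1 := by
        intro r
        have h1 := hw r⁻¹
        rw [hequiv] at h1
        have h2 := congrFun (hΦinj h1) 1
        simpa using h2
      refine ⟨f 1, ?_⟩
      rw [LinearMap.comp_apply]
      congr 1
      funext r
      rw [hκ, hconst r]
    · rintro w ⟨u, rfl⟩ s
      rw [LinearMap.comp_apply, hequiv]
      rfl
  have hinj2 : Function.Injective (Φ ∘ₗ κ) := by
    intro u u' h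
    have := hΦinj h
    have h1 := congrFun this 1
    simpa [hκ] using h1
  have hF : finrank L (fixedSub ρ) = ∑ q : Q, finrank L (M (Quotient.out q)) := by
    rw [hfix, LinearMap.finrank_range_of_inj hinj2, Module.finrank_pi_fintype]
  rw [hW2, hF, Nat.card_eq_fintype_card]

theorem finrank_eq_sum_of_internal {Ξ : Type*} [FiniteDimensional L W] [Fintype Ξ] (M : Ξ → Submodule L W)
    (hind : iSupIndep M) (htop : ⨆ x, M x = ⊤) :
    finrank L W = ∑ x : Ξ, finrank L (M x) := by
  classical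
  have hint : DirectSum.IsInternal M :=
    DirectSum.isInternal_submodule_of_iSupIndep_of_iSup_eq_top hind htop
  have e1 : (DirectSum Ξ fun x => M x) ≃ₗ[L] W :=
    LinearEquiv.ofBijective (DirectSum.coeLinearMap M) hint
  have e2 : (DirectSum Ξ fun x => M x) ≃ₗ[L] (∀ x, M x) :=
    DirectSum.linearEquivFunOnFintype L Ξ (fun x => M x)
  rw [← e1.finrank_eq, e2.finrank_eq, Module.finrank_pi_fintype]

end FreeGraded

section Weights

variable {L W E : Type*} [Field L] [AddCommGroup W] [Module L W] [Group E]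
  (ρ : E →* Module.End L W) (A : Subgroup E)

/-- Simultaneous eigenspace of the operators `ρ a`, `a ∈ A`. -/
def wt (χ : A → L) : Submodule L W := ⨅ a : A, (ρ (a : E)).eigenspace (χ a)

theorem mem_wt (χ : A → L) (w : W) :
    w ∈ wt ρ A χ ↔ ∀ a : A, ρ (a : E) w = χ a • w := by
  unfold wt
  rw [Submodule.mem_iInf]
  constructor
  · intro h a
    exact Module.End.mem_eigenspace_iff.mp (h a)
  · intro h a
    exact Module.End.mem_eigenspace_iff.mpr (h a)

theorem wt_eq_maxGen (hss : ∀ a : A, (ρ (a : E)).IsSemisimple) (χ : A → L) :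
    wt ρ A χ = ⨅ a : A, (ρ (a : E)).maxGenEigenspace (χ a) := by
  unfold wt
  congr 1
  funext a
  rw [(hss a).isFinitelySemisimple.maxGenEigenspace_eq_eigenspace]

theorem wt_indep (hss : ∀ a : A, (ρ (a : E)).IsSemisimple)
    (hcomm : ∀ a b : A, Commute (ρ (a : E)) (ρ (b : E))) : iSupIndep (wt ρ A) := by
  have h := Module.End.independent_iInf_maxGenEigenspace_of_forall_mapsTo
    (fun a : A => ρ (a : E))
    (fun i j φ => Module.End.mapsTo_maxGenEigenspace_of_comm (hcomm j i) φ)
  have : wt ρ A = fun χ : A → L => ⨅ a : A, (ρ (a : E)).maxGenEigenspace (χ a) := by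
    funext χ; exact wt_eq_maxGen ρ A hss χ
  rw [this]
  exact h

theorem wt_top [IsAlgClosed L] [FiniteDimensional L W] (hss : ∀ a : A, (ρ (a : E)).IsSemisimple)
    (hcomm : ∀ a b : A, Commute (ρ (a : E)) (ρ (b : E))) : ⨆ χ, wt ρ A χ = ⊤ := by
  have h := Module.End.iSup_iInf_maxGenEigenspace_eq_top_of_iSup_maxGenEigenspace_eq_top_of_commute
    (fun a : A => ρ (a : E)) (fun i j _ => hcomm i j)
    (fun i => Module.End.iSup_maxGenEigenspace_eq_top _)
  have : wt ρ A = fun χ : A → L => ⨅ a : A, (ρ (a : E)).maxGenEigenspace (χ a) := by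
    funext χ; exact wt_eq_maxGen ρ A hss χ
  rw [this]
  exact h

variable [hA : A.Normal]

/-- The action of `E` on weights of the normal subgroup `A`. -/
def tw (g : E) (χ : A → L) : A → L := fun a => χ ⟨g⁻¹ * a * g, by
  have := hA.conj_mem a a.2 g⁻¹
  rwa [inv_inv] at this⟩

theorem tw_apply (g : E) (χ : A → L) (a : A) (h : g⁻¹ * a * g ∈ A) :
    tw A g χ a = χ ⟨g⁻¹ * a * g, h⟩ := rfl

theorem map_wt (g : E) (χ : A → L) (w : W) (hw : w ∈ wt ρ A χ) :
    ρ g w ∈ wt ρ A (tw A g χ) := by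
  rw [mem_wt] at hw ⊢
  intro a
  have ha : g⁻¹ * a * g ∈ A := by
    have := hA.conj_mem a a.2 g⁻¹
    rwa [inv_inv] at this
  have h1 := hw ⟨g⁻¹ * a * g, ha⟩
  have h2 : ρ (a : E) * ρ g = ρ g * ρ (g⁻¹ * a * g) := by
    rw [← map_mul, ← map_mul]; congr 1; group
  calc ρ (a : E) (ρ g w) = (ρ (a : E) * ρ g) w := rfl
    _ = ρ g (ρ (g⁻¹ * a * g) w) := by rw [h2]; rfl
    _ = ρ g (χ ⟨g⁻¹ * a * g, ha⟩ • w) := by rw [← h1]
    _ = tw A g χ a • ρ g w := by rw [map_smul]; rfl

/-- The weights that occur. -/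
def WtIdx := {χ : A → L // wt ρ A χ ≠ ⊥}

instance : MulAction E (WtIdx ρ A) where
  smul g x := ⟨tw A g x.1, by
    intro h
    apply x.2
    rw [eq_bot_iff]
    intro w hw
    have h1 := map_wt ρ A g x.1 w hw
    rw [h, Submodule.mem_bot] at h1
    have h2 := rho_inv_apply ρ g w
    rw [h1, map_zero] at h2
    rw [Submodule.mem_bot]; exact h2.symm⟩
  one_smul x := by
    apply Subtype.ext
    funext a
    show x.1 _ = x.1 a
    exact congrArg x.1 (Subtype.ext (by show (1 : E)⁻¹ * a * 1 = a; group))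
  mul_smul g h x := by
    apply Subtype.ext
    funext a
    show x.1 _ = x.1 _
    exact congrArg x.1 (Subtype.ext (by
      show (g * h)⁻¹ * a * (g * h) = h⁻¹ * (g⁻¹ * a * g) * h
      group))

theorem smul_val (g : E) (x : WtIdx ρ A) : (g • x).1 = tw A g x.1 := rfl

theorem wtIdx_finite [FiniteDimensional L W] (hss : ∀ a : A, (ρ (a : E)).IsSemisimple)
    (hcomm : ∀ a b : A, Commute (ρ (a : E)) (ρ (b : E))) : Finite (WtIdx ρ A) := by
  have := WellFoundedGT.finite_ne_bot_of_iSupIndep (wt_indep ρ A hss hcomm)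
  exact this.to_subtype

theorem wtIdx_indep (hss : ∀ a : A, (ρ (a : E)).IsSemisimple)
    (hcomm : ∀ a b : A, Commute (ρ (a : E)) (ρ (b : E))) :
    iSupIndep (fun x : WtIdx ρ A => wt ρ A x.1) :=
  (wt_indep ρ A hss hcomm).comp Subtype.val_injective

theorem wtIdx_top [IsAlgClosed L] [FiniteDimensional L W]
    (hss : ∀ a : A, (ρ (a : E)).IsSemisimple)
    (hcomm : ∀ a b : A, Commute (ρ (a : E)) (ρ (b : E))) :
    ⨆ x : WtIdx ρ A, wt ρ A x.1 = ⊤ := by
  rw [← wt_top ρ A hss hcomm]
  exact iSup_ne_bot_subtype (wt ρ A)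

theorem tw_one (χ : A → L) : tw A (1 : E) χ = χ := by
  funext a
  exact congrArg χ (Subtype.ext (by show (1 : E)⁻¹ * a * 1 = a; group))

theorem tw_mul (g h : E) (χ : A → L) : tw A (g * h) χ = tw A g (tw A h χ) := by
  funext a
  exact congrArg χ (Subtype.ext (by
    show (g * h)⁻¹ * a * (g * h) = h⁻¹ * (g⁻¹ * a * g) * h
    group))

/-- The stabiliser of a weight. -/
def twStab (χ : A → L) : Subgroup E where
  carrier := {g | tw A g χ = χ}
  mul_mem' := by
    intro x y hx hy
    show tw A (x * y) χ = χ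
    rw [tw_mul, (show tw A y χ = χ from hy), (show tw A x χ = χ from hx)]
  one_mem' := tw_one A χ
  inv_mem' := by
    intro x hx
    show tw A x⁻¹ χ = χ
    have h := tw_mul A x⁻¹ x χ
    rw [inv_mul_cancel, tw_one, (show tw A x χ = χ from hx)] at h
    exact h.symm

theorem fixed_of_tw_eq (r : E)
    (hgen : ∀ S : Subgroup E,
      (∀ b ∈ A, ∀ g ∈ Subgroup.zpowers r, b⁻¹ * (g * b * g⁻¹) ∈ S) →
      (∀ a ∈ A, ρ a = 1 → a ∈ S) → A ≤ S)
    (χ : A → L) (hχ : tw A r χ = χ) (w : W) (hw : w ∈ wt ρ A χ) (a : A) :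
    ρ (a : E) w = w := by
  let S : Subgroup E :=
    { carrier := {e | ρ e w = w}
      mul_mem' := by
        intro x y hx hy
        show ρ (x * y) w = w
        rw [map_mul]
        show ρ x (ρ y w) = w
        rw [(show ρ y w = w from hy), (show ρ x w = w from hx)]
      one_mem' := by show ρ 1 w = w; rw [map_one]; rfl
      inv_mem' := by
        intro x hx
        show ρ x⁻¹ w = w
        have h := rho_inv_apply ρ x w
        rw [(show ρ x w = w from hx)] at h
        exact h }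
  have hS : A ≤ S := by
    apply hgen S
    · intro b hb g hg
      have hgχ : tw A g χ = χ :=
        (Subgroup.zpowers_le.mpr (show r ∈ twStab A χ from hχ)) hg
      have hb' : g * b * g⁻¹ ∈ A := hA.conj_mem b hb g
      rw [mem_wt] at hw
      have h1 := hw ⟨g * b * g⁻¹, hb'⟩
      have h2 : χ ⟨g * b * g⁻¹, hb'⟩ = χ ⟨b, hb⟩ := by
        have h3 := congrFun hgχ ⟨g * b * g⁻¹, hb'⟩
        rw [← h3]
        exact congrArg χ (Subtype.ext (by show g⁻¹ * (g * b * g⁻¹) * g = b; group))
      rw [h2, ← hw ⟨b, hb⟩] at h1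
      show ρ (b⁻¹ * (g * b * g⁻¹)) w = w
      rw [map_mul]
      show ρ b⁻¹ (ρ (g * b * g⁻¹) w) = w
      rw [h1]
      exact rho_inv_apply ρ b w
    · intro a' _ h1
      show ρ a' w = w
      rw [h1]; rfl
  exact hS a.2

theorem free_of_frob (R : Subgroup E)
    (hfrob : ∀ r ∈ R, r ≠ 1 → ∀ S : Subgroup E,
      (∀ b ∈ A, ∀ g ∈ Subgroup.zpowers r, b⁻¹ * (g * b * g⁻¹) ∈ S) →
      (∀ a ∈ A, ρ a = 1 → a ∈ S) → A ≤ S)
    (hfix : ∀ w : W, (∀ a : A, ρ (a : E) w = w) → w = 0)
    (r : R) (x : WtIdx ρ A) (h : r • x = x) : r = 1 := by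
  by_contra hr
  apply x.2
  rw [eq_bot_iff]
  intro w hw
  rw [Submodule.mem_bot]
  apply hfix
  have hr' : (r : E) ≠ 1 := fun h1 => hr (Subtype.ext h1)
  have h2 : tw A (r : E) x.1 = x.1 := congrArg Subtype.val h
  exact fixed_of_tw_eq ρ A (r : E) (hfrob r r.2 hr') x.1 h2 w hw

/-- **Freeness**: dimension formula for a Frobenius-type action. -/
theorem frob_finrank [IsAlgClosed L] [FiniteDimensional L W] (R : Subgroup E) [Finite R]
    (hcomm : ∀ a b : A, Commute (ρ (a : E)) (ρ (b : E)))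
    (hss : ∀ a : A, (ρ (a : E)).IsSemisimple)
    (hfrob : ∀ r ∈ R, r ≠ 1 → ∀ S : Subgroup E,
      (∀ b ∈ A, ∀ g ∈ Subgroup.zpowers r, b⁻¹ * (g * b * g⁻¹) ∈ S) →
      (∀ a ∈ A, ρ a = 1 → a ∈ S) → A ≤ S)
    (hfix : ∀ w : W, (∀ a : A, ρ (a : E) w = w) → w = 0) :
    finrank L W = Nat.card R * finrank L (fixedSub (ρ.comp R.subtype)) := by
  haveI : Finite (WtIdx ρ A) := wtIdx_finite ρ A hss hcomm
  apply free_graded (ρ.comp R.subtype) (fun x : WtIdx ρ A => wt ρ A x.1)
    (wtIdx_indep ρ A hss hcomm) (wtIdx_top ρ A hss hcomm)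
  · intro r x w hw
    exact map_wt ρ A (r : E) x.1 w hw
  · intro r x h
    exact free_of_frob ρ A R hfrob hfix r x h

/-- If moreover `dim W = |R| = p` is prime, a subgroup `K` normalised by `R` and of order prime
to `p` acts by commuting operators. -/
theorem frob_commute [IsAlgClosed L] [FiniteDimensional L W] (R K : Subgroup E) [Finite R]
    [Finite K]
    (hcomm : ∀ a b : A, Commute (ρ (a : E)) (ρ (b : E)))
    (hss : ∀ a : A, (ρ (a : E)).IsSemisimple)
    (hfrob : ∀ r ∈ R, r ≠ 1 → ∀ S : Subgroup E,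
      (∀ b ∈ A, ∀ g ∈ Subgroup.zpowers r, b⁻¹ * (g * b * g⁻¹) ∈ S) →
      (∀ a ∈ A, ρ a = 1 → a ∈ S) → A ≤ S)
    (hfix : ∀ w : W, (∀ a : A, ρ (a : E) w = w) → w = 0)
    (hRK : ∀ r ∈ R, ∀ k ∈ K, r⁻¹ * k * r ∈ K)
    (p : ℕ) (hp : p.Prime) (hR : Nat.card R = p) (hW : finrank L W = p)
    (hK : (Nat.card K).Coprime p) :
    ∀ k ∈ K, ∀ k' ∈ K, Commute (ρ k) (ρ k') := by
  classical
  haveI : Finite (WtIdx ρ A) := wtIdx_finite ρ A hss hcomm
  have : Fintype (WtIdx ρ A) := Fintype.ofFinite _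
  have : Fintype R := Fintype.ofFinite _
  have hsum : ∑ x : WtIdx ρ A, finrank L (wt ρ A x.1) = p := by
    rw [← hW]
    exact (finrank_eq_sum_of_internal _ (wtIdx_indep ρ A hss hcomm)
      (wtIdx_top ρ A hss hcomm)).symm
  have hpos : ∀ x : WtIdx ρ A, 1 ≤ finrank L (wt ρ A x.1) := by
    intro x
    exact Nat.one_le_iff_ne_zero.mpr (fun h => x.2 (Submodule.finrank_eq_zero.mp h))
  have hfree : ∀ (r : R) (x : WtIdx ρ A), r • x = x → r = 1 := free_of_frob ρ A R hfrob hfix
  have hcard_le : Fintype.card (WtIdx ρ A) ≤ p := by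
    calc Fintype.card (WtIdx ρ A) = ∑ x : WtIdx ρ A, 1 := by simp
      _ ≤ ∑ x : WtIdx ρ A, finrank L (wt ρ A x.1) := Finset.sum_le_sum (fun x _ => hpos x)
      _ = p := hsum
  have hne : Nonempty (WtIdx ρ A) := by
    by_contra h
    rw [not_nonempty_iff] at h
    have h0 : ∑ x : WtIdx ρ A, finrank L (wt ρ A x.1) = 0 := Fintype.sum_empty _
    rw [hsum] at h0
    exact hp.ne_zero h0
  obtain ⟨x₀⟩ := hne
  have hinj : Function.Injective (fun r : R => r • x₀) := by
    intro r r' h
    have h1 : (r'⁻¹ * r) • x₀ = x₀ := by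
      rw [mul_smul]
      have h' : r • x₀ = r' • x₀ := h
      rw [h', inv_smul_smul]
    have h2 := hfree _ _ h1
    have := congrArg (fun t => r' * t) h2
    simpa using this
  have hcardR : Fintype.card R = p := by rw [← Nat.card_eq_fintype_card]; exact hR
  have hcard : Fintype.card (WtIdx ρ A) = p :=
    le_antisymm hcard_le (by rw [← hcardR]; exact Fintype.card_le_of_injective _ hinj)
  have hsurj : Function.Surjective (fun r : R => r • x₀) :=
    ((Fintype.bijective_iff_injective_and_card _).mpr ⟨hinj, by rw [hcardR, hcard]⟩).2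
  have hone : ∀ x : WtIdx ρ A, finrank L (wt ρ A x.1) = 1 := by
    by_contra h
    push Not at h
    obtain ⟨x, hx⟩ := h
    have hlt : ∑ x : WtIdx ρ A, 1 < ∑ x : WtIdx ρ A, finrank L (wt ρ A x.1) :=
      Finset.sum_lt_sum (fun x _ => hpos x)
        ⟨x, Finset.mem_univ x, lt_of_le_of_ne (hpos x) (Ne.symm hx)⟩
    rw [hsum] at hlt
    simp only [Finset.sum_const, Finset.card_univ, smul_eq_mul, mul_one] at hlt
    rw [hcard] at hlt
    exact lt_irrefl _ hlt
  -- `K`-orbits all have the same size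
  have horb : ∀ (r : R) (x : WtIdx ρ A), MulAction.orbit K ((r : E) • x) =
      (fun y => (r : E) • y) '' MulAction.orbit K x := by
    intro r x
    ext y
    constructor
    · rintro ⟨k, rfl⟩
      refine ⟨(⟨(r : E)⁻¹ * k * r, hRK r r.2 k k.2⟩ : K) • x, ⟨_, rfl⟩, ?_⟩
      show (r : E) • (((r : E)⁻¹ * k * r) • x) = (k : E) • ((r : E) • x)
      rw [← mul_smul, ← mul_smul]
      congr 1
      group
    · rintro ⟨_, ⟨k, rfl⟩, rfl⟩
      have hk' : (r : E) * k * (r : E)⁻¹ ∈ K := by
        have := hRK (r : E)⁻¹ (R.inv_mem r.2) k k.2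
        rwa [inv_inv] at this
      refine ⟨⟨(r : E) * k * (r : E)⁻¹, hk'⟩, ?_⟩
      show ((r : E) * k * (r : E)⁻¹) • ((r : E) • x) = (r : E) • ((k : E) • x)
      rw [← mul_smul, ← mul_smul]
      congr 1
      group
  have hs : ∀ x : WtIdx ρ A, Nat.card (MulAction.orbit K x) = Nat.card (MulAction.orbit K x₀) := by
    intro x
    obtain ⟨r, rfl⟩ := hsurj x
    show Nat.card (MulAction.orbit K ((r : E) • x₀)) = _
    rw [horb, Nat.card_coe_set_eq, Set.ncard_image_of_injective _ (MulAction.injective (r : E)),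
      ← Nat.card_coe_set_eq]
  have hs_dvd_p : Nat.card (MulAction.orbit K x₀) ∣ p := by
    have e := MulAction.selfEquivSigmaOrbits K (WtIdx ρ A)
    have : Fintype (MulAction.orbitRel.Quotient K (WtIdx ρ A)) := Fintype.ofFinite _
    have h1 : Nat.card (WtIdx ρ A) = ∑ ω : MulAction.orbitRel.Quotient K (WtIdx ρ A),
        Nat.card (MulAction.orbit K ω.out) := by
      rw [Nat.card_congr e, Nat.card_sigma]
    rw [Finset.sum_congr rfl (fun ω _ => hs ω.out), Finset.sum_const, smul_eq_mul,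
      Nat.card_eq_fintype_card, hcard] at h1
    exact Dvd.intro_left _ h1.symm
  have hs_dvd_K : Nat.card (MulAction.orbit K x₀) ∣ Nat.card K := by
    have : Fintype K := Fintype.ofFinite _
    have : Fintype (MulAction.orbit K x₀) := Fintype.ofFinite _
    have : Fintype (MulAction.stabilizer K x₀) := Fintype.ofFinite _
    have h1 := MulAction.card_orbit_mul_card_stabilizer_eq_card_group K x₀
    rw [Nat.card_eq_fintype_card, Nat.card_eq_fintype_card]
    exact Dvd.intro _ h1
  have hs1 : Nat.card (MulAction.orbit K x₀) = 1 := by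
    have h1 := Nat.dvd_gcd hs_dvd_K hs_dvd_p
    rw [Nat.Coprime.gcd_eq_one hK] at h1
    exact Nat.dvd_one.mp h1
  have hfixK : ∀ (k : K) (x : WtIdx ρ A), (k : E) • x = x := by
    intro k x
    have h1 : Nat.card (MulAction.orbit K x) = 1 := by rw [hs x]; exact hs1
    rw [Nat.card_eq_one_iff_unique] at h1
    obtain ⟨h2, _⟩ := h1
    have h3 := @Subsingleton.elim _ h2 (⟨k • x, MulAction.mem_orbit x k⟩ : MulAction.orbit K x)
      ⟨x, MulAction.mem_orbit_self x⟩
    exact congrArg Subtype.val h3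
  have hscal : ∀ (k : K) (x : WtIdx ρ A), ∃ c : L, ∀ w ∈ wt ρ A x.1, ρ (k : E) w = c • w := by
    intro k x
    obtain ⟨v, hv0, hv⟩ := finrank_eq_one_iff'.mp (hone x)
    have hkv : ρ (k : E) (v : W) ∈ wt ρ A x.1 := by
      have h1 := map_wt ρ A (k : E) x.1 v v.2
      rw [← smul_val, hfixK k x] at h1
      exact h1
    obtain ⟨c, hc⟩ := hv ⟨_, hkv⟩
    have hc' : c • (v : W) = ρ (k : E) (v : W) := congrArg Subtype.val hc
    refine ⟨c, fun w hw => ?_⟩
    obtain ⟨t, ht⟩ := hv ⟨w, hw⟩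
    have ht' : t • (v : W) = w := congrArg Subtype.val ht
    rw [← ht', map_smul, ← hc', smul_comm]
  intro k hk k' hk'
  have htop : LinearMap.eqLocus (ρ k * ρ k') (ρ k' * ρ k) = ⊤ := by
    rw [eq_top_iff, ← wtIdx_top ρ A hss hcomm]
    apply iSup_le
    intro x w hw
    obtain ⟨c, hc⟩ := hscal ⟨k, hk⟩ x
    obtain ⟨c', hc'⟩ := hscal ⟨k', hk'⟩ x
    show ρ k (ρ k' w) = ρ k' (ρ k w)
    rw [hc' w hw, hc w hw, map_smul, map_smul, hc w hw, hc' w hw, smul_comm]
  apply LinearMap.ext
  intro w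
  have hw : w ∈ LinearMap.eqLocus (ρ k * ρ k') (ρ k' * ρ k) := by rw [htop]; trivial
  exact hw

end Weights

end Cfsg.Agent.H58.FrobLin
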