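import Mathlib
import Cfsg.Agent.H58.FrobLin

/-!
# From actions on elementary abelian groups to representations over an algebraically closed field

`M` is a finite elementary abelian `ℓ`-group (a type), `c : E →* MulAut M` an action.
`frob_card`: exact fixed point formula for Frobenius-type actions with abelian image kernel.
`frob_comm`: if moreover `|M| = ℓ ^ p`, `|R| = p` then a `p'`-subgroup `K` normalised by `R` acts
as an abelian group.
-/

set_option autoImplicit false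
set_option linter.unusedSectionVars false
set_option linter.style.haveILetI false

namespace Cfsg.Agent.H58.FrobBridge

open Module Cfsg.Agent.H58.FrobLin
open scoped TensorProduct

noncomputable section

section Comm

variable {M : Type*} [CommGroup M] (ℓ : ℕ) [Fact ℓ.Prime] [Module (ZMod ℓ) (Additive M)]

/-- The `ZMod ℓ`-linear action on `Additive M` of `MulAut M`. -/
def linAut : MulAut M →* Module.End (ZMod ℓ) (Additive M) where
  toFun e := AddMonoidHom.toZModLinearMap ℓ (MonoidHom.toAdditive e.toMonoidHom)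
  map_one' := by apply LinearMap.ext; intro v; rfl
  map_mul' := by intro a b; apply LinearMap.ext; intro v; rfl

theorem linAut_apply (e : MulAut M) (m : M) :
    linAut ℓ e (Additive.ofMul m) = Additive.ofMul (e m) := rfl

/-- The algebraically closed field. -/
abbrev LL (ℓ : ℕ) [Fact ℓ.Prime] := AlgebraicClosure (ZMod ℓ)

/-- The representation of `MulAut M` over the algebraic closure. -/
def repAut : MulAut M →* Module.End (LL ℓ) (LL ℓ ⊗[ZMod ℓ] Additive M) :=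
  ((Module.End.baseChangeHom (ZMod ℓ) (LL ℓ) (Additive M) :
      Module.End (ZMod ℓ) (Additive M) →ₐ[ZMod ℓ] Module.End (LL ℓ) (LL ℓ ⊗[ZMod ℓ] Additive M)) :
      Module.End (ZMod ℓ) (Additive M) →*
        Module.End (LL ℓ) (LL ℓ ⊗[ZMod ℓ] Additive M)).comp (linAut ℓ)

theorem repAut_apply (e : MulAut M) : repAut ℓ e = (linAut ℓ e).baseChange (LL ℓ) := rfl

theorem repAut_inj : Function.Injective (repAut (M := M) ℓ) := by
  intro e e' h
  have h1 : linAut ℓ e = linAut ℓ e' :=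
    LinearMap.baseChangeHom_injective _ _ _ h
  ext m
  have := congrArg (fun f => Additive.toMul (f (Additive.ofMul m))) h1
  exact this

theorem repAut_semisimple [Finite M] (g : MulAut M) (n : ℕ) (hn : g ^ n = 1) (hnℓ : n.Coprime ℓ) :
    (repAut ℓ g).IsSemisimple := by
  have h1 : (repAut ℓ g) ^ n = 1 := by rw [← map_pow, hn, map_one]
  have hn0 : (n : LL ℓ) ≠ 0 := by
    intro h
    rw [CharP.cast_eq_zero_iff (LL ℓ) ℓ n] at h
    have := Nat.Coprime.eq_one_of_dvd hnℓ.symm h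
    exact (Fact.out : ℓ.Prime).one_lt.ne' this
  have hsq : Squarefree (Polynomial.X ^ n - Polynomial.C 1 : Polynomial (LL ℓ)) :=
    (Polynomial.separable_X_pow_sub_C (1 : LL ℓ) hn0 one_ne_zero).squarefree
  apply Module.End.isSemisimple_of_squarefree_aeval_eq_zero hsq
  simp [h1]

theorem card_eq [Finite M] :
    Nat.card M = ℓ ^ finrank (LL ℓ) (LL ℓ ⊗[ZMod ℓ] Additive M) := by
  rw [Module.finrank_baseChange]
  have := Module.natCard_eq_pow_finrank (K := ZMod ℓ) (V := Additive M)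
  rw [Nat.card_zmod] at this
  exact this

variable {E : Type*} [Group E] (c : E →* MulAut M)

theorem fixed_card [Finite M] (H : Subgroup E) :
    Nat.card {m : M // ∀ h ∈ H, c h m = m} =
      ℓ ^ finrank (ZMod ℓ) (fixedSub (((linAut ℓ).comp c).comp H.subtype)) := by
  have h1 := Module.natCard_eq_pow_finrank (K := ZMod ℓ)
    (V := fixedSub (((linAut ℓ).comp c).comp H.subtype))
  rw [Nat.card_zmod] at h1
  rw [← h1]
  apply Nat.card_congr
  exact
    { toFun := fun m => ⟨Additive.ofMul m.1, fun h => congrArg Additive.ofMul (m.2 h h.2)⟩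
      invFun := fun v => ⟨Additive.toMul v.1, fun h hh => congrArg Additive.toMul (v.2 ⟨h, hh⟩)⟩
      left_inv := fun m => rfl
      right_inv := fun v => rfl }

theorem fixed_finrank [Finite M] (H : Subgroup E) [Finite H] (hH : (Nat.card H).Coprime ℓ) :
    finrank (LL ℓ) (fixedSub (((repAut ℓ).comp c).comp H.subtype)) =
      finrank (ZMod ℓ) (fixedSub (((linAut ℓ).comp c).comp H.subtype)) := by
  classical
  have : Fintype H := Fintype.ofFinite H
  obtain ⟨T, hT⟩ : ∃ T : E →* Module.End (ZMod ℓ) (Additive M), T = (linAut ℓ).comp c := ⟨_, rfl⟩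
  rw [← hT]
  obtain ⟨F₀, hF₀⟩ : ∃ F₀ : Submodule (ZMod ℓ) (Additive M), F₀ = fixedSub (T.comp H.subtype) :=
    ⟨_, rfl⟩
  rw [← hF₀]
  have hmemF : ∀ v, v ∈ F₀ ↔ ∀ h : H, T (h : E) v = v := by
    intro v; rw [hF₀]; exact Iff.rfl
  let e₀ : Module.End (ZMod ℓ) (Additive M) := ∑ h : H, T (h : E)
  have he₀ : ∀ v, e₀ v = ∑ h : H, T (h : E) v := by
    intro v
    simp only [e₀, LinearMap.sum_apply]
  have he₀mem : ∀ v, e₀ v ∈ F₀ := by
    intro v
    rw [hmemF]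
    intro h'
    rw [he₀, map_sum]
    refine Fintype.sum_equiv (Equiv.mulLeft h') _ _ (fun h => ?_)
    rw [Equiv.coe_mulLeft, Subgroup.coe_mul, map_mul]
    rfl
  have hn0 : ((Nat.card H : ℕ) : ZMod ℓ) ≠ 0 := by
    intro h
    rw [ZMod.natCast_eq_zero_iff] at h
    have := Nat.Coprime.eq_one_of_dvd hH.symm h
    exact (Fact.out : ℓ.Prime).one_lt.ne' this
  have he₀fix : ∀ v ∈ F₀, e₀ v = (Nat.card H : ZMod ℓ) • v := by
    intro v hv
    rw [hmemF] at hv
    rw [he₀, Finset.sum_congr rfl (fun h _ => hv h), Finset.sum_const, Finset.card_univ,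
      Nat.card_eq_fintype_card, Nat.cast_smul_eq_nsmul]
  obtain ⟨u, hu⟩ : ∃ u : ZMod ℓ, u = (Nat.card H : ZMod ℓ)⁻¹ := ⟨_, rfl⟩
  have hun : u * (Nat.card H : ZMod ℓ) = 1 := by rw [hu]; exact inv_mul_cancel₀ hn0
  let p₀ : Module.End (ZMod ℓ) (Additive M) := u • e₀
  let π : Additive M →ₗ[ZMod ℓ] F₀ := p₀.codRestrict F₀ (fun v => F₀.smul_mem u (he₀mem v))
  have hπι : π ∘ₗ F₀.subtype = LinearMap.id := by
    apply LinearMap.ext
    intro v
    apply Subtype.ext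
    show u • e₀ (v : Additive M) = v
    rw [he₀fix v v.2, smul_smul, hun, one_smul]
  have hιπ : F₀.subtype ∘ₗ π = p₀ := by
    apply LinearMap.ext; intro v; rfl
  obtain ⟨bι, hbι⟩ : ∃ bι : LL ℓ ⊗[ZMod ℓ] F₀ →ₗ[LL ℓ] LL ℓ ⊗[ZMod ℓ] Additive M,
      bι = (F₀.subtype).baseChange (LL ℓ) := ⟨_, rfl⟩
  obtain ⟨bπ, hbπ⟩ : ∃ bπ : LL ℓ ⊗[ZMod ℓ] Additive M →ₗ[LL ℓ] LL ℓ ⊗[ZMod ℓ] F₀,
      bπ = π.baseChange (LL ℓ) := ⟨_, rfl⟩
  have h1 : bπ ∘ₗ bι = LinearMap.id := by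
    rw [hbπ, hbι, ← LinearMap.baseChange_comp, hπι, LinearMap.baseChange_id]
  have h2 : bι ∘ₗ bπ = p₀.baseChange (LL ℓ) := by
    rw [hbπ, hbι, ← LinearMap.baseChange_comp, hιπ]
  have h3 : p₀.baseChange (LL ℓ) = u • ∑ h : H, (T (h : E)).baseChange (LL ℓ) := by
    show (u • e₀).baseChange (LL ℓ) = _
    rw [LinearMap.baseChange_smul]
    congr 1
    exact map_sum (LinearMap.baseChangeHom (ZMod ℓ) (LL ℓ) (Additive M) (Additive M)) _ _
  have hinj : Function.Injective bι := by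
    intro a b hab
    have ha : bπ (bι a) = a := LinearMap.congr_fun h1 a
    have hb : bπ (bι b) = b := LinearMap.congr_fun h1 b
    rw [← ha, ← hb, hab]
  have hrep : ∀ h : E, (repAut ℓ) (c h) = (T h).baseChange (LL ℓ) := by
    intro h; rw [hT]; rfl
  have hrange : fixedSub (((repAut ℓ).comp c).comp H.subtype) = LinearMap.range bι := by
    apply le_antisymm
    · intro w hw
      refine ⟨bπ w, ?_⟩
      have h4 : bι (bπ w) = (bι ∘ₗ bπ) w := rfl
      rw [h4, h2, h3, LinearMap.smul_apply, LinearMap.sum_apply]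
      have h5 : ∀ h : H, (T (h : E)).baseChange (LL ℓ) w = w := by
        intro h
        rw [← hrep]
        exact hw h
      rw [Finset.sum_congr rfl (fun h _ => h5 h), Finset.sum_const, Finset.card_univ,
        ← Nat.card_eq_fintype_card, ← Nat.cast_smul_eq_nsmul (ZMod ℓ), smul_smul, hun, one_smul]
    · rintro w ⟨y, rfl⟩ h
      show (repAut ℓ) (c (h : E)) (bι y) = bι y
      rw [hrep]
      have h6 : (T (h : E)).baseChange (LL ℓ) ∘ₗ bι = bι := by
        rw [hbι, ← LinearMap.baseChange_comp]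
        congr 1
        apply LinearMap.ext
        intro v
        exact (hmemF v).mp v.2 h
      exact LinearMap.congr_fun h6 y
  rw [hrange, LinearMap.finrank_range_of_inj hinj, Module.finrank_baseChange]

theorem rep_setup [Finite M] (A R : Subgroup E) [Finite A]
    (hAab : ∀ a ∈ A, ∀ b ∈ A, c a * c b = c b * c a)
    (hA : (Nat.card A).Coprime ℓ)
    (hfrob : ∀ r ∈ R, r ≠ 1 → ∀ S : Subgroup E,
      (∀ b ∈ A, ∀ g ∈ Subgroup.zpowers r, b⁻¹ * (g * b * g⁻¹) ∈ S) →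
      (∀ a ∈ A, c a = 1 → a ∈ S) → A ≤ S)
    (hfix : ∀ m : M, (∀ a ∈ A, c a m = m) → m = 1)
    (ρ : E →* Module.End (LL ℓ) (LL ℓ ⊗[ZMod ℓ] Additive M)) (hρ : ρ = (repAut ℓ).comp c) :
    (∀ a b : A, Commute (ρ (a : E)) (ρ (b : E))) ∧ (∀ a : A, (ρ (a : E)).IsSemisimple) ∧
    (∀ r ∈ R, r ≠ 1 → ∀ S : Subgroup E,
      (∀ b ∈ A, ∀ g ∈ Subgroup.zpowers r, b⁻¹ * (g * b * g⁻¹) ∈ S) →
      (∀ a ∈ A, ρ a = 1 → a ∈ S) → A ≤ S) ∧
    (∀ w, (∀ a : A, ρ (a : E) w = w) → w = 0) := by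
  have hρa : ∀ e, ρ e = repAut ℓ (c e) := by intro e; rw [hρ]; rfl
  refine ⟨?_, ?_, ?_, ?_⟩
  · intro a b
    show ρ a * ρ b = ρ b * ρ a
    rw [hρa, hρa, ← map_mul (repAut ℓ), ← map_mul (repAut ℓ), hAab a a.2 b b.2]
  · intro a
    rw [hρa]
    apply repAut_semisimple ℓ (c a) (Nat.card A) _ hA
    rw [← map_pow]
    have h0 : (a : E) ^ Nat.card A = 1 := by
      have h1 : a ^ Nat.card A = 1 := pow_card_eq_one'
      have h2 := congrArg Subtype.val h1
      rwa [Subgroup.coe_pow, Subgroup.coe_one] at h2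
    rw [h0, map_one]
  · intro r hr hr1 S h1 h2
    exact hfrob r hr hr1 S h1 (fun a ha hca => h2 a ha (by rw [hρa, hca, map_one]))
  · have hfixA : fixedSub (ρ.comp A.subtype) = ⊥ := by
      have h1 := fixed_finrank ℓ c A hA
      rw [← hρ] at h1
      have h2 : fixedSub (((linAut ℓ).comp c).comp A.subtype) = ⊥ := by
        rw [eq_bot_iff]
        intro v hv
        rw [Submodule.mem_bot]
        have h3 : Additive.toMul v = 1 :=
          hfix _ (fun a ha => congrArg Additive.toMul (hv ⟨a, ha⟩))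
        exact congrArg Additive.ofMul h3
      rw [h2, finrank_bot] at h1
      exact Submodule.finrank_eq_zero.mp h1
    intro w hw
    have h4 : w ∈ fixedSub (ρ.comp A.subtype) := hw
    rw [hfixA, Submodule.mem_bot] at h4
    exact h4

theorem frob_card_comm [Finite M] (A R : Subgroup E) [A.Normal] [Finite A] [Finite R]
    (hAab : ∀ a ∈ A, ∀ b ∈ A, c a * c b = c b * c a)
    (hA : (Nat.card A).Coprime ℓ) (hR : (Nat.card R).Coprime ℓ)
    (hfrob : ∀ r ∈ R, r ≠ 1 → ∀ S : Subgroup E,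
      (∀ b ∈ A, ∀ g ∈ Subgroup.zpowers r, b⁻¹ * (g * b * g⁻¹) ∈ S) →
      (∀ a ∈ A, c a = 1 → a ∈ S) → A ≤ S)
    (hfix : ∀ m : M, (∀ a ∈ A, c a m = m) → m = 1) :
    Nat.card M = Nat.card {m : M // ∀ r ∈ R, c r m = m} ^ Nat.card R := by
  obtain ⟨ρ, hρ⟩ : ∃ ρ : E →* Module.End (LL ℓ) (LL ℓ ⊗[ZMod ℓ] Additive M),
      ρ = (repAut ℓ).comp c := ⟨_, rfl⟩
  obtain ⟨hcomm, hss, hfrob', hfix'⟩ := rep_setup ℓ c A R hAab hA hfrob hfix ρ hρ
  have key := frob_finrank ρ A R hcomm hss hfrob' hfix'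
  have h1 := fixed_finrank ℓ c R hR
  rw [← hρ] at h1
  rw [card_eq ℓ, key, h1, fixed_card ℓ c R, ← pow_mul, mul_comm]

theorem frob_comm_comm [Finite M] (A R K : Subgroup E) [A.Normal] [Finite A] [Finite R]
    [Finite K]
    (hAab : ∀ a ∈ A, ∀ b ∈ A, c a * c b = c b * c a)
    (hA : (Nat.card A).Coprime ℓ)
    (hfrob : ∀ r ∈ R, r ≠ 1 → ∀ S : Subgroup E,
      (∀ b ∈ A, ∀ g ∈ Subgroup.zpowers r, b⁻¹ * (g * b * g⁻¹) ∈ S) →
      (∀ a ∈ A, c a = 1 → a ∈ S) → A ≤ S)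
    (hfix : ∀ m : M, (∀ a ∈ A, c a m = m) → m = 1)
    (hRK : ∀ r ∈ R, ∀ k ∈ K, r⁻¹ * k * r ∈ K)
    (p : ℕ) (hp : p.Prime) (hRp : Nat.card R = p) (hM : Nat.card M = ℓ ^ p)
    (hK : (Nat.card K).Coprime p) :
    ∀ k ∈ K, ∀ k' ∈ K, c k * c k' = c k' * c k := by
  obtain ⟨ρ, hρ⟩ : ∃ ρ : E →* Module.End (LL ℓ) (LL ℓ ⊗[ZMod ℓ] Additive M),
      ρ = (repAut ℓ).comp c := ⟨_, rfl⟩
  obtain ⟨hcomm, hss, hfrob', hfix'⟩ := rep_setup ℓ c A R hAab hA hfrob hfix ρ hρ
  have hρa : ∀ e, ρ e = repAut ℓ (c e) := by intro e; rw [hρ]; rfl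
  have hW : finrank (LL ℓ) (LL ℓ ⊗[ZMod ℓ] Additive M) = p := by
    have h0 := card_eq (M := M) ℓ
    rw [hM] at h0
    exact (Nat.pow_right_injective (Fact.out : ℓ.Prime).two_le h0).symm
  have key := frob_commute ρ A R K hcomm hss hfrob' hfix' hRK p hp hRp hW hK
  intro k hk k' hk'
  have h1 : ρ k * ρ k' = ρ k' * ρ k := key k hk k' hk'
  rw [hρa, hρa, ← map_mul (repAut ℓ), ← map_mul (repAut ℓ)] at h1
  exact repAut_inj ℓ h1

end Comm

/-- **Exact fixed point formula** for a Frobenius-type action `A ⋊ R` (with `A` acting as an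
abelian group) on a finite elementary abelian `ℓ`-group `M` with `C_M(A) = 1`. -/
theorem frob_card {E M : Type*} [Group E] [Group M] [Finite M] (ℓ : ℕ) [Fact ℓ.Prime]
    (hMc : ∀ a b : M, a * b = b * a) (hMe : ∀ m : M, m ^ ℓ = 1) (c : E →* MulAut M)
    (A R : Subgroup E) [A.Normal] [Finite A] [Finite R]
    (hAab : ∀ a ∈ A, ∀ b ∈ A, c a * c b = c b * c a)
    (hA : (Nat.card A).Coprime ℓ) (hR : (Nat.card R).Coprime ℓ)
    (hfrob : ∀ r ∈ R, r ≠ 1 → ∀ S : Subgroup E,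
      (∀ b ∈ A, ∀ g ∈ Subgroup.zpowers r, b⁻¹ * (g * b * g⁻¹) ∈ S) →
      (∀ a ∈ A, c a = 1 → a ∈ S) → A ≤ S)
    (hfix : ∀ m : M, (∀ a ∈ A, c a m = m) → m = 1) :
    Nat.card M = Nat.card {m : M // ∀ r ∈ R, c r m = m} ^ Nat.card R := by
  letI : CommGroup M := { ‹Group M› with mul_comm := hMc }
  have hexp' : ∀ a : Additive M, ℓ • a = 0 := fun a => congrArg Additive.ofMul (hMe a.toMul)
  letI : Module (ZMod ℓ) (Additive M) := AddCommGroup.zmodModule hexp'
  exact frob_card_comm ℓ c A R hAab hA hR hfrob hfix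

/-- In the situation of `frob_card`, if `|R| = p` is prime and `|M| = ℓ ^ p`, then any subgroup
`K` normalised by `R` of order prime to `p` acts on `M` as an abelian group. -/
theorem frob_comm {E M : Type*} [Group E] [Group M] [Finite M] (ℓ : ℕ) [Fact ℓ.Prime]
    (hMc : ∀ a b : M, a * b = b * a) (hMe : ∀ m : M, m ^ ℓ = 1) (c : E →* MulAut M)
    (A R K : Subgroup E) [A.Normal] [Finite A] [Finite R] [Finite K]
    (hAab : ∀ a ∈ A, ∀ b ∈ A, c a * c b = c b * c a)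
    (hA : (Nat.card A).Coprime ℓ)
    (hfrob : ∀ r ∈ R, r ≠ 1 → ∀ S : Subgroup E,
      (∀ b ∈ A, ∀ g ∈ Subgroup.zpowers r, b⁻¹ * (g * b * g⁻¹) ∈ S) →
      (∀ a ∈ A, c a = 1 → a ∈ S) → A ≤ S)
    (hfix : ∀ m : M, (∀ a ∈ A, c a m = m) → m = 1)
    (hRK : ∀ r ∈ R, ∀ k ∈ K, r⁻¹ * k * r ∈ K)
    (p : ℕ) (hp : p.Prime) (hRp : Nat.card R = p) (hM : Nat.card M = ℓ ^ p)
    (hK : (Nat.card K).Coprime p) :
    ∀ k ∈ K, ∀ k' ∈ K, c k * c k' = c k' * c k := by
  letI : CommGroup M := { ‹Group M› with mul_comm := hMc }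
  have hexp' : ∀ a : Additive M, ℓ • a = 0 := fun a => congrArg Additive.ofMul (hMe a.toMul)
  letI : Module (ZMod ℓ) (Additive M) := AddCommGroup.zmodModule hexp'
  exact frob_comm_comm ℓ c A R K hAab hA hfrob hfix hRK p hp hRp hM hK

end

end Cfsg.Agent.H58.FrobBridge
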