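import Mathlib
import Cfsg.Agent.H58.FrobBridge
import Cfsg.Agent.H1.Coprime

/-!
# Frobenius-type actions on elementary abelian subgroups (internal form)

`frob_card_sub`: `A ⋊ R` acting on an elementary abelian `ℓ`-subgroup `V` (`A` acting as an
abelian group, `C_A(r) ≤ C_A(V)` for `r ∈ R∖1`, coprime orders, `C_V(A) = 1`):
`|V| = |C_V(R)| ^ |R|`.
-/

set_option autoImplicit false
set_option linter.unusedSectionVars false
set_option linter.style.haveILetI false

namespace Cfsg.Agent.H58.FrobAct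

open Cfsg.Agent.H58.FrobBridge
open scoped commutatorElement

variable {X : Type*} [Group X]

/-- In a finite group, `g H g⁻¹ ≤ H` implies `g ∈ N(H)`. -/
theorem mem_normalizer_of_conj [Finite X] (H : Subgroup X) (g : X)
    (h : ∀ x ∈ H, g * x * g⁻¹ ∈ H) : g ∈ Subgroup.normalizer (H : Set X) := by
  have hinj : Function.Injective (fun x : H => (⟨g * x * g⁻¹, h x x.2⟩ : H)) := by
    intro x y hxy
    have h1 : g * x * g⁻¹ = g * y * g⁻¹ := congrArg Subtype.val hxy
    apply Subtype.ext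
    have h2 := congrArg (fun t => g⁻¹ * t * g) h1
    simpa [mul_assoc] using h2
  have hsurj := Finite.surjective_of_injective hinj
  rw [Subgroup.mem_normalizer_iff]
  intro x
  refine ⟨h x, fun hx => ?_⟩
  obtain ⟨y, hy⟩ := hsurj ⟨_, hx⟩
  have h1 : g * y * g⁻¹ = g * x * g⁻¹ := congrArg Subtype.val hy
  have h2 : (y : X) = x := by
    have h2 := congrArg (fun t => g⁻¹ * t * g) h1
    simpa [mul_assoc] using h2
  rw [← h2]; exact y.2

theorem conj_mem_of_mem_normalizer {H : Subgroup X} {g : X}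
    (hg : g ∈ Subgroup.normalizer (H : Set X)) {x : X} (hx : x ∈ H) : g * x * g⁻¹ ∈ H :=
  (Subgroup.mem_normalizer_iff.mp hg x).mp hx

/-- The conjugation action of a subgroup `P ≤ N(V)` on `V`. -/
def conjAut (V P : Subgroup X) (hP : P ≤ Subgroup.normalizer (V : Set X)) : ↥P →* MulAut ↥V where
  toFun g :=
    { toFun := fun v => ⟨g * v * (g : X)⁻¹, conj_mem_of_mem_normalizer (hP g.2) v.2⟩
      invFun := fun v => ⟨(g : X)⁻¹ * v * g, by
        have := conj_mem_of_mem_normalizer (hP (P.inv_mem g.2)) v.2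
        rwa [inv_inv] at this⟩
      left_inv := fun v => by
        apply Subtype.ext
        show (g : X)⁻¹ * (g * v * (g : X)⁻¹) * g = v
        group
      right_inv := fun v => by
        apply Subtype.ext
        show (g : X) * ((g : X)⁻¹ * v * g) * (g : X)⁻¹ = v
        group
      map_mul' := fun v w => by
        apply Subtype.ext
        show (g : X) * (v * w) * (g : X)⁻¹ = (g * v * (g : X)⁻¹) * (g * w * (g : X)⁻¹)
        group }
  map_one' := by
    ext v
    show ((1 : P) : X) * v * ((1 : P) : X)⁻¹ = v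
    simp
  map_mul' := fun g h => by
    ext v
    show ((g * h : P) : X) * v * ((g * h : P) : X)⁻¹ = g * (h * v * (h : X)⁻¹) * (g : X)⁻¹
    simp [mul_assoc]

theorem conjAut_apply (V P : Subgroup X) (hP : P ≤ Subgroup.normalizer (V : Set X)) (g : P)
    (v : V) : ((conjAut V P hP g v : V) : X) = g * v * (g : X)⁻¹ := rfl

theorem conjAut_eq_one_iff (V P : Subgroup X) (hP : P ≤ Subgroup.normalizer (V : Set X)) (g : P) :
    conjAut V P hP g = 1 ↔ (g : X) ∈ Subgroup.centralizer (V : Set X) := by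
  constructor
  · intro h
    rw [Subgroup.mem_centralizer_iff]
    intro v hv
    have h1 : conjAut V P hP g ⟨v, hv⟩ = ⟨v, hv⟩ := by rw [h]; rfl
    have h2 : (g : X) * v * (g : X)⁻¹ = v := congrArg Subtype.val h1
    calc v * g = (g * v * (g : X)⁻¹) * g := by rw [h2]
      _ = g * v := by group
  · intro h
    rw [Subgroup.mem_centralizer_iff] at h
    ext v
    show (g : X) * v * (g : X)⁻¹ = v
    rw [← h v v.2]
    group

theorem conjAut_comm (V P : Subgroup X) (hP : P ≤ Subgroup.normalizer (V : Set X)) (g h : P)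
    (hc : ⁅(g : X)⁻¹, (h : X)⁻¹⁆ ∈ Subgroup.centralizer (V : Set X)) :
    conjAut V P hP g * conjAut V P hP h = conjAut V P hP h * conjAut V P hP g := by
  have h1 : conjAut V P hP (⁅g⁻¹, h⁻¹⁆) = 1 := by
    rw [conjAut_eq_one_iff]
    exact hc
  have h2 : g * h = h * g * ⁅g⁻¹, h⁻¹⁆ := by
    rw [commutatorElement_def]; group
  rw [← map_mul, ← map_mul, h2, map_mul, h1, mul_one]

/-- For an abelian subgroup `V` normalised by `A` with coprime orders, `C_V(A) ∩ [V, A] = 1`. -/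
theorem centralizer_inf_commutator_eq_bot [Finite X] (V A : Subgroup X)
    (hVc : ∀ a ∈ V, ∀ b ∈ V, a * b = b * a)
    (hAV : A ≤ Subgroup.normalizer (V : Set X))
    (hcop : (Nat.card A).Coprime (Nat.card V)) :
    (V ⊓ Subgroup.centralizer (A : Set X)) ⊓ ⁅V, A⁆ = ⊥ := by
  classical
  letI : CommGroup ↥V := { (inferInstance : Group ↥V) with
    mul_comm := fun a b => Subtype.ext (hVc a a.2 b b.2) }
  have : Fintype A := Fintype.ofFinite A
  obtain ⟨c, hc⟩ : ∃ c : ↥A →* MulAut ↥V, c = conjAut V A hAV := ⟨_, rfl⟩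
  let ν : ↥V →* ↥V := ∏ a : A, (c a).toMonoidHom
  have hν : ∀ v : V, ν v = ∏ a : A, c a v := by
    intro v
    simp only [ν, MonoidHom.finsetProd_apply]
    rfl
  have hνc : ∀ (b : A) (v : V), ν (c b v) = ν v := by
    intro b v
    rw [hν, hν]
    refine Fintype.prod_equiv (Equiv.mulRight b) _ _ (fun a => ?_)
    rw [Equiv.coe_mulRight, map_mul]
    rfl
  have hle : ⁅V, A⁆ ≤ (ν.ker).map V.subtype := by
    rw [Subgroup.commutator_le]
    intro x hx a ha
    have hxa : a * x * a⁻¹ ∈ V := conj_mem_of_mem_normalizer (hAV ha) hx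
    refine ⟨⟨x, hx⟩ * (c ⟨a, ha⟩ ⟨x, hx⟩)⁻¹, ?_, ?_⟩
    · show ν _ = 1
      rw [map_mul, map_inv, hνc, mul_inv_cancel]
    · rw [hc]
      show x * (a * x * a⁻¹)⁻¹ = ⁅x, a⁆
      rw [commutatorElement_def]; group
  rw [eq_bot_iff]
  rintro v ⟨⟨hvV, hvC⟩, hvcomm⟩
  rw [Subgroup.mem_bot]
  obtain ⟨k, hk, hkv⟩ := hle hvcomm
  have hk1 : ν k = 1 := hk
  have hkfix : ∀ a : A, c a k = k := by
    intro a
    apply Subtype.ext
    rw [hc]
    show (a : X) * k * (a : X)⁻¹ = k
    have hkv' : (k : X) = v := hkv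
    rw [hkv']
    have hvC' : v ∈ Subgroup.centralizer (A : Set X) := hvC
    rw [Subgroup.mem_centralizer_iff] at hvC'
    rw [hvC' a a.2]; group
  have hpow : k ^ Nat.card A = 1 := by
    rw [← hk1, hν, Finset.prod_congr rfl (fun a _ => hkfix a), Finset.prod_const, Finset.card_univ,
      Nat.card_eq_fintype_card]
  have hord1 : orderOf k ∣ Nat.card A := orderOf_dvd_of_pow_eq_one hpow
  have hord2 : orderOf k ∣ Nat.card V := orderOf_dvd_natCard k
  have hord : orderOf k = 1 := Nat.eq_one_of_dvd_coprimes hcop hord1 hord2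
  rw [orderOf_eq_one_iff] at hord
  rw [← hkv, hord]; rfl

theorem frob_gen [Finite X] (V A P : Subgroup X) (hPV : P ≤ Subgroup.normalizer (V : Set X))
    (hAP : A ≤ P) (hPA : P ≤ Subgroup.normalizer (A : Set X)) (r : P)
    (hcop : (Nat.card A).Coprime (orderOf (r : X)))
    (hfrob : A ⊓ Subgroup.centralizer {(r : X)} ≤ Subgroup.centralizer (V : Set X))
    (S : Subgroup ↥P)
    (h1 : ∀ b ∈ A.subgroupOf P, ∀ g ∈ Subgroup.zpowers r, b⁻¹ * (g * b * g⁻¹) ∈ S)
    (h2 : ∀ a ∈ A.subgroupOf P, conjAut V P hPV a = 1 → a ∈ S) : A.subgroupOf P ≤ S := by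
  have hZA : Subgroup.zpowers (r : X) ≤ Subgroup.normalizer (A : Set X) := by
    rw [Subgroup.zpowers_le]; exact hPA r.2
  have hcop' : (Nat.card (Subgroup.zpowers (r : X))).Coprime (Nat.card A) := by
    rw [Nat.card_zpowers]; exact hcop.symm
  have hdec := Cfsg.Agent.H1.coprime_commutator_sup_centralizer (Subgroup.zpowers (r : X)) A hZA
    hcop' (Or.inl inferInstance)
  have hle : A ≤ S.map P.subtype := by
    rw [← hdec]
    apply sup_le
    · rw [Subgroup.commutator_le]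
      intro a ha z hz
      have hzP : z ∈ P := (Subgroup.zpowers_le.mpr r.2) hz
      have haP := hAP ha
      refine ⟨(⟨a, haP⟩ : P)⁻¹⁻¹ * (⟨z, hzP⟩ * (⟨a, haP⟩ : P)⁻¹ * (⟨z, hzP⟩ : P)⁻¹),
        h1 _ ?_ _ ?_, ?_⟩
      · exact Subgroup.mem_subgroupOf.mpr (A.inv_mem ha)
      · obtain ⟨n, hn⟩ := Subgroup.mem_zpowers_iff.mp hz
        exact Subgroup.mem_zpowers_iff.mpr ⟨n, Subtype.ext (by rw [Subgroup.coe_zpow]; exact hn)⟩
      · show a⁻¹⁻¹ * (z * a⁻¹ * z⁻¹) = ⁅a, z⁆
        rw [commutatorElement_def]; group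
    · intro a ha
      have haA : a ∈ A := ha.1
      have haC : a ∈ Subgroup.centralizer ((Subgroup.zpowers (r : X) : Subgroup X) : Set X) := ha.2
      have hac : a ∈ Subgroup.centralizer {(r : X)} := by
        rw [Subgroup.mem_centralizer_iff]
        intro x hx
        rw [Set.mem_singleton_iff] at hx
        subst hx
        exact (Subgroup.mem_centralizer_iff.mp haC) _ (Subgroup.mem_zpowers _)
      have h3 := hfrob ⟨haA, hac⟩
      exact ⟨⟨a, hAP haA⟩, h2 _ (Subgroup.mem_subgroupOf.mpr haA)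
        ((conjAut_eq_one_iff V P hPV _).mpr h3), rfl⟩
  intro a ha
  obtain ⟨s, hs, hsa⟩ := hle (Subgroup.mem_subgroupOf.mp ha)
  have h4 : s = a := Subtype.ext hsa
  rw [← h4]; exact hs

/-- **Fixed point formula**, abelian kernel image, internal form. -/
theorem frob_card_sub [Finite X] (ℓ : ℕ) [Fact ℓ.Prime] (V A R P : Subgroup X)
    (hVc : ∀ a ∈ V, ∀ b ∈ V, a * b = b * a) (hVe : ∀ v ∈ V, v ^ ℓ = 1)
    (hPV : P ≤ Subgroup.normalizer (V : Set X)) (hAP : A ≤ P) (hRP : R ≤ P)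
    (hPA : P ≤ Subgroup.normalizer (A : Set X))
    (hA : (Nat.card A).Coprime ℓ) (hR : (Nat.card R).Coprime ℓ)
    (hAR : (Nat.card A).Coprime (Nat.card R))
    (hAab : ⁅A, A⁆ ≤ Subgroup.centralizer (V : Set X))
    (hfrob : ∀ r ∈ R, r ≠ 1 → A ⊓ Subgroup.centralizer {r} ≤ Subgroup.centralizer (V : Set X))
    (hfix : V ⊓ Subgroup.centralizer (A : Set X) = ⊥) :
    Nat.card V = Nat.card ↥(V ⊓ Subgroup.centralizer (R : Set X)) ^ Nat.card R := by
  haveI : (A.subgroupOf P).Normal := Subgroup.normal_subgroupOf_of_le_normalizer hPA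
  have hcardA : Nat.card (A.subgroupOf P) = Nat.card A :=
    Nat.card_congr (Subgroup.subgroupOfEquivOfLe hAP).toEquiv
  have hcardR : Nat.card (R.subgroupOf P) = Nat.card R :=
    Nat.card_congr (Subgroup.subgroupOfEquivOfLe hRP).toEquiv
  have key := frob_card ℓ (M := ↥V) (fun a b => Subtype.ext (hVc a a.2 b b.2))
    (fun m => Subtype.ext (by rw [Subgroup.coe_pow]; exact hVe m m.2))
    (conjAut V P hPV) (A.subgroupOf P) (R.subgroupOf P)
    (fun a ha b hb => conjAut_comm V P hPV a b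
      (hAab (Subgroup.commutator_mem_commutator (A.inv_mem (Subgroup.mem_subgroupOf.mp ha))
        (A.inv_mem (Subgroup.mem_subgroupOf.mp hb)))))
    (by rw [hcardA]; exact hA) (by rw [hcardR]; exact hR)
    (fun r hr hr1 S h1 h2 => frob_gen V A P hPV hAP hPA r
      (Nat.Coprime.coprime_dvd_right (Subgroup.orderOf_dvd_natCard R (Subgroup.mem_subgroupOf.mp hr))
        hAR)
      (hfrob r (Subgroup.mem_subgroupOf.mp hr) (fun h => hr1 (Subtype.ext h))) S h1 h2)
    (fun m hm => by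
      have h1 : (m : X) ∈ V ⊓ Subgroup.centralizer (A : Set X) := by
        refine Subgroup.mem_inf.mpr ⟨m.2, ?_⟩
        rw [Subgroup.mem_centralizer_iff]
        intro a ha
        have h2 := hm ⟨a, hAP ha⟩ (Subgroup.mem_subgroupOf.mpr ha)
        have h3 : a * m * a⁻¹ = m := congrArg Subtype.val h2
        calc a * m = (a * m * a⁻¹) * a := by group
          _ = m * a := by rw [h3]
      rw [hfix, Subgroup.mem_bot] at h1
      exact Subtype.ext h1)
  rw [key, hcardR]
  congr 1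
  apply Nat.card_congr
  exact
    { toFun := fun m => ⟨m.1.1, Subgroup.mem_inf.mpr ⟨m.1.2, by
        rw [Subgroup.mem_centralizer_iff]
        intro r hr
        have h2 := m.2 ⟨r, hRP hr⟩ (Subgroup.mem_subgroupOf.mpr hr)
        have h3 : r * (m.1 : X) * r⁻¹ = m.1 := congrArg Subtype.val h2
        calc r * (m.1 : X) = (r * m.1 * r⁻¹) * r := by group
          _ = m.1 * r := by rw [h3]⟩⟩
      invFun := fun v => ⟨⟨v.1, (Subgroup.mem_inf.mp v.2).1⟩, fun r hr => by
        apply Subtype.ext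
        show (r : X) * v.1 * (r : X)⁻¹ = v.1
        have h2 := (Subgroup.mem_centralizer_iff.mp (Subgroup.mem_inf.mp v.2).2) r
          (Subgroup.mem_subgroupOf.mp hr)
        rw [h2]; group⟩
      left_inv := fun m => rfl
      right_inv := fun v => rfl }

theorem normalizer_commutator [Finite X] (H K : Subgroup X) (g : X)
    (hH : g ∈ Subgroup.normalizer (H : Set X)) (hK : g ∈ Subgroup.normalizer (K : Set X)) :
    g ∈ Subgroup.normalizer ((⁅H, K⁆ : Subgroup X) : Set X) := by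
  apply mem_normalizer_of_conj
  intro x hx
  have h1 : (MulAut.conj g).toMonoidHom x ∈ (⁅H, K⁆).map (MulAut.conj g).toMonoidHom :=
    Subgroup.mem_map_of_mem _ hx
  rw [Subgroup.map_commutator] at h1
  have h2 : H.map (MulAut.conj g).toMonoidHom ≤ H := by
    rintro _ ⟨y, hy, rfl⟩
    exact conj_mem_of_mem_normalizer hH hy
  have h3 : K.map (MulAut.conj g).toMonoidHom ≤ K := by
    rintro _ ⟨y, hy, rfl⟩
    exact conj_mem_of_mem_normalizer hK hy
  exact Subgroup.commutator_mono h2 h3 h1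

theorem normalizer_inf_centralizer [Finite X] (V A : Subgroup X) (g : X)
    (hV : g ∈ Subgroup.normalizer (V : Set X)) (hA : g ∈ Subgroup.normalizer (A : Set X)) :
    g ∈ Subgroup.normalizer ((V ⊓ Subgroup.centralizer (A : Set X) : Subgroup X) : Set X) := by
  apply mem_normalizer_of_conj
  intro x hx
  have hx1 : x ∈ V := (Subgroup.mem_inf.mp hx).1
  have hx2 := Subgroup.mem_centralizer_iff.mp (Subgroup.mem_inf.mp hx).2
  refine Subgroup.mem_inf.mpr ⟨conj_mem_of_mem_normalizer hV hx1, ?_⟩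
  rw [Subgroup.mem_centralizer_iff]
  intro a ha
  have ha' : g⁻¹ * a * g ∈ A := by
    have := conj_mem_of_mem_normalizer ((Subgroup.normalizer (A : Set X)).inv_mem hA) ha
    rwa [inv_inv] at this
  have h1 := hx2 _ ha'
  calc a * (g * x * g⁻¹) = g * ((g⁻¹ * a * g) * x) * g⁻¹ := by group
    _ = g * (x * (g⁻¹ * a * g)) * g⁻¹ := by rw [h1]
    _ = g * x * g⁻¹ * a := by group

theorem abelian_le_normalizer [Finite X] (V U W : Subgroup X)
    (hVc : ∀ a ∈ V, ∀ b ∈ V, a * b = b * a) (hU : U ≤ V) (hW : W ≤ V) :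
    U ≤ Subgroup.normalizer (W : Set X) := by
  intro u hu
  apply mem_normalizer_of_conj
  intro w hw
  rw [hVc u (hU hu) w (hW hw)]
  simpa using hw

/-- The derived series of a subgroup, as subgroups of the ambient group. -/
def ds (K : Subgroup X) : ℕ → Subgroup X
  | 0 => K
  | n + 1 => ⁅ds K n, ds K n⁆

theorem ds_le (K : Subgroup X) (n : ℕ) : ds K n ≤ K := by
  induction n with
  | zero => exact le_refl K
  | succ n ih =>
    show ⁅ds K n, ds K n⁆ ≤ K
    rw [Subgroup.commutator_le]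
    intro a ha b hb
    exact K.mul_mem (K.mul_mem (K.mul_mem (ih ha) (ih hb)) (K.inv_mem (ih ha))) (K.inv_mem (ih hb))

theorem ds_normalizer [Finite X] (K : Subgroup X) (n : ℕ) (g : X)
    (hg : g ∈ Subgroup.normalizer (K : Set X)) :
    g ∈ Subgroup.normalizer ((ds K n : Subgroup X) : Set X) := by
  induction n with
  | zero => exact hg
  | succ n ih => exact normalizer_commutator _ _ g ih ih

theorem ds_eq_map (K : Subgroup X) (n : ℕ) : ds K n = (derivedSeries K n).map K.subtype := by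
  induction n with
  | zero =>
    show K = (⊤ : Subgroup K).map K.subtype
    rw [← MonoidHom.range_eq_map, Subgroup.range_subtype]
  | succ n ih =>
    show ⁅ds K n, ds K n⁆ = (⁅derivedSeries K n, derivedSeries K n⁆).map K.subtype
    rw [Subgroup.map_commutator, ih]

theorem exists_ds_eq_bot (K : Subgroup X) (hK : Group.IsSolvable K) : ∃ n, ds K n = ⊥ := by
  obtain ⟨n, hn⟩ := hK.solvable
  exact ⟨n, by rw [ds_eq_map, hn, Subgroup.map_bot]⟩

/-- **Fixed point formula**: `K ⋊ R` of Frobenius type with `K` solvable, acting on an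
elementary abelian `ℓ`-subgroup `V` with `C_V(K) = 1`, coprime orders. -/
theorem frob_card_solv [Finite X] (ℓ : ℕ) [Fact ℓ.Prime] (K R : Subgroup X)
    (hRK : R ≤ Subgroup.normalizer (K : Set X)) (hKs : Group.IsSolvable K)
    (hKℓ : (Nat.card K).Coprime ℓ) (hRℓ : (Nat.card R).Coprime ℓ)
    (hKR : (Nat.card K).Coprime (Nat.card R)) :
    ∀ (n : ℕ) (V : Subgroup X), Nat.card V = n →
    (∀ a ∈ V, ∀ b ∈ V, a * b = b * a) → (∀ v ∈ V, v ^ ℓ = 1) →
    K ≤ Subgroup.normalizer (V : Set X) → R ≤ Subgroup.normalizer (V : Set X) →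
    (∀ r ∈ R, r ≠ 1 → K ⊓ Subgroup.centralizer {r} ≤ Subgroup.centralizer (V : Set X)) →
    V ⊓ Subgroup.centralizer (K : Set X) = ⊥ →
    Nat.card V = Nat.card ↥(V ⊓ Subgroup.centralizer (R : Set X)) ^ Nat.card R := by
  intro n
  induction n using Nat.strong_induction_on with
  | _ n ih =>
  intro V hn hVc hVe hKV hRV hfrob hfix
  by_cases hV1 : V = ⊥
  · subst hV1
    simp
  have hKC : ¬ K ≤ Subgroup.centralizer (V : Set X) := by
    intro h
    apply hV1
    rw [← hfix]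
    exact (inf_eq_left.mpr (Subgroup.le_centralizer_iff.mp h)).symm
  obtain ⟨m, hm⟩ := exists_ds_eq_bot K hKs
  have hex : ∃ i, ds K i ≤ Subgroup.centralizer (V : Set X) := ⟨m, by rw [hm]; exact bot_le⟩
  classical
  have hi : ds K (Nat.find hex) ≤ Subgroup.centralizer (V : Set X) := Nat.find_spec hex
  have hi0 : Nat.find hex ≠ 0 := by
    intro h0
    apply hKC
    have h1 := hi
    rw [h0] at h1
    exact h1
  obtain ⟨j, hj⟩ := Nat.exists_eq_succ_of_ne_zero hi0
  have hjn : ¬ ds K j ≤ Subgroup.centralizer (V : Set X) :=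
    Nat.find_min hex (by rw [hj]; exact Nat.lt_succ_self j)
  rw [hj] at hi
  obtain ⟨A, hAdef⟩ : ∃ A : Subgroup X, A = ds K j := ⟨_, rfl⟩
  rw [← hAdef] at hjn
  have hAK : A ≤ K := by rw [hAdef]; exact ds_le K j
  have hAab : ⁅A, A⁆ ≤ Subgroup.centralizer (V : Set X) := by rw [hAdef]; exact hi
  have hKA : K ≤ Subgroup.normalizer (A : Set X) := fun k hk => by
    rw [hAdef]; exact ds_normalizer K j k (Subgroup.le_normalizer hk)
  have hRA : R ≤ Subgroup.normalizer (A : Set X) := fun r hr => by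
    rw [hAdef]; exact ds_normalizer K j r (hRK hr)
  have hAV : A ≤ Subgroup.normalizer (V : Set X) := hAK.trans hKV
  have hAℓ : (Nat.card A).Coprime ℓ :=
    Nat.Coprime.coprime_dvd_left (Subgroup.card_dvd_of_le hAK) hKℓ
  have hVp : IsPGroup ℓ V := fun v => ⟨1, by
    rw [pow_one]
    apply Subtype.ext
    rw [Subgroup.coe_pow]
    exact hVe v v.2⟩
  obtain ⟨e, he⟩ := hVp.exists_card_eq
  have hcopAV : (Nat.card A).Coprime (Nat.card V) := by
    rw [he]; exact Nat.Coprime.pow_right e hAℓ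
  have hcopRV : (Nat.card R).Coprime (Nat.card V) := by
    rw [he]; exact Nat.Coprime.pow_right e hRℓ
  have hVsolv : Group.IsSolvable V := Group.isSolvable_of_comm (fun a b => Subtype.ext (hVc a a.2 b b.2))
  obtain ⟨V₁, hV₁⟩ : ∃ V₁ : Subgroup X, V₁ = V ⊓ Subgroup.centralizer (A : Set X) := ⟨_, rfl⟩
  obtain ⟨V₂, hV₂⟩ : ∃ V₂ : Subgroup X, V₂ = ⁅V, A⁆ := ⟨_, rfl⟩
  have hV₁V : V₁ ≤ V := by rw [hV₁]; exact inf_le_left
  have hV₂V : V₂ ≤ V := by
    rw [hV₂]; exact Cfsg.Agent.H1.commutator_le_of_le_normalizer A V hAV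
  have hinf : V₁ ⊓ V₂ = ⊥ := by
    rw [hV₁, hV₂]; exact centralizer_inf_commutator_eq_bot V A hVc hAV hcopAV
  have hnormV₁ : ∀ g, g ∈ Subgroup.normalizer (V : Set X) → g ∈ Subgroup.normalizer (A : Set X) →
      g ∈ Subgroup.normalizer (V₁ : Set X) := by
    intro g h1 h2; rw [hV₁]; exact normalizer_inf_centralizer V A g h1 h2
  have hnormV₂ : ∀ g, g ∈ Subgroup.normalizer (V : Set X) → g ∈ Subgroup.normalizer (A : Set X) →
      g ∈ Subgroup.normalizer (V₂ : Set X) := by
    intro g h1 h2; rw [hV₂]; exact normalizer_commutator V A g h1 h2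
  have hV₁lt : Nat.card V₁ < Nat.card V := by
    by_contra hlt
    push Not at hlt
    have h1 : V₁ = V := Subgroup.eq_of_le_of_card_ge hV₁V hlt
    apply hjn
    rw [Subgroup.le_centralizer_iff]
    rw [← h1, hV₁]
    exact inf_le_right
  have ih1 := ih (Nat.card V₁) (by rw [← hn]; exact hV₁lt) V₁ rfl
    (fun a ha b hb => hVc a (hV₁V ha) b (hV₁V hb)) (fun v hv => hVe v (hV₁V hv))
    (fun k hk => hnormV₁ k (hKV hk) (hKA hk)) (fun r hr => hnormV₁ r (hRV hr) (hRA hr))
    (fun r hr hr1 => (hfrob r hr hr1).trans (Subgroup.centralizer_le hV₁V))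
    (by rw [eq_bot_iff, ← hfix]; exact inf_le_inf_right _ hV₁V)
  have h2 := frob_card_sub ℓ V₂ A R (K ⊔ R)
    (fun a ha b hb => hVc a (hV₂V ha) b (hV₂V hb)) (fun v hv => hVe v (hV₂V hv))
    (sup_le (fun k hk => hnormV₂ k (hKV hk) (hKA hk)) (fun r hr => hnormV₂ r (hRV hr) (hRA hr)))
    (hAK.trans le_sup_left) le_sup_right (sup_le hKA hRA) hAℓ hRℓ
    (Nat.Coprime.coprime_dvd_left (Subgroup.card_dvd_of_le hAK) hKR)
    (hAab.trans (Subgroup.centralizer_le hV₂V))
    (fun r hr hr1 => (inf_le_inf_right _ hAK).trans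
      ((hfrob r hr hr1).trans (Subgroup.centralizer_le hV₂V)))
    (by
      rw [eq_bot_iff, ← hinf, hV₁]
      exact le_inf (inf_le_inf_right _ hV₂V) inf_le_left)
  have hdecomp : ∀ k ∈ V, ∃ x ∈ V₁, ∃ y ∈ V₂, k = x * y := by
    intro k hk
    obtain ⟨c, hc, x, hx, rfl⟩ :=
      Cfsg.Agent.H1.exists_centralizer_mul_commutator A V hAV hcopAV (Or.inr hVsolv) k hk
    exact ⟨c, by rw [hV₁]; exact hc, x, by rw [hV₂]; exact hx, rfl⟩
  have hcardV : Nat.card V = Nat.card V₁ * Nat.card V₂ := by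
    rw [← Cfsg.Agent.H1.card_sup_of_le_normalizer V₁ V₂
      (abelian_le_normalizer V V₁ V₂ hVc hV₁V hV₂V) hinf]
    congr 2
    apply le_antisymm
    · intro k hk
      obtain ⟨x, hx, y, hy, rfl⟩ := hdecomp k hk
      exact Subgroup.mul_mem _ (Subgroup.mem_sup_left hx) (Subgroup.mem_sup_right hy)
    · exact sup_le hV₁V hV₂V
  have hcardC : Nat.card ↥(V ⊓ Subgroup.centralizer (R : Set X)) =
      Nat.card ↥(V₁ ⊓ Subgroup.centralizer (R : Set X)) *
        Nat.card ↥(V₂ ⊓ Subgroup.centralizer (R : Set X)) := by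
    rw [← Cfsg.Agent.H1.card_sup_of_le_normalizer (V₁ ⊓ Subgroup.centralizer (R : Set X))
      (V₂ ⊓ Subgroup.centralizer (R : Set X))
      (abelian_le_normalizer V _ _ hVc (inf_le_left.trans hV₁V) (inf_le_left.trans hV₂V))
      (by rw [eq_bot_iff, ← hinf]; exact inf_le_inf inf_le_left inf_le_left)]
    congr 2
    apply le_antisymm
    · intro k hk
      obtain ⟨x, hx, y, hy, rfl⟩ := Cfsg.Agent.H1.coprime_fixed_points_mul R V hcopRV
        (Or.inr hVsolv) V₁ V₂ hV₁V (fun r hr => hnormV₁ r (hRV hr) (hRA hr))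
        (fun r hr => hnormV₂ r (hRV hr) (hRA hr)) hdecomp k hk
      exact Subgroup.mul_mem _ (Subgroup.mem_sup_left hx) (Subgroup.mem_sup_right hy)
    · exact sup_le (inf_le_inf_right _ hV₁V) (inf_le_inf_right _ hV₂V)
  rw [hcardV, ih1, h2, hcardC, mul_pow]

/-- Internal form of `FrobBridge.frob_comm`. -/
theorem frob_comm_sub [Finite X] (ℓ : ℕ) [Fact ℓ.Prime] (V A R K : Subgroup X)
    (hVc : ∀ a ∈ V, ∀ b ∈ V, a * b = b * a) (hVe : ∀ v ∈ V, v ^ ℓ = 1)
    (hKV : K ≤ Subgroup.normalizer (V : Set X)) (hRV : R ≤ Subgroup.normalizer (V : Set X))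
    (hAK : A ≤ K) (hKA : K ≤ Subgroup.normalizer (A : Set X))
    (hRA : R ≤ Subgroup.normalizer (A : Set X)) (hRK : R ≤ Subgroup.normalizer (K : Set X))
    (hA : (Nat.card A).Coprime ℓ) (hAR : (Nat.card A).Coprime (Nat.card R))
    (hAab : ⁅A, A⁆ ≤ Subgroup.centralizer (V : Set X))
    (hfrob : ∀ r ∈ R, r ≠ 1 → A ⊓ Subgroup.centralizer {r} ≤ Subgroup.centralizer (V : Set X))
    (hfix : V ⊓ Subgroup.centralizer (A : Set X) = ⊥)
    (p : ℕ) (hp : p.Prime) (hRp : Nat.card R = p) (hV : Nat.card V = ℓ ^ p)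
    (hK : (Nat.card K).Coprime p) :
    ⁅K, K⁆ ≤ Subgroup.centralizer (V : Set X) := by
  obtain ⟨P, hPdef⟩ : ∃ P : Subgroup X, P = K ⊔ R := ⟨_, rfl⟩
  have hKP : K ≤ P := by rw [hPdef]; exact le_sup_left
  have hRP : R ≤ P := by rw [hPdef]; exact le_sup_right
  have hAP : A ≤ P := hAK.trans hKP
  have hPV : P ≤ Subgroup.normalizer (V : Set X) := by rw [hPdef]; exact sup_le hKV hRV
  have hPA : P ≤ Subgroup.normalizer (A : Set X) := by rw [hPdef]; exact sup_le hKA hRA
  haveI : (A.subgroupOf P).Normal := Subgroup.normal_subgroupOf_of_le_normalizer hPA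
  have hcardA : Nat.card (A.subgroupOf P) = Nat.card A :=
    Nat.card_congr (Subgroup.subgroupOfEquivOfLe hAP).toEquiv
  have hcardR : Nat.card (R.subgroupOf P) = Nat.card R :=
    Nat.card_congr (Subgroup.subgroupOfEquivOfLe hRP).toEquiv
  have hcardK : Nat.card (K.subgroupOf P) = Nat.card K :=
    Nat.card_congr (Subgroup.subgroupOfEquivOfLe hKP).toEquiv
  have key := frob_comm ℓ (M := ↥V) (fun a b => Subtype.ext (hVc a a.2 b b.2))
    (fun m => Subtype.ext (by rw [Subgroup.coe_pow]; exact hVe m m.2))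
    (conjAut V P hPV) (A.subgroupOf P) (R.subgroupOf P) (K.subgroupOf P)
    (fun a ha b hb => conjAut_comm V P hPV a b
      (hAab (Subgroup.commutator_mem_commutator (A.inv_mem (Subgroup.mem_subgroupOf.mp ha))
        (A.inv_mem (Subgroup.mem_subgroupOf.mp hb)))))
    (by rw [hcardA]; exact hA)
    (fun r hr hr1 S h1 h2 => frob_gen V A P hPV hAP hPA r
      (Nat.Coprime.coprime_dvd_right (Subgroup.orderOf_dvd_natCard R (Subgroup.mem_subgroupOf.mp hr))
        hAR)
      (hfrob r (Subgroup.mem_subgroupOf.mp hr) (fun h => hr1 (Subtype.ext h))) S h1 h2)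
    (fun m hm => by
      have h1 : (m : X) ∈ V ⊓ Subgroup.centralizer (A : Set X) := by
        refine Subgroup.mem_inf.mpr ⟨m.2, ?_⟩
        rw [Subgroup.mem_centralizer_iff]
        intro a ha
        have h2 := hm ⟨a, hAP ha⟩ (Subgroup.mem_subgroupOf.mpr ha)
        have h3 : a * m * a⁻¹ = m := congrArg Subtype.val h2
        calc a * m = (a * m * a⁻¹) * a := by group
          _ = m * a := by rw [h3]
      rw [hfix, Subgroup.mem_bot] at h1
      exact Subtype.ext h1)
    (fun r hr k hk => by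
      rw [Subgroup.mem_subgroupOf] at hr hk ⊢
      have h1 := conj_mem_of_mem_normalizer (hRK (R.inv_mem hr)) hk
      rw [inv_inv] at h1
      exact h1)
    p hp (by rw [hcardR]; exact hRp) hV (by rw [hcardK]; exact hK)
  rw [Subgroup.commutator_le]
  intro k hk k' hk'
  have h1 := key ⟨k, hKP hk⟩ (Subgroup.mem_subgroupOf.mpr hk) ⟨k', hKP hk'⟩
    (Subgroup.mem_subgroupOf.mpr hk')
  have h2 : conjAut V P hPV (⁅(⟨k, hKP hk⟩ : P), ⟨k', hKP hk'⟩⁆) = 1 := by
    rw [commutatorElement_def, map_mul, map_mul, map_mul, map_inv, map_inv, h1]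
    group
  exact (conjAut_eq_one_iff V P hPV _).mp h2

/-- **B & G, Theorem 3.4** (internal, generalised form): if `K ⋊ R` is of Frobenius type with `K`
solvable and `R` of prime order, acting coprimely on an elementary abelian `ℓ`-subgroup `V` with
`|C_V(R)| ≤ ℓ`, then `K'` centralises `V`. -/
theorem frob_derived_centralizes [Finite X] (ℓ : ℕ) [Fact ℓ.Prime] (K R V : Subgroup X)
    (hRK : R ≤ Subgroup.normalizer (K : Set X)) (hKs : Group.IsSolvable K)
    (hKℓ : (Nat.card K).Coprime ℓ) (hRℓ : (Nat.card R).Coprime ℓ)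
    (hKR : (Nat.card K).Coprime (Nat.card R))
    (hVc : ∀ a ∈ V, ∀ b ∈ V, a * b = b * a) (hVe : ∀ v ∈ V, v ^ ℓ = 1)
    (hKV : K ≤ Subgroup.normalizer (V : Set X)) (hRV : R ≤ Subgroup.normalizer (V : Set X))
    (hfrob : ∀ r ∈ R, r ≠ 1 → K ⊓ Subgroup.centralizer {r} ≤ Subgroup.centralizer (V : Set X))
    (hRp : (Nat.card R).Prime)
    (hC : Nat.card ↥(V ⊓ Subgroup.centralizer (R : Set X)) ≤ ℓ) :
    ⁅K, K⁆ ≤ Subgroup.centralizer (V : Set X) := by
  classical
  have hℓ : ℓ.Prime := Fact.out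
  have hpgrp : ∀ U : Subgroup X, U ≤ V → ∃ e, Nat.card U = ℓ ^ e := by
    intro U hU
    have hUp : IsPGroup ℓ U := fun v => ⟨1, by
      rw [pow_one]
      apply Subtype.ext
      rw [Subgroup.coe_pow]
      exact hVe v (hU v.2)⟩
    exact hUp.exists_card_eq
  obtain ⟨e, he⟩ := hpgrp V le_rfl
  have hcopKV : (Nat.card K).Coprime (Nat.card V) := by
    rw [he]; exact Nat.Coprime.pow_right e hKℓ
  have hVsolv : Group.IsSolvable V :=
    Group.isSolvable_of_comm (fun a b => Subtype.ext (hVc a a.2 b b.2))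
  obtain ⟨V₂, hV₂⟩ : ∃ V₂ : Subgroup X, V₂ = ⁅V, K⁆ := ⟨_, rfl⟩
  have hV₂V : V₂ ≤ V := by
    rw [hV₂]; exact Cfsg.Agent.H1.commutator_le_of_le_normalizer K V hKV
  have hinf : (V ⊓ Subgroup.centralizer (K : Set X)) ⊓ V₂ = ⊥ := by
    rw [hV₂]; exact centralizer_inf_commutator_eq_bot V K hVc hKV hcopKV
  have hKK : K ≤ Subgroup.normalizer (K : Set X) := Subgroup.le_normalizer
  have hKV₂ : K ≤ Subgroup.normalizer (V₂ : Set X) := fun k hk => by
    rw [hV₂]; exact normalizer_commutator V K k (hKV hk) (hKK hk)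
  have hRV₂ : R ≤ Subgroup.normalizer (V₂ : Set X) := fun r hr => by
    rw [hV₂]; exact normalizer_commutator V K r (hRV hr) (hRK hr)
  have hV₂c : ∀ a ∈ V₂, ∀ b ∈ V₂, a * b = b * a := fun a ha b hb => hVc a (hV₂V ha) b (hV₂V hb)
  have hV₂e : ∀ v ∈ V₂, v ^ ℓ = 1 := fun v hv => hVe v (hV₂V hv)
  have hfrob₂ : ∀ r ∈ R, r ≠ 1 →
      K ⊓ Subgroup.centralizer {r} ≤ Subgroup.centralizer (V₂ : Set X) :=
    fun r hr hr1 => (hfrob r hr hr1).trans (Subgroup.centralizer_le hV₂V)
  have hfix₂ : V₂ ⊓ Subgroup.centralizer (K : Set X) = ⊥ := by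
    rw [eq_bot_iff, ← hinf]
    exact le_inf (inf_le_inf_right _ hV₂V) inf_le_left
  -- it suffices to show that `K'` centralises `V₂`
  suffices hsuff : ⁅K, K⁆ ≤ Subgroup.centralizer (V₂ : Set X) by
    intro g hg
    have hgK : g ∈ K := by
      have h1 : ⁅K, K⁆ ≤ K := by
        rw [Subgroup.commutator_le]
        intro a ha b hb
        exact K.mul_mem (K.mul_mem (K.mul_mem ha hb) (K.inv_mem ha)) (K.inv_mem hb)
      exact h1 hg
    have hg2 := Subgroup.mem_centralizer_iff.mp (hsuff hg)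
    rw [Subgroup.mem_centralizer_iff]
    intro v hv
    obtain ⟨c, hc, x, hx, rfl⟩ :=
      Cfsg.Agent.H1.exists_centralizer_mul_commutator K V hKV hcopKV (Or.inr hVsolv) v hv
    have hc2 := Subgroup.mem_centralizer_iff.mp (Subgroup.mem_inf.mp hc).2 g hgK
    have hx2 := hg2 x (by rw [hV₂]; exact hx)
    calc c * x * g = c * (x * g) := by group
      _ = c * (g * x) := by rw [hx2]
      _ = (c * g) * x := by group
      _ = (g * c) * x := by rw [hc2]
      _ = g * (c * x) := by group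
  have h1 := frob_card_solv ℓ K R hRK hKs hKℓ hRℓ hKR (Nat.card V₂) V₂ rfl hV₂c hV₂e hKV₂ hRV₂
    hfrob₂ hfix₂
  obtain ⟨e₂, he₂⟩ := hpgrp (V₂ ⊓ Subgroup.centralizer (R : Set X)) (inf_le_left.trans hV₂V)
  have hle : Nat.card ↥(V₂ ⊓ Subgroup.centralizer (R : Set X)) ≤ ℓ :=
    (Subgroup.card_le_of_le (inf_le_inf_right _ hV₂V)).trans hC
  have he₂1 : e₂ ≤ 1 := by
    rw [he₂] at hle
    by_contra h
    push Not at h
    have : ℓ ^ 2 ≤ ℓ ^ e₂ := Nat.pow_le_pow_right hℓ.pos h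
    have h3 : ℓ < ℓ ^ 2 := by
      calc ℓ = ℓ ^ 1 := (pow_one ℓ).symm
        _ < ℓ ^ 2 := Nat.pow_lt_pow_right hℓ.one_lt (by norm_num)
    omega
  rcases Nat.le_one_iff_eq_zero_or_eq_one.mp he₂1 with h0 | h1'
  · -- `V₂ = 1`
    rw [he₂, h0, pow_zero, one_pow] at h1
    have hV₂bot : V₂ = ⊥ := Subgroup.card_eq_one.mp h1
    rw [hV₂bot]
    intro g _
    rw [Subgroup.mem_centralizer_iff]
    intro v hv
    rw [Subgroup.coe_bot, Set.mem_singleton_iff] at hv
    rw [hv, mul_one, one_mul]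
  · -- `|V₂| = ℓ ^ p`
    rw [he₂, h1', pow_one] at h1
    have hV₂ne : V₂ ≠ ⊥ := by
      intro h
      rw [h, Subgroup.card_bot] at h1
      have : 1 < ℓ ^ Nat.card R := Nat.one_lt_pow hRp.ne_zero hℓ.one_lt
      omega
    have hKC : ¬ K ≤ Subgroup.centralizer (V₂ : Set X) := by
      intro h
      apply hV₂ne
      rw [← hfix₂]
      exact (inf_eq_left.mpr (Subgroup.le_centralizer_iff.mp h)).symm
    obtain ⟨m, hm⟩ := exists_ds_eq_bot K hKs
    have hex : ∃ i, ds K i ≤ Subgroup.centralizer (V₂ : Set X) := ⟨m, by rw [hm]; exact bot_le⟩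
    have hi : ds K (Nat.find hex) ≤ Subgroup.centralizer (V₂ : Set X) := Nat.find_spec hex
    have hi0 : Nat.find hex ≠ 0 := by
      intro h0
      apply hKC
      have h1 := hi
      rw [h0] at h1
      exact h1
    obtain ⟨j, hj⟩ := Nat.exists_eq_succ_of_ne_zero hi0
    have hjn : ¬ ds K j ≤ Subgroup.centralizer (V₂ : Set X) :=
      Nat.find_min hex (by rw [hj]; exact Nat.lt_succ_self j)
    rw [hj] at hi
    obtain ⟨A, hAdef⟩ : ∃ A : Subgroup X, A = ds K j := ⟨_, rfl⟩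
    rw [← hAdef] at hjn
    have hAK : A ≤ K := by rw [hAdef]; exact ds_le K j
    have hAab : ⁅A, A⁆ ≤ Subgroup.centralizer (V₂ : Set X) := by rw [hAdef]; exact hi
    have hKA : K ≤ Subgroup.normalizer (A : Set X) := fun k hk => by
      rw [hAdef]; exact ds_normalizer K j k (Subgroup.le_normalizer hk)
    have hRA : R ≤ Subgroup.normalizer (A : Set X) := fun r hr => by
      rw [hAdef]; exact ds_normalizer K j r (hRK hr)
    have hAV₂ : A ≤ Subgroup.normalizer (V₂ : Set X) := hAK.trans hKV₂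
    have hAℓ : (Nat.card A).Coprime ℓ :=
      Nat.Coprime.coprime_dvd_left (Subgroup.card_dvd_of_le hAK) hKℓ
    have hAR : (Nat.card A).Coprime (Nat.card R) :=
      Nat.Coprime.coprime_dvd_left (Subgroup.card_dvd_of_le hAK) hKR
    have hcopAV₂ : (Nat.card A).Coprime (Nat.card V₂) := by
      rw [h1]; exact Nat.Coprime.pow_right _ hAℓ
    obtain ⟨W, hW⟩ : ∃ W : Subgroup X, W = ⁅V₂, A⁆ := ⟨_, rfl⟩
    have hWV₂ : W ≤ V₂ := by
      rw [hW]; exact Cfsg.Agent.H1.commutator_le_of_le_normalizer A V₂ hAV₂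
    have hWne : W ≠ ⊥ := by
      intro h
      apply hjn
      rw [Subgroup.le_centralizer_iff]
      intro v hv
      rw [Subgroup.mem_centralizer_iff]
      intro a ha
      have h2 : ⁅v, a⁆ ∈ W := by rw [hW]; exact Subgroup.commutator_mem_commutator hv ha
      rw [h, Subgroup.mem_bot, commutatorElement_def] at h2
      calc a * v = (v * a * v⁻¹ * a⁻¹)⁻¹ * (v * a) := by group
        _ = v * a := by rw [h2, inv_one, one_mul]
    have hinfW : (V₂ ⊓ Subgroup.centralizer (A : Set X)) ⊓ W = ⊥ := by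
      rw [hW]; exact centralizer_inf_commutator_eq_bot V₂ A hV₂c hAV₂ hcopAV₂
    have hKW : K ≤ Subgroup.normalizer (W : Set X) := fun k hk => by
      rw [hW]; exact normalizer_commutator V₂ A k (hKV₂ hk) (hKA hk)
    have hRW : R ≤ Subgroup.normalizer (W : Set X) := fun r hr => by
      rw [hW]; exact normalizer_commutator V₂ A r (hRV₂ hr) (hRA hr)
    have hWcard := frob_card_sub ℓ W A R (K ⊔ R)
      (fun a ha b hb => hV₂c a (hWV₂ ha) b (hWV₂ hb)) (fun v hv => hV₂e v (hWV₂ hv))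
      (sup_le hKW hRW) (hAK.trans le_sup_left) le_sup_right (sup_le hKA hRA) hAℓ hRℓ hAR
      (hAab.trans (Subgroup.centralizer_le hWV₂))
      (fun r hr hr1 => (inf_le_inf_right _ hAK).trans
        ((hfrob₂ r hr hr1).trans (Subgroup.centralizer_le hWV₂)))
      (by
        rw [eq_bot_iff, ← hinfW]
        exact le_inf (inf_le_inf_right _ hWV₂) inf_le_left)
    obtain ⟨e₃, he₃⟩ := hpgrp (W ⊓ Subgroup.centralizer (R : Set X)) (inf_le_left.trans (hWV₂.trans hV₂V))
    have he₃0 : e₃ ≠ 0 := by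
      intro h
      rw [he₃, h, pow_zero, one_pow] at hWcard
      exact hWne (Subgroup.card_eq_one.mp hWcard)
    have hWV₂eq : W = V₂ := by
      apply Subgroup.eq_of_le_of_card_ge hWV₂
      rw [h1, hWcard, he₃, ← pow_mul]
      apply Nat.pow_le_pow_right hℓ.pos
      calc Nat.card R = 1 * Nat.card R := (one_mul _).symm
        _ ≤ e₃ * Nat.card R := Nat.mul_le_mul_right _ (Nat.one_le_iff_ne_zero.mpr he₃0)
    have hfixA : V₂ ⊓ Subgroup.centralizer (A : Set X) = ⊥ := by
      rw [eq_bot_iff, ← hinfW, hWV₂eq]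
      exact le_inf le_rfl inf_le_left
    exact frob_comm_sub ℓ V₂ A R K hV₂c hV₂e hKV₂ hRV₂ hAK hKA hRA hRK hAℓ hAR hAab
      (fun r hr hr1 => (inf_le_inf_right _ hAK).trans (hfrob₂ r hr hr1)) hfixA
      (Nat.card R) hRp rfl h1 hKR

end Cfsg.Agent.H58.FrobAct
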