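import Mathlib
import Cfsg.Agent.H58.FrobAct

/-!
# Sections `N_X(N)/N` and images of subgroups

A small framework for passing to the quotient `N_X(N)/N` in internal (subgroups of one ambient
group) arguments.
-/

set_option autoImplicit false
set_option linter.unusedSectionVars false
set_option linter.style.haveILetI false

namespace Cfsg.Agent.H58.FrobQuot

open Cfsg.Agent.H58.FrobAct
open scoped commutatorElement

universe u

variable {X : Type u} [Group X]

/-- The section group `N_X(N)/N`. -/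
abbrev SecGrp (N : Subgroup X) : Type u :=
  ↥(Subgroup.normalizer (N : Set X)) ⧸ N.subgroupOf (Subgroup.normalizer (N : Set X))

/-- The quotient map. -/
def secMk (N : Subgroup X) : ↥(Subgroup.normalizer (N : Set X)) →* SecGrp N :=
  QuotientGroup.mk' _

/-- Image of a subgroup in the section. -/
def im (N Y : Subgroup X) : Subgroup (SecGrp N) :=
  (Y.subgroupOf (Subgroup.normalizer (N : Set X))).map (secMk N)

theorem secMk_surjective (N : Subgroup X) : Function.Surjective (secMk N) :=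
  QuotientGroup.mk'_surjective _

theorem secMk_eq_iff (N : Subgroup X) (a b : ↥(Subgroup.normalizer (N : Set X))) :
    secMk N a = secMk N b ↔ (a : X)⁻¹ * b ∈ N := by
  show (QuotientGroup.mk a : SecGrp N) = QuotientGroup.mk b ↔ _
  rw [QuotientGroup.eq]
  rfl

theorem secMk_eq_one_iff (N : Subgroup X) (a : ↥(Subgroup.normalizer (N : Set X))) :
    secMk N a = 1 ↔ (a : X) ∈ N := by
  have h := secMk_eq_iff N 1 a
  rw [map_one] at h
  rw [eq_comm, h]
  simp

theorem mem_im {N Y : Subgroup X} (hY : Y ≤ Subgroup.normalizer (N : Set X)) (x : SecGrp N) :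
    x ∈ im N Y ↔ ∃ y, ∃ hy : y ∈ Y, secMk N ⟨y, hY hy⟩ = x := by
  constructor
  · rintro ⟨a, ha, rfl⟩
    exact ⟨a, Subgroup.mem_subgroupOf.mp ha, rfl⟩
  · rintro ⟨y, hy, rfl⟩
    exact ⟨⟨y, hY hy⟩, Subgroup.mem_subgroupOf.mpr hy, rfl⟩

theorem mk_mem_im {N Y : Subgroup X} (a : ↥(Subgroup.normalizer (N : Set X))) (ha : (a : X) ∈ Y) :
    secMk N a ∈ im N Y :=
  ⟨a, Subgroup.mem_subgroupOf.mpr ha, rfl⟩

theorem im_mono (N : Subgroup X) {Y Z : Subgroup X} (h : Y ≤ Z) : im N Y ≤ im N Z := by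
  rintro _ ⟨a, ha, rfl⟩
  exact ⟨a, Subgroup.mem_subgroupOf.mpr (h (Subgroup.mem_subgroupOf.mp ha)), rfl⟩

theorem im_sup {N Y Z : Subgroup X} (hY : Y ≤ Subgroup.normalizer (N : Set X))
    (hZ : Z ≤ Subgroup.normalizer (N : Set X)) : im N (Y ⊔ Z) = im N Y ⊔ im N Z := by
  unfold im
  rw [Subgroup.subgroupOf_sup hY hZ, Subgroup.map_sup]

theorem card_im [Finite X] {N Y : Subgroup X} (hY : Y ≤ Subgroup.normalizer (N : Set X)) :
    Nat.card (im N Y) * Nat.card ↥(Y ⊓ N) = Nat.card Y := by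
  obtain ⟨f, hf⟩ : ∃ f : ↥Y →* SecGrp N, f = (secMk N).comp (Subgroup.inclusion hY) := ⟨_, rfl⟩
  have hrange : f.range = im N Y := by
    ext x
    rw [mem_im hY]
    constructor
    · rintro ⟨y, rfl⟩
      exact ⟨y.1, y.2, by rw [hf]; rfl⟩
    · rintro ⟨y, hy, rfl⟩
      exact ⟨⟨y, hy⟩, by rw [hf]; rfl⟩
  have hfy : ∀ y : Y, f y = secMk N ⟨y, hY y.2⟩ := by
    intro y; rw [hf]; rfl
  have hker : Nat.card f.ker = Nat.card ↥(Y ⊓ N) := by
    apply Nat.card_congr
    exact
      { toFun := fun y => ⟨y.1.1, Subgroup.mem_inf.mpr ⟨y.1.2,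
          (secMk_eq_one_iff N _).mp ((hfy y.1).symm.trans y.2)⟩⟩
        invFun := fun y => ⟨⟨y.1, (Subgroup.mem_inf.mp y.2).1⟩, by
          show f _ = 1
          rw [hfy]
          exact (secMk_eq_one_iff N _).mpr (Subgroup.mem_inf.mp y.2).2⟩
        left_inv := fun y => rfl
        right_inv := fun y => rfl }
  rw [← hrange, ← hker, ← Subgroup.index_ker f]
  exact Subgroup.index_mul_card f.ker

theorem card_im_dvd [Finite X] {N Y : Subgroup X} (hY : Y ≤ Subgroup.normalizer (N : Set X)) :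
    Nat.card (im N Y) ∣ Nat.card Y :=
  Dvd.intro _ (card_im hY)

theorem card_im_of_disjoint [Finite X] {N Y : Subgroup X}
    (hY : Y ≤ Subgroup.normalizer (N : Set X)) (h : Y ⊓ N = ⊥) :
    Nat.card (im N Y) = Nat.card Y := by
  have := card_im hY
  rw [h, Subgroup.card_bot, mul_one] at this
  exact this

theorem card_im_of_le [Finite X] {N Y : Subgroup X}
    (hY : Y ≤ Subgroup.normalizer (N : Set X)) (h : N ≤ Y) :
    Nat.card (im N Y) * Nat.card N = Nat.card Y := by
  have := card_im hY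
  rw [inf_eq_right.mpr h] at this
  exact this

theorem im_normalizer [Finite X] {N Y Z : Subgroup X} (hY : Y ≤ Subgroup.normalizer (N : Set X))
    (hZ : Z ≤ Subgroup.normalizer (N : Set X)) (h : Y ≤ Subgroup.normalizer (Z : Set X)) :
    im N Y ≤ Subgroup.normalizer ((im N Z : Subgroup (SecGrp N)) : Set (SecGrp N)) := by
  intro y hy
  obtain ⟨y₀, hy₀, rfl⟩ := (mem_im hY _).mp hy
  apply mem_normalizer_of_conj
  intro z hz
  obtain ⟨z₀, hz₀, rfl⟩ := (mem_im hZ _).mp hz
  rw [← map_mul, ← map_inv, ← map_mul]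
  apply mk_mem_im
  exact conj_mem_of_mem_normalizer (h hy₀) hz₀

theorem im_solvable {N Y : Subgroup X} (hYs : Group.IsSolvable Y) : Group.IsSolvable (im N Y) := by
  have hg : Function.Surjective
      ((secMk N).subgroupMap (Y.subgroupOf (Subgroup.normalizer (N : Set X)))) :=
    (secMk N).subgroupMap_surjective _
  haveI : Group.IsSolvable ↥(Y.subgroupOf (Subgroup.normalizer (N : Set X))) := by
    apply Group.isSolvable_of_isSolvable_injective
      (f := ((Subgroup.normalizer (N : Set X)).subtype.subgroupComap Y))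
    intro a b hab
    have h1 : ((a : ↥(Subgroup.normalizer (N : Set X))) : X) = b :=
      congrArg (fun t : ↥Y => (t : X)) hab
    exact Subtype.ext (Subtype.ext h1)
  exact Group.isSolvable_of_surjective hg

theorem im_inf_centralizer [Finite X] {N H Y : Subgroup X} (hNH : N ≤ H)
    (hHN : H ≤ Subgroup.normalizer (N : Set X)) (hYN : Y ≤ Subgroup.normalizer (N : Set X))
    (hcop : (Nat.card Y).Coprime (Nat.card H))
    (hsolv : Group.IsSolvable Y ∨ Group.IsSolvable H) :
    im N H ⊓ Subgroup.centralizer ((im N Y : Subgroup (SecGrp N)) : Set (SecGrp N)) =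
      im N (H ⊓ Subgroup.centralizer (Y : Set X)) := by
  apply le_antisymm
  · intro x hx
    obtain ⟨hxH, hxC⟩ := Subgroup.mem_inf.mp hx
    obtain ⟨h, hh, rfl⟩ := (mem_im hHN _).mp hxH
    have hfix : ∀ a ∈ Y, a * h * a⁻¹ * h⁻¹ ∈ N := by
      intro a ha
      have h1 := (Subgroup.mem_centralizer_iff.mp hxC) (secMk N ⟨a, hYN ha⟩) (mk_mem_im _ ha)
      rw [← map_mul, ← map_mul, secMk_eq_iff] at h1
      have h2 : (a * h)⁻¹ * (h * a) ∈ N := h1
      have hah : a * h ∈ Subgroup.normalizer (N : Set X) :=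
        (Subgroup.normalizer (N : Set X)).mul_mem (hYN ha) (hHN hh)
      have h3 := N.inv_mem (conj_mem_of_mem_normalizer hah h2)
      have h4 : ((a * h) * ((a * h)⁻¹ * (h * a)) * (a * h)⁻¹)⁻¹ = a * h * a⁻¹ * h⁻¹ := by group
      rwa [h4] at h3
    obtain ⟨c, hc, hcN⟩ := Cfsg.Agent.H1.coprime_fixed_points_quotient Y H hcop hsolv N hNH hHN hYN
      h hh hfix
    have h5 : secMk N ⟨h, hHN hh⟩ = secMk N ⟨c, hHN (Subgroup.mem_inf.mp hc).1⟩ :=
      (secMk_eq_iff N _ _).mpr hcN
    rw [h5]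
    exact mk_mem_im _ hc
  · intro x hx
    obtain ⟨c, hc, rfl⟩ := (mem_im (inf_le_left.trans hHN) _).mp hx
    refine Subgroup.mem_inf.mpr ⟨mk_mem_im _ (Subgroup.mem_inf.mp hc).1, ?_⟩
    rw [Subgroup.mem_centralizer_iff]
    intro y hy
    obtain ⟨y₀, hy₀, rfl⟩ := (mem_im hYN _).mp hy
    rw [← map_mul, ← map_mul]
    congr 1
    apply Subtype.ext
    exact (Subgroup.mem_centralizer_iff.mp (Subgroup.mem_inf.mp hc).2) y₀ hy₀

/-- Coprime action: `|C_{H/N}(Y)| * |C_N(Y)| = |C_H(Y)|`. -/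
theorem card_fixed_im [Finite X] {N H Y : Subgroup X} (hNH : N ≤ H)
    (hHN : H ≤ Subgroup.normalizer (N : Set X)) (hYN : Y ≤ Subgroup.normalizer (N : Set X))
    (hcop : (Nat.card Y).Coprime (Nat.card H))
    (hsolv : Group.IsSolvable Y ∨ Group.IsSolvable H) :
    Nat.card ↥(im N H ⊓ Subgroup.centralizer ((im N Y : Subgroup (SecGrp N)) : Set (SecGrp N))) *
      Nat.card ↥(N ⊓ Subgroup.centralizer (Y : Set X)) =
      Nat.card ↥(H ⊓ Subgroup.centralizer (Y : Set X)) := by
  rw [im_inf_centralizer hNH hHN hYN hcop hsolv]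
  have h1 := card_im (N := N) (Y := H ⊓ Subgroup.centralizer (Y : Set X)) (inf_le_left.trans hHN)
  have h2 : (H ⊓ Subgroup.centralizer (Y : Set X)) ⊓ N = N ⊓ Subgroup.centralizer (Y : Set X) := by
    apply le_antisymm
    · exact le_inf inf_le_right (inf_le_left.trans inf_le_right)
    · exact le_inf (le_inf (inf_le_left.trans hNH) inf_le_right) inf_le_left
  rw [h2] at h1
  exact h1

end Cfsg.Agent.H58.FrobQuot
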