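import Mathlib
import Cfsg.Agent.H58.BG10All
import Cfsg.Agent.H58.BG10Defs3
import Cfsg.Agent.H89.BG10H
import Cfsg.Agent.H28.BG10I0
import Cfsg.Agent.H71.BG10I
import Cfsg.Agent.H27.BG10J
import Cfsg.Agent.H71.BG10K
import Cfsg.Agent.Lib.Helper30.BG10N

set_option autoImplicit false

/-!
# Bender–Glauberman §10: the statements S1410–S1413 and S1350 for a minimal simple group of
odd order (assembly of the BG10 team project pieces; helper58)
-/

namespace Cfsg.Agent.H58.BG10

open Cfsg Subgroup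

universe u

variable {G : Type u} [Group G] [Finite G]

theorem st1410 (hG : IsMinSimpleOddOrder G) : St1410 G :=
  Cfsg.Agent.H89.BG10.bg107a hG (st1403 hG) (stSigComm hG) (st1405 hG) (st1407 hG)

theorem stFusion (hG : IsMinSimpleOddOrder G) : StFusion G :=
  Cfsg.Agent.H28.BG10.fusion hG (st1410 hG)

theorem st1413 (hG : IsMinSimpleOddOrder G) : St1413 G :=
  Cfsg.Agent.H71.BG10.bg107c hG (stFusion hG)

theorem st1411 (hG : IsMinSimpleOddOrder G) : St1411 G :=
  Cfsg.Agent.H27.BG10.bg107b hG (stFusion hG)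

theorem st1412 (hG : IsMinSimpleOddOrder G) : St1412 G :=
  Cfsg.Agent.H71.BG10.bg107r hG (st1411 hG)

theorem st1350 (hG : IsMinSimpleOddOrder G) : St1350 G :=
  Cfsg.Agent.Lib.Helper30.BG10N.sigmaHall hG (st1403 hG) (stSigComm hG) (st1405 hG)

end Cfsg.Agent.H58.BG10
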