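import Mathlib

/-!
# Fixed-point-free action of a nonabelian group of order `pq`: definitions

Tool statements (as `Prop`s about a group `X`, all in "internal" form: subgroups of `X`,
actions by conjugation `g * u * g⁻¹`) and the minimal configuration `FCfg`.
-/

set_option autoImplicit false
set_option linter.unusedVariables false

namespace Cfsg.Agent.H58.Fz

open scoped commutatorElement

universe u

/-- AQ: if `b` (of prime order `q`) normalizes the abelian group `B` and acts without fixed points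
on the abelian group `U` (normalized by `B`, coprime to `|B|`), then `[B, b]` centralizes `U`. -/
def AQ (X : Type u) [Group X] : Prop :=
  ∀ (B U : Subgroup X) (b : X) (q : ℕ), q.Prime → b ^ q = 1 →
    (∀ a ∈ B, ∀ a' ∈ B, a * a' = a' * a) → (∀ u ∈ U, ∀ u' ∈ U, u * u' = u' * u) →
    b ∈ Subgroup.normalizer (B : Set X) → B ≤ Subgroup.normalizer (U : Set X) →
    b ∈ Subgroup.normalizer (U : Set X) → (Nat.card B).Coprime q →
    (Nat.card B).Coprime (Nat.card U) → (∀ u ∈ U, b * u = u * b → u = 1) →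
    ∀ a ∈ B, b * a * b⁻¹ * a⁻¹ ∈ Subgroup.centralizer (U : Set X)

/-- TS: Thompson's theorem for a section: if `b` of prime order `q` acts on `K` (coprime to `q`)
with `C_K(b) ≤ Z`, `Z` normal in `K` and `b`-invariant, then `K / Z` is nilpotent. -/
def TS (X : Type u) [Group X] : Prop :=
  ∀ (K Z : Subgroup X) (b : X) (q : ℕ), q.Prime → b ^ q = 1 → Z ≤ K →
    K ≤ Subgroup.normalizer (Z : Set X) → b ∈ Subgroup.normalizer (K : Set X) →
    b ∈ Subgroup.normalizer (Z : Set X) → (Nat.card K).Coprime q →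
    (∀ g ∈ K, b * g = g * b → g ∈ Z) → ∃ m, K.lowerCentralSeries m ≤ Z

/-- EX: an elementary abelian `r`-group `E` acting coprimely on an abelian group `U ≠ 1` without
common fixed points has a subgroup `K` of index `r` with `C_U(K) ≠ 1`. -/
def EX (X : Type u) [Group X] : Prop :=
  ∀ (E U : Subgroup X) (r : ℕ), r.Prime → (∀ a ∈ E, ∀ b ∈ E, a * b = b * a) →
    (∀ a ∈ E, a ^ r = 1) → (∀ a ∈ U, ∀ b ∈ U, a * b = b * a) →
    E ≤ Subgroup.normalizer (U : Set X) → (Nat.card E).Coprime (Nat.card U) → U ≠ ⊥ →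
    U ⊓ Subgroup.centralizer (E : Set X) = ⊥ →
    ∃ K : Subgroup X, K ≤ E ∧ Nat.card E = r * Nat.card K ∧
      U ⊓ Subgroup.centralizer (K : Set X) ≠ ⊥

/-- EXQ: the same for the action on a quotient `R / D`: if `E` (elementary abelian `r`-group)
normalizes `R` (coprime order), `D = C_R(E)` is normal in `R` with `R / D` abelian and `D ≠ R`,
then some subgroup `H` of index `r` in `E` has `C_R(H) ⊄ D`. -/
def EXQ (X : Type u) [Group X] : Prop :=
  ∀ (E R : Subgroup X) (r : ℕ), r.Prime → (∀ a ∈ E, ∀ b ∈ E, a * b = b * a) →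
    (∀ a ∈ E, a ^ r = 1) → E ≤ Subgroup.normalizer (R : Set X) →
    (Nat.card E).Coprime (Nat.card R) →
    (∀ a ∈ R, ∀ b ∈ R, a * b * a⁻¹ * b⁻¹ ∈ Subgroup.centralizer (E : Set X)) →
    ¬ R ≤ Subgroup.centralizer (E : Set X) →
    ∃ H : Subgroup X, H ≤ E ∧ Nat.card E = r * Nat.card H ∧
      ¬ R ⊓ Subgroup.centralizer (H : Set X) ≤ Subgroup.centralizer (E : Set X)

/-- IND: `K`-invariant subgroups `L` of the abelian group `U` (coprime action of `K`) with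
`C_L(K) = 1` generate a subgroup meeting `C_U(K)` trivially. -/
def IND (X : Type u) [Group X] : Prop :=
  ∀ (U K : Subgroup X) (𝒮 : Set (Subgroup X)), (∀ a ∈ U, ∀ b ∈ U, a * b = b * a) →
    K ≤ Subgroup.normalizer (U : Set X) → (Nat.card K).Coprime (Nat.card U) →
    (∀ L ∈ 𝒮, L ≤ U ∧ K ≤ Subgroup.normalizer (L : Set X) ∧
      L ⊓ Subgroup.centralizer (K : Set X) = ⊥) →
    (U ⊓ Subgroup.centralizer (K : Set X)) ⊓ (⨆ L ∈ 𝒮, L) = ⊥

/-- CYC: automorphisms of a group of prime order commute: if `g, h` normalize `K ≤ E` with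
`|E : K| = r` prime (and `K` normal in `E`), then `[g, h]` centralizes `E / K`. -/
def CYC (X : Type u) [Group X] : Prop :=
  ∀ (E K : Subgroup X) (r : ℕ) (g h : X), r.Prime → K ≤ E → Nat.card E = r * Nat.card K →
    E ≤ Subgroup.normalizer (K : Set X) →
    g ∈ Subgroup.normalizer (E : Set X) → g ∈ Subgroup.normalizer (K : Set X) →
    h ∈ Subgroup.normalizer (E : Set X) → h ∈ Subgroup.normalizer (K : Set X) →
    ∀ e ∈ E, (g * h * g⁻¹ * h⁻¹) * e * (g * h * g⁻¹ * h⁻¹)⁻¹ * e⁻¹ ∈ K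

/-- TE: a nonabelian `r`-group `Γ` of class 2 with an automorphism `y` of prime order `q` such that
`C_Γ(y) = Z(Γ)`, acting faithfully on an elementary abelian `v`-group `V` on which `y` has no fixed
points, forces `q = r ^ n + 1`. -/
def TE (X : Type u) [Group X] : Prop :=
  ∀ (V Γ : Subgroup X) (y : X) (q r v : ℕ), q.Prime → r.Prime → v.Prime → q ≠ r → v ≠ r → v ≠ q →
    (∀ a ∈ V, ∀ b ∈ V, a * b = b * a) → (∀ a ∈ V, a ^ v = 1) → IsPGroup r Γ →
    Γ ≤ Subgroup.normalizer (V : Set X) → y ∈ Subgroup.normalizer (V : Set X) →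
    y ∈ Subgroup.normalizer (Γ : Set X) → y ^ q = 1 →
    Γ ⊓ Subgroup.centralizer (V : Set X) = ⊥ →
    (∃ a ∈ Γ, ∃ b ∈ Γ, a * b ≠ b * a) →
    (∀ a ∈ Γ, ∀ b ∈ Γ, ∀ c ∈ Γ, (a * b * a⁻¹ * b⁻¹) * c = c * (a * b * a⁻¹ * b⁻¹)) →
    (∀ g ∈ Γ, y * g = g * y ↔ ∀ h ∈ Γ, g * h = h * g) →
    (∀ u ∈ V, y * u = u * y → u = 1) →
    ∃ n : ℕ, q = r ^ n + 1

/-- HHB: (from Hall–Higman Theorem B) an element `c` of order `v` normalizing an `r`-group `R` and
acting nontrivially on `R / C_R(W)`, `W` an elementary abelian `v`-group; if `x` of prime order `p`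
normalizes `W` and `⟨c⟩` without centralizing `c`, then `x` has a nontrivial fixed point on `W`. -/
def HHB (X : Type u) [Group X] : Prop :=
  ∀ (W R : Subgroup X) (c x : X) (v r p a : ℕ), v.Prime → r.Prime → p.Prime → r ≠ v → p ≠ v →
    (∀ u ∈ W, ∀ u' ∈ W, u * u' = u' * u) → (∀ u ∈ W, u ^ v = 1) → IsPGroup r R →
    R ≤ Subgroup.normalizer (W : Set X) → c ∈ Subgroup.normalizer (W : Set X) →
    x ∈ Subgroup.normalizer (W : Set X) → c ∈ Subgroup.normalizer (R : Set X) →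
    c ^ v = 1 → x ^ p = 1 → x * c * x⁻¹ = c ^ a → x * c * x⁻¹ ≠ c →
    (∃ ρ ∈ R, c * ρ * c⁻¹ * ρ⁻¹ ∉ Subgroup.centralizer (W : Set X)) →
    ∃ w ∈ W, w ≠ 1 ∧ x * w = w * x

/-- PQI: in `A = ⟨y, x⟩` with `y^q = 1`, `x^p = 1`, `x y x⁻¹ = y^k`, `k ≢ 1 (mod q)`, every element
outside `⟨y⟩` generates a subgroup containing a `⟨y⟩`-conjugate of `x`. -/
def PQI (X : Type u) [Group X] : Prop :=
  ∀ (y x : X) (p q k : ℕ), p.Prime → q.Prime → ¬ k ≡ 1 [MOD q] → y ^ q = 1 → y ≠ 1 → x ^ p = 1 →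
    x * y * x⁻¹ = y ^ k →
    ∀ a ∈ Subgroup.closure ({y, x} : Set X), a ∉ Subgroup.zpowers y →
      ∃ c ∈ Subgroup.zpowers y, c * x * c⁻¹ ∈ Subgroup.zpowers a

variable {X : Type u} [Group X]

/-- The minimal configuration: `A = ⟨y⟩ ⋊ ⟨x⟩` nonabelian of order `pq` acts coprimely and without
fixed points on `V`, `R`, `S`; `V` elementary abelian `v`-group, faithful irreducible module for
`R S A`; `R` an `r`-group, `S` an `s`-group, `r ≠ v`, `r ≠ s`, `[R, S] ≠ 1`, minimal. The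
centralizer of `y` in `V R S` is nilpotent (`hRS`, `hVR`, `hVS`). -/
structure FCfg (p q k v r s : ℕ) (V R S A : Subgroup X) (y x : X) : Prop where
  hp : p.Prime
  hq : q.Prime
  hv : v.Prime
  hr : r.Prime
  hs : s.Prime
  hk : ¬ k ≡ 1 [MOD q]
  hy : y ^ q = 1
  hy1 : y ≠ 1
  hx : x ^ p = 1
  hxy : x * y * x⁻¹ = y ^ k
  hA : A = Subgroup.closure {y, x}
  hVc : ∀ a ∈ V, ∀ b ∈ V, a * b = b * a
  hVe : ∀ a ∈ V, a ^ v = 1
  hRV : R ≤ Subgroup.normalizer (V : Set X)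
  hSV : S ≤ Subgroup.normalizer (V : Set X)
  hAV : A ≤ Subgroup.normalizer (V : Set X)
  hSR : S ≤ Subgroup.normalizer (R : Set X)
  hAR : A ≤ Subgroup.normalizer (R : Set X)
  hAS : A ≤ Subgroup.normalizer (S : Set X)
  hR : IsPGroup r R
  hS : IsPGroup s S
  hvr : v ≠ r
  hrs : r ≠ s
  hcopV : (Nat.card A).Coprime (Nat.card V)
  hcopR : (Nat.card A).Coprime (Nat.card R)
  hcopS : (Nat.card A).Coprime (Nat.card S)
  hfaith : (R ⊔ S) ⊓ Subgroup.centralizer (V : Set X) = ⊥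
  hfV : V ⊓ Subgroup.centralizer (A : Set X) = ⊥
  hfR : R ⊓ Subgroup.centralizer (A : Set X) = ⊥
  hfS : S ⊓ Subgroup.centralizer (A : Set X) = ⊥
  hRS : R ⊓ Subgroup.centralizer {y} ≤
    Subgroup.centralizer ((S ⊓ Subgroup.centralizer {y} : Subgroup X) : Set X)
  hVR : V ⊓ Subgroup.centralizer {y} ≤
    Subgroup.centralizer ((R ⊓ Subgroup.centralizer {y} : Subgroup X) : Set X)
  hVS : s ≠ v → V ⊓ Subgroup.centralizer {y} ≤
    Subgroup.centralizer ((S ⊓ Subgroup.centralizer {y} : Subgroup X) : Set X)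
  hirr : ∀ V₁ : Subgroup X, V₁ ≤ V → R ≤ Subgroup.normalizer (V₁ : Set X) →
    S ≤ Subgroup.normalizer (V₁ : Set X) → A ≤ Subgroup.normalizer (V₁ : Set X) →
    V₁ = ⊥ ∨ V₁ = V
  hmin : ∀ R₁ S₁ : Subgroup X, R₁ ≤ R → S₁ ≤ S → A ≤ Subgroup.normalizer (R₁ : Set X) →
    A ≤ Subgroup.normalizer (S₁ : Set X) → S₁ ≤ Subgroup.normalizer (R₁ : Set X) →
    (R₁ ≠ R ∨ S₁ ≠ S) → ⁅R₁, S₁⁆ = ⊥
  hne : ⁅R, S⁆ ≠ ⊥

end Cfsg.Agent.H58.Fz
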