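import Mathlib
import Cfsg.Agent.H58.FrobQuot

/-!
# Wielandt's fixed point formula for Frobenius-type actions (coprime case)

`wielandt_formula`: if `K ⋊ R` is of Frobenius type (`C_K(r) = 1` for `1 ≠ r ∈ R`, coprime orders,
`K` solvable) and acts coprimely on a solvable subgroup `H`, then
`|C_H(KR)| ^ |R| * |H| = |C_H(R)| ^ |R| * |C_H(K)|`.
-/

set_option autoImplicit false
set_option linter.unusedSectionVars false
set_option linter.style.haveILetI false

namespace Cfsg.Agent.H58.FrobWielandt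

open Cfsg.Agent.H58.FrobAct Cfsg.Agent.H58.FrobQuot
open scoped commutatorElement

universe u

variable {X : Type u} [Group X]

/-- Hypotheses of the fixed point formula. -/
structure FrobData (K R H : Subgroup X) : Prop where
  hRK : R ≤ Subgroup.normalizer (K : Set X)
  hKs : Group.IsSolvable K
  hKR : (Nat.card K).Coprime (Nat.card R)
  hfrob : ∀ r ∈ R, r ≠ 1 → K ⊓ Subgroup.centralizer {r} = ⊥
  hKH : K ≤ Subgroup.normalizer (H : Set X)
  hRH : R ≤ Subgroup.normalizer (H : Set X)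
  hHs : Group.IsSolvable H
  hHK : (Nat.card H).Coprime (Nat.card K)
  hHR : (Nat.card H).Coprime (Nat.card R)

/-- The fixed point formula. -/
def Formula (K R H : Subgroup X) : Prop :=
  Nat.card ↥(H ⊓ Subgroup.centralizer ((K ⊔ R : Subgroup X) : Set X)) ^ Nat.card R * Nat.card H =
    Nat.card ↥(H ⊓ Subgroup.centralizer (R : Set X)) ^ Nat.card R *
      Nat.card ↥(H ⊓ Subgroup.centralizer (K : Set X))

theorem card_sup_KR [Finite X] {K R : Subgroup X} (hRK : R ≤ Subgroup.normalizer (K : Set X))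
    (hKR : (Nat.card K).Coprime (Nat.card R)) :
    Nat.card (K ⊔ R : Subgroup X) = Nat.card R * Nat.card K := by
  rw [sup_comm]
  exact Cfsg.Agent.H1.card_sup_of_le_normalizer R K hRK ((Subgroup.disjoint_of_coprime_natCard hKR.symm).eq_bot)

theorem coprime_sup [Finite X] {K R H : Subgroup X} (hRK : R ≤ Subgroup.normalizer (K : Set X))
    (hKR : (Nat.card K).Coprime (Nat.card R)) (hHK : (Nat.card H).Coprime (Nat.card K))
    (hHR : (Nat.card H).Coprime (Nat.card R)) :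
    (Nat.card (K ⊔ R : Subgroup X)).Coprime (Nat.card H) := by
  rw [card_sup_KR hRK hKR]
  exact Nat.Coprime.mul_left hHR.symm hHK.symm

theorem mem_centralizer_sup {K R : Subgroup X} {x : X}
    (hK : x ∈ Subgroup.centralizer (K : Set X)) (hR : x ∈ Subgroup.centralizer (R : Set X)) :
    x ∈ Subgroup.centralizer ((K ⊔ R : Subgroup X) : Set X) := by
  have h1 : K ≤ Subgroup.centralizer ({x} : Set X) := by
    intro k hk
    rw [Subgroup.mem_centralizer_iff]
    intro y hy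
    rw [Set.mem_singleton_iff] at hy
    rw [hy]
    exact (Subgroup.mem_centralizer_iff.mp hK) k hk |>.symm
  have h2 : R ≤ Subgroup.centralizer ({x} : Set X) := by
    intro k hk
    rw [Subgroup.mem_centralizer_iff]
    intro y hy
    rw [Set.mem_singleton_iff] at hy
    rw [hy]
    exact (Subgroup.mem_centralizer_iff.mp hR) k hk |>.symm
  rw [Subgroup.mem_centralizer_iff]
  intro g hg
  have h3 := (Subgroup.mem_centralizer_iff.mp ((sup_le h1 h2) hg)) x (Set.mem_singleton x)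
  exact h3.symm

theorem FrobData.sub [Finite X] {K R H N : Subgroup X} (h : FrobData K R H) (hNH : N ≤ H)
    (hKN : K ≤ Subgroup.normalizer (N : Set X)) (hRN : R ≤ Subgroup.normalizer (N : Set X)) :
    FrobData K R N where
  hRK := h.hRK
  hKs := h.hKs
  hKR := h.hKR
  hfrob := h.hfrob
  hKH := hKN
  hRH := hRN
  hHs := by
    haveI := h.hHs
    exact Group.isSolvable_of_isSolvable_injective (f := Subgroup.inclusion hNH)
      (Subgroup.inclusion_injective hNH)
  hHK := Nat.Coprime.coprime_dvd_left (Subgroup.card_dvd_of_le hNH) h.hHK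
  hHR := Nat.Coprime.coprime_dvd_left (Subgroup.card_dvd_of_le hNH) h.hHR

theorem FrobData.quot [Finite X] {K R H N : Subgroup X} (h : FrobData K R H) (hNH : N ≤ H)
    (hHN : H ≤ Subgroup.normalizer (N : Set X))
    (hKN : K ≤ Subgroup.normalizer (N : Set X)) (hRN : R ≤ Subgroup.normalizer (N : Set X)) :
    FrobData (im N K) (im N R) (im N H) where
  hRK := im_normalizer hRN hKN h.hRK
  hKs := im_solvable h.hKs
  hKR := Nat.Coprime.coprime_dvd_left (card_im_dvd hKN)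
    (Nat.Coprime.coprime_dvd_right (card_im_dvd hRN) h.hKR)
  hfrob := by
    intro r hr hr1
    obtain ⟨r₀, hr₀, rfl⟩ := (mem_im hRN _).mp hr
    have hr₀1 : r₀ ≠ 1 := by
      intro h1
      apply hr1
      rw [secMk_eq_one_iff]
      show r₀ ∈ N
      rw [h1]; exact N.one_mem
    rw [eq_bot_iff]
    intro x hx
    obtain ⟨hxK, hxC⟩ := Subgroup.mem_inf.mp hx
    obtain ⟨k, hk, rfl⟩ := (mem_im hKN _).mp hxK
    rw [Subgroup.mem_bot]
    have h1 := (Subgroup.mem_centralizer_iff.mp hxC) _ (Set.mem_singleton _)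
    rw [← map_mul, ← map_mul, secMk_eq_iff] at h1
    have h2 : (r₀ * k)⁻¹ * (k * r₀) ∈ N := h1
    have h3 : (r₀ * k)⁻¹ * (k * r₀) ∈ K := by
      have h4 : (r₀ * k)⁻¹ * (k * r₀) = k⁻¹ * (r₀⁻¹ * k * r₀⁻¹⁻¹) := by group
      rw [h4]
      exact K.mul_mem (K.inv_mem hk) (conj_mem_of_mem_normalizer (h.hRK (R.inv_mem hr₀)) hk)
    have hKN' : K ⊓ N = ⊥ := by
      rw [eq_bot_iff]
      have h5 : K ⊓ H = ⊥ := (Subgroup.disjoint_of_coprime_natCard h.hHK.symm).eq_bot
      rw [← h5]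
      exact inf_le_inf_left _ hNH
    have h6 : (r₀ * k)⁻¹ * (k * r₀) ∈ K ⊓ N := Subgroup.mem_inf.mpr ⟨h3, h2⟩
    rw [hKN', Subgroup.mem_bot] at h6
    have h7 : k * r₀ = r₀ * k := (inv_mul_eq_one.mp h6).symm
    have h8 : k ∈ K ⊓ Subgroup.centralizer {r₀} := by
      refine Subgroup.mem_inf.mpr ⟨hk, ?_⟩
      rw [Subgroup.mem_centralizer_iff]
      intro y hy
      rw [Set.mem_singleton_iff] at hy
      rw [hy]; exact h7.symm
    rw [h.hfrob r₀ hr₀ hr₀1, Subgroup.mem_bot] at h8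
    rw [secMk_eq_one_iff]
    show k ∈ N
    rw [h8]; exact N.one_mem
  hKH := im_normalizer hKN hHN h.hKH
  hRH := im_normalizer hRN hHN h.hRH
  hHs := im_solvable h.hHs
  hHK := Nat.Coprime.coprime_dvd_left (card_im_dvd hHN)
    (Nat.Coprime.coprime_dvd_right (card_im_dvd hKN) h.hHK)
  hHR := Nat.Coprime.coprime_dvd_left (card_im_dvd hHN)
    (Nat.Coprime.coprime_dvd_right (card_im_dvd hRN) h.hHR)

theorem Formula.combine [Finite X] {K R H N : Subgroup X} (h : FrobData K R H) (hNH : N ≤ H)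
    (hHN : H ≤ Subgroup.normalizer (N : Set X))
    (hKN : K ≤ Subgroup.normalizer (N : Set X)) (hRN : R ≤ Subgroup.normalizer (N : Set X))
    (h1 : Formula K R N) (h2 : Formula (im N K) (im N R) (im N H)) : Formula K R H := by
  unfold Formula at h1 h2 ⊢
  have hKRN : K ⊔ R ≤ Subgroup.normalizer (N : Set X) := sup_le hKN hRN
  have qP := card_fixed_im hNH hHN hKRN (coprime_sup h.hRK h.hKR h.hHK h.hHR) (Or.inr h.hHs)
  have qR := card_fixed_im hNH hHN hRN h.hHR.symm (Or.inr h.hHs)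
  have qK := card_fixed_im hNH hHN hKN h.hHK.symm (Or.inr h.hHs)
  rw [im_sup hKN hRN] at qP
  have hcardR : Nat.card (im N R) = Nat.card R := by
    apply card_im_of_disjoint hRN
    rw [eq_bot_iff]
    have h5 : R ⊓ H = ⊥ := (Subgroup.disjoint_of_coprime_natCard h.hHR.symm).eq_bot
    rw [← h5]
    exact inf_le_inf_left _ hNH
  have hcardH := card_im_of_le hHN hNH
  rw [hcardR] at h2
  rw [← qP, ← qR, ← qK, ← hcardH, mul_pow, mul_pow]
  calc Nat.card ↥(im N H ⊓ Subgroup.centralizer ((im N K ⊔ im N R : Subgroup (SecGrp N)) : Set _)) ^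
        Nat.card R * Nat.card ↥(N ⊓ Subgroup.centralizer ((K ⊔ R : Subgroup X) : Set X)) ^ Nat.card R *
        (Nat.card (im N H) * Nat.card N)
      = (Nat.card ↥(im N H ⊓ Subgroup.centralizer ((im N K ⊔ im N R : Subgroup (SecGrp N)) : Set _)) ^
        Nat.card R * Nat.card (im N H)) *
        (Nat.card ↥(N ⊓ Subgroup.centralizer ((K ⊔ R : Subgroup X) : Set X)) ^ Nat.card R *
          Nat.card N) := by ring
    _ = _ := by rw [h1, h2]; ring

theorem card_eq_mul_of_decomp [Finite X] (V V₁ V₂ : Subgroup X)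
    (hVc : ∀ a ∈ V, ∀ b ∈ V, a * b = b * a) (hV₁V : V₁ ≤ V) (hV₂V : V₂ ≤ V)
    (hinf : V₁ ⊓ V₂ = ⊥) (hdecomp : ∀ k ∈ V, ∃ x ∈ V₁, ∃ y ∈ V₂, k = x * y) :
    Nat.card V = Nat.card V₁ * Nat.card V₂ := by
  rw [← Cfsg.Agent.H1.card_sup_of_le_normalizer V₁ V₂
    (abelian_le_normalizer V V₁ V₂ hVc hV₁V hV₂V) hinf]
  congr 2
  apply le_antisymm
  · intro k hk
    obtain ⟨x, hx, y, hy, rfl⟩ := hdecomp k hk
    exact Subgroup.mul_mem _ (Subgroup.mem_sup_left hx) (Subgroup.mem_sup_right hy)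
  · exact sup_le hV₁V hV₂V

theorem card_fixed_mul [Finite X] (V V₁ V₂ Y : Subgroup X)
    (hVc : ∀ a ∈ V, ∀ b ∈ V, a * b = b * a) (hV₁V : V₁ ≤ V) (hV₂V : V₂ ≤ V)
    (hinf : V₁ ⊓ V₂ = ⊥) (hdecomp : ∀ k ∈ V, ∃ x ∈ V₁, ∃ y ∈ V₂, k = x * y)
    (hY₁ : Y ≤ Subgroup.normalizer (V₁ : Set X)) (hY₂ : Y ≤ Subgroup.normalizer (V₂ : Set X))
    (hcop : (Nat.card Y).Coprime (Nat.card V)) :
    Nat.card ↥(V ⊓ Subgroup.centralizer (Y : Set X)) =
      Nat.card ↥(V₁ ⊓ Subgroup.centralizer (Y : Set X)) *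
        Nat.card ↥(V₂ ⊓ Subgroup.centralizer (Y : Set X)) := by
  have hVsolv : Group.IsSolvable V :=
    Group.isSolvable_of_comm (fun a b => Subtype.ext (hVc a a.2 b b.2))
  rw [← Cfsg.Agent.H1.card_sup_of_le_normalizer (V₁ ⊓ Subgroup.centralizer (Y : Set X))
    (V₂ ⊓ Subgroup.centralizer (Y : Set X))
    (abelian_le_normalizer V _ _ hVc (inf_le_left.trans hV₁V) (inf_le_left.trans hV₂V))
    (by rw [eq_bot_iff, ← hinf]; exact inf_le_inf inf_le_left inf_le_left)]
  congr 2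
  apply le_antisymm
  · intro k hk
    obtain ⟨x, hx, y, hy, rfl⟩ := Cfsg.Agent.H1.coprime_fixed_points_mul Y V hcop
      (Or.inr hVsolv) V₁ V₂ hV₁V hY₁ hY₂ hdecomp k hk
    exact Subgroup.mul_mem _ (Subgroup.mem_sup_left hx) (Subgroup.mem_sup_right hy)
  · exact sup_le (inf_le_inf_right _ hV₁V) (inf_le_inf_right _ hV₂V)

theorem Formula.of_elementary [Finite X] {K R V : Subgroup X} (h : FrobData K R V) (ℓ : ℕ)
    (hℓ : ℓ.Prime) (hVc : ∀ a ∈ V, ∀ b ∈ V, a * b = b * a) (hVe : ∀ v ∈ V, v ^ ℓ = 1)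
    (hV : V ≠ ⊥) : Formula K R V := by
  haveI : Fact ℓ.Prime := ⟨hℓ⟩
  have hVp : IsPGroup ℓ V := fun v => ⟨1, by
    rw [pow_one]
    apply Subtype.ext
    rw [Subgroup.coe_pow]
    exact hVe v v.2⟩
  obtain ⟨e, he⟩ := hVp.exists_card_eq
  have he0 : e ≠ 0 := by
    intro h0
    rw [h0, pow_zero] at he
    exact hV (Subgroup.card_eq_one.mp he)
  have hℓV : ℓ ∣ Nat.card V := by rw [he]; exact dvd_pow_self ℓ he0
  have hKℓ : (Nat.card K).Coprime ℓ := (Nat.Coprime.coprime_dvd_left hℓV h.hHK).symm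
  have hRℓ : (Nat.card R).Coprime ℓ := (Nat.Coprime.coprime_dvd_left hℓV h.hHR).symm
  obtain ⟨V₁, hV₁⟩ : ∃ V₁ : Subgroup X, V₁ = V ⊓ Subgroup.centralizer (K : Set X) := ⟨_, rfl⟩
  obtain ⟨V₂, hV₂⟩ : ∃ V₂ : Subgroup X, V₂ = ⁅V, K⁆ := ⟨_, rfl⟩
  have hV₁V : V₁ ≤ V := by rw [hV₁]; exact inf_le_left
  have hV₂V : V₂ ≤ V := by
    rw [hV₂]; exact Cfsg.Agent.H1.commutator_le_of_le_normalizer K V h.hKH
  have hinf : V₁ ⊓ V₂ = ⊥ := by
    rw [hV₁, hV₂]; exact centralizer_inf_commutator_eq_bot V K hVc h.hKH h.hHK.symm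
  have hKK : K ≤ Subgroup.normalizer (K : Set X) := Subgroup.le_normalizer
  have hKV₁ : K ≤ Subgroup.normalizer (V₁ : Set X) := fun k hk => by
    rw [hV₁]; exact normalizer_inf_centralizer V K k (h.hKH hk) (hKK hk)
  have hRV₁ : R ≤ Subgroup.normalizer (V₁ : Set X) := fun r hr => by
    rw [hV₁]; exact normalizer_inf_centralizer V K r (h.hRH hr) (h.hRK hr)
  have hKV₂ : K ≤ Subgroup.normalizer (V₂ : Set X) := fun k hk => by
    rw [hV₂]; exact normalizer_commutator V K k (h.hKH hk) (hKK hk)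
  have hRV₂ : R ≤ Subgroup.normalizer (V₂ : Set X) := fun r hr => by
    rw [hV₂]; exact normalizer_commutator V K r (h.hRH hr) (h.hRK hr)
  have hdecomp : ∀ k ∈ V, ∃ x ∈ V₁, ∃ y ∈ V₂, k = x * y := by
    intro k hk
    obtain ⟨c, hc, x, hx, rfl⟩ :=
      Cfsg.Agent.H1.exists_centralizer_mul_commutator K V h.hKH h.hHK.symm (Or.inr h.hHs) k hk
    exact ⟨c, by rw [hV₁]; exact hc, x, by rw [hV₂]; exact hx, rfl⟩
  have hfix₂ : V₂ ⊓ Subgroup.centralizer (K : Set X) = ⊥ := by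
    rw [eq_bot_iff, ← hinf, hV₁]
    exact le_inf (inf_le_inf_right _ hV₂V) inf_le_left
  have hT1 := frob_card_solv ℓ K R h.hRK h.hKs hKℓ hRℓ h.hKR (Nat.card V₂) V₂ rfl
    (fun a ha b hb => hVc a (hV₂V ha) b (hV₂V hb)) (fun v hv => hVe v (hV₂V hv)) hKV₂ hRV₂
    (fun r hr hr1 => by rw [h.hfrob r hr hr1]; exact bot_le) hfix₂
  have hcardV := card_eq_mul_of_decomp V V₁ V₂ hVc hV₁V hV₂V hinf hdecomp
  have hP := card_fixed_mul V V₁ V₂ (K ⊔ R) hVc hV₁V hV₂V hinf hdecomp (sup_le hKV₁ hRV₁)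
    (sup_le hKV₂ hRV₂) (coprime_sup h.hRK h.hKR h.hHK h.hHR)
  have hR := card_fixed_mul V V₁ V₂ R hVc hV₁V hV₂V hinf hdecomp hRV₁ hRV₂ h.hHR.symm
  have hP2 : V₂ ⊓ Subgroup.centralizer ((K ⊔ R : Subgroup X) : Set X) = ⊥ := by
    rw [eq_bot_iff, ← hfix₂]
    exact inf_le_inf_left _ (Subgroup.centralizer_le (show K ≤ K ⊔ R from le_sup_left))
  have hP1 : V₁ ⊓ Subgroup.centralizer ((K ⊔ R : Subgroup X) : Set X) =
      V₁ ⊓ Subgroup.centralizer (R : Set X) := by
    apply le_antisymm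
    · exact inf_le_inf_left _ (Subgroup.centralizer_le (show R ≤ K ⊔ R from le_sup_right))
    · intro x hx
      obtain ⟨hx1, hx2⟩ := Subgroup.mem_inf.mp hx
      refine Subgroup.mem_inf.mpr ⟨hx1, mem_centralizer_sup ?_ hx2⟩
      rw [hV₁] at hx1
      exact (Subgroup.mem_inf.mp hx1).2
  have hK1 : Nat.card ↥(V ⊓ Subgroup.centralizer (K : Set X)) = Nat.card V₁ := by rw [hV₁]
  unfold Formula
  rw [hP, hP1, hP2, Subgroup.card_bot, mul_one, hR, hcardV, mul_pow, ← hT1, hK1]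
  ring

theorem exists_char_sub [Finite X] (H : Subgroup X) (hHs : Group.IsSolvable H) (hH : H ≠ ⊥)
    (hne : ¬ ((∀ a ∈ H, ∀ b ∈ H, a * b = b * a) ∧ ∃ ℓ : ℕ, ℓ.Prime ∧ ∀ h ∈ H, h ^ ℓ = 1)) :
    ∃ N : Subgroup X, N ≤ H ∧ N ≠ ⊥ ∧ N ≠ H ∧
      ∀ g, g ∈ Subgroup.normalizer (H : Set X) → g ∈ Subgroup.normalizer (N : Set X) := by
  by_cases hab : ∀ a ∈ H, ∀ b ∈ H, a * b = b * a
  · have hcard : Nat.card H ≠ 1 := fun h => hH (Subgroup.card_eq_one.mp h)
    obtain ⟨ℓ, hℓ, hℓdvd⟩ := Nat.exists_prime_and_dvd hcard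
    haveI : Fact ℓ.Prime := ⟨hℓ⟩
    let N : Subgroup X :=
      { carrier := {h | h ∈ H ∧ h ^ ℓ = 1}
        mul_mem' := by
          rintro a b ⟨ha, ha'⟩ ⟨hb, hb'⟩
          refine ⟨H.mul_mem ha hb, ?_⟩
          have hc : Commute a b := hab a ha b hb
          rw [hc.mul_pow, ha', hb', one_mul]
        one_mem' := ⟨H.one_mem, one_pow ℓ⟩
        inv_mem' := by
          rintro a ⟨ha, ha'⟩
          exact ⟨H.inv_mem ha, by rw [inv_pow, ha', inv_one]⟩ }
    have hNmem : ∀ x, x ∈ N ↔ x ∈ H ∧ x ^ ℓ = 1 := fun x => Iff.rfl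
    refine ⟨N, fun x hx => ((hNmem x).mp hx).1, ?_, ?_, ?_⟩
    · obtain ⟨x, hx⟩ := exists_prime_orderOf_dvd_card' (G := ↥H) ℓ hℓdvd
      intro hbot
      have h1 : (x : X) ∈ N := by
        rw [hNmem]
        refine ⟨x.2, ?_⟩
        have h2 : x ^ ℓ = 1 := by rw [← hx]; exact pow_orderOf_eq_one x
        have h3 := congrArg Subtype.val h2
        rwa [Subgroup.coe_pow, Subgroup.coe_one] at h3
      rw [hbot, Subgroup.mem_bot] at h1
      have h4 : x = 1 := Subtype.ext h1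
      rw [h4, orderOf_one] at hx
      exact hℓ.one_lt.ne hx
    · intro hNH
      apply hne
      refine ⟨hab, ℓ, hℓ, fun h hh => ?_⟩
      rw [← hNH] at hh
      exact ((hNmem h).mp hh).2
    · intro g hg
      apply mem_normalizer_of_conj
      intro x hx
      rw [hNmem] at hx ⊢
      refine ⟨conj_mem_of_mem_normalizer hg hx.1, ?_⟩
      rw [conj_pow, hx.2]
      group
  · refine ⟨⁅H, H⁆, ?_, ?_, ?_, ?_⟩
    · rw [Subgroup.commutator_le]
      intro a ha b hb
      exact H.mul_mem (H.mul_mem (H.mul_mem ha hb) (H.inv_mem ha)) (H.inv_mem hb)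
    · intro hbot
      apply hab
      intro a ha b hb
      have h1 : ⁅a, b⁆ ∈ (⁅H, H⁆ : Subgroup X) := Subgroup.commutator_mem_commutator ha hb
      rw [hbot, Subgroup.mem_bot, commutatorElement_def] at h1
      calc a * b = (a * b * a⁻¹ * b⁻¹) * (b * a) := by group
        _ = b * a := by rw [h1, one_mul]
    · intro heq
      obtain ⟨m, hm⟩ := exists_ds_eq_bot H hHs
      have hall : ∀ n, ds H n = H := by
        intro n
        induction n with
        | zero => rfl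
        | succ n ih =>
          show ⁅ds H n, ds H n⁆ = H
          rw [ih, heq]
      rw [hall m] at hm
      exact hH hm
    · intro g hg
      exact normalizer_commutator H H g hg hg

/-- **Wielandt's fixed point formula** for Frobenius-type actions, coprime case. -/
theorem wielandt_formula : ∀ (n : ℕ) (X : Type u) [Group X] [Finite X] (K R H : Subgroup X),
    Nat.card H = n → FrobData K R H → Formula K R H := by
  intro n
  induction n using Nat.strong_induction_on with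
  | _ n ih =>
  intro X _ _ K R H hn h
  by_cases hH : H = ⊥
  · subst hH
    unfold Formula
    simp
  by_cases hel : (∀ a ∈ H, ∀ b ∈ H, a * b = b * a) ∧ ∃ ℓ : ℕ, ℓ.Prime ∧ ∀ h ∈ H, h ^ ℓ = 1
  · obtain ⟨hHc, ℓ, hℓ, hHe⟩ := hel
    exact Formula.of_elementary h ℓ hℓ hHc hHe hH
  · obtain ⟨N, hNH, hN1, hNne, hNnorm⟩ := exists_char_sub H h.hHs hH hel
    have hHN : H ≤ Subgroup.normalizer (N : Set X) := fun x hx => hNnorm x (Subgroup.le_normalizer hx)
    have hKN : K ≤ Subgroup.normalizer (N : Set X) := fun x hx => hNnorm x (h.hKH hx)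
    have hRN : R ≤ Subgroup.normalizer (N : Set X) := fun x hx => hNnorm x (h.hRH hx)
    have hlt1 : Nat.card N < n := by
      rw [← hn]
      by_contra hlt
      push Not at hlt
      exact hNne (Subgroup.eq_of_le_of_card_ge hNH hlt)
    have hcardH := card_im_of_le hHN hNH
    have hlt2 : Nat.card (im N H) < n := by
      rw [← hn, ← hcardH]
      have h1 : 1 < Nat.card N := by
        rcases Nat.lt_or_ge 1 (Nat.card N) with h1 | h1
        · exact h1
        · exfalso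
          have hpos : 0 < Nat.card N := Nat.card_pos
          exact hN1 (Subgroup.card_eq_one.mp (by omega))
      have hpos : 0 < Nat.card (im N H) := Nat.card_pos
      calc Nat.card (im N H) = Nat.card (im N H) * 1 := (mul_one _).symm
        _ < Nat.card (im N H) * Nat.card N := Nat.mul_lt_mul_of_pos_left h1 hpos
    have f1 := ih (Nat.card N) hlt1 X K R N rfl (h.sub hNH hKN hRN)
    have f2 := ih (Nat.card (im N H)) hlt2 (SecGrp N) (im N K) (im N R) (im N H) rfl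
      (h.quot hNH hHN hKN hRN)
    exact Formula.combine h hNH hHN hKN hRN f1 f2

end Cfsg.Agent.H58.FrobWielandt
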