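import Mathlib
import Cfsg.Agent.H58.FrobWielandt
import Cfsg.Agent.Lib.Helper30.Generation
import Cfsg.Agent.H1.CoprimeSylow
import Cfsg.Agent.S0033

/-!
# Basic internal tools for Ward's theorem

Ward: a finite solvable group with a fixed-point-free elementary abelian group of automorphisms
of order `p²` has Fitting height at most 2.  This file collects the internal (subgroups of an
ambient group) tools: lower central series, coprime commutators, fixed points of `p`-groups,
Thompson's theorem in internal form, and consequences of the Frobenius fixed point formula.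
-/

set_option autoImplicit false
set_option linter.style.haveILetI false
set_option linter.unusedVariables false

namespace Cfsg.Agent.H58.Ward

open Cfsg.Agent.H58.FrobAct Cfsg.Agent.H58.FrobQuot Cfsg.Agent.H58.FrobWielandt
open scoped commutatorElement

universe u

variable {X : Type u} [Group X]

theorem lcs_mono {S T : Subgroup X} (h : S ≤ T) (n : ℕ) :
    S.lowerCentralSeries n ≤ T.lowerCentralSeries n := by
  induction n with
  | zero => exact h
  | succ n ih =>
    rw [Subgroup.lowerCentralSeries_succ, Subgroup.lowerCentralSeries_succ]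
    exact Subgroup.commutator_mono ih h

theorem lcs_le (S : Subgroup X) (n : ℕ) : S.lowerCentralSeries n ≤ S :=
  S.lowerCentralSeries_antitone (Nat.zero_le n)

theorem lcs_anti (S : Subgroup X) {m n : ℕ} (h : m ≤ n) :
    S.lowerCentralSeries n ≤ S.lowerCentralSeries m :=
  S.lowerCentralSeries_antitone h

/-- A coprime commutator lies in every term of the lower central series. -/
theorem commutator_le_lcs [Finite X] (K P Q : Subgroup X) (hP : P ≤ K) (hQ : Q ≤ K)
    (hQP : Q ≤ Subgroup.normalizer (P : Set X))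
    (hcop : (Nat.card Q).Coprime (Nat.card P))
    (hsolv : Group.IsSolvable Q ∨ Group.IsSolvable P) (j : ℕ) :
    ⁅P, Q⁆ ≤ K.lowerCentralSeries j := by
  induction j with
  | zero => exact (Cfsg.Agent.H1.commutator_le_of_le_normalizer Q P hQP).trans hP
  | succ j ih =>
    rw [Subgroup.lowerCentralSeries_succ,
      ← Cfsg.Agent.H1.coprime_commutator_commutator Q P hQP hcop hsolv]
    exact Subgroup.commutator_mono ih hQ

theorem commutator_eq_bot_of_lcs [Finite X] (K P Q : Subgroup X) (hP : P ≤ K) (hQ : Q ≤ K)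
    (hQP : Q ≤ Subgroup.normalizer (P : Set X))
    (hcop : (Nat.card Q).Coprime (Nat.card P))
    (hsolv : Group.IsSolvable Q ∨ Group.IsSolvable P) (m : ℕ)
    (hK : K.lowerCentralSeries m = ⊥) : ⁅P, Q⁆ = ⊥ := by
  rw [eq_bot_iff, ← hK]
  exact commutator_le_lcs K P Q hP hQ hQP hcop hsolv m

/-- Fixed points of a `p`-group acting by conjugation. -/
theorem card_fixed_modEq [Finite X] (p : ℕ) [Fact p.Prime] (U A : Subgroup X) (hA : IsPGroup p A)
    (hAU : A ≤ Subgroup.normalizer (U : Set X)) :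
    Nat.card U ≡ Nat.card ↥(U ⊓ Subgroup.centralizer (A : Set X)) [MOD p] := by
  letI : MulAction A U := MulAction.compHom U (conjAut U A hAU)
  have h1 := hA.card_modEq_card_fixedPoints (α := U)
  have h2 : Nat.card (MulAction.fixedPoints A U) =
      Nat.card ↥(U ⊓ Subgroup.centralizer (A : Set X)) := by
    apply Nat.card_congr
    refine
      { toFun := fun x => ⟨(x.1 : X), x.1.2, ?_⟩
        invFun := fun y => ⟨⟨(y : X), y.2.1⟩, ?_⟩
        left_inv := fun x => rfl
        right_inv := fun y => rfl }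
    · show (x.1 : X) ∈ Subgroup.centralizer (A : Set X)
      rw [Subgroup.mem_centralizer_iff]
      intro g hg
      have h3 := x.2 ⟨g, hg⟩
      have h4 : g * (x.1 : X) * g⁻¹ = x.1 := congrArg Subtype.val h3
      calc g * (x.1 : X) = g * (x.1 : X) * g⁻¹ * g := by group
        _ = x.1 * g := by rw [h4]
    · intro g
      apply Subtype.ext
      show (g : X) * (y : X) * (g : X)⁻¹ = y
      have h3 := (Subgroup.mem_centralizer_iff.mp y.2.2) g g.2
      rw [h3]; group
  rw [h2] at h1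
  exact h1

theorem coprime_of_fpf [Finite X] (p : ℕ) (hp : p.Prime) (U A : Subgroup X) (hA : IsPGroup p A)
    (hAU : A ≤ Subgroup.normalizer (U : Set X))
    (hfix : U ⊓ Subgroup.centralizer (A : Set X) = ⊥) : (Nat.card A).Coprime (Nat.card U) := by
  haveI : Fact p.Prime := ⟨hp⟩
  have h1 := card_fixed_modEq p U A hA hAU
  rw [hfix, Subgroup.card_bot] at h1
  obtain ⟨n, hn⟩ := IsPGroup.iff_card.mp hA
  rw [hn]
  apply Nat.Coprime.pow_left
  rw [Nat.Prime.coprime_iff_not_dvd hp]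
  intro hdvd
  have h2 : Nat.card U % p = 0 := Nat.mod_eq_zero_of_dvd hdvd
  have h3 : Nat.card U % p = 1 % p := h1
  have h4 : 1 % p = 1 := Nat.mod_eq_of_lt hp.one_lt
  omega

/-- A `q`-group acting on a `q`-group without fixed points acts on the trivial group. -/
theorem eq_bot_of_pgroup_fixed [Finite X] (q : ℕ) (hq : q.Prime) (U S : Subgroup X)
    (hU : IsPGroup q U) (hS : IsPGroup q S) (hSU : S ≤ Subgroup.normalizer (U : Set X))
    (hfix : U ⊓ Subgroup.centralizer (S : Set X) = ⊥) : U = ⊥ := by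
  haveI : Fact q.Prime := ⟨hq⟩
  have h1 := card_fixed_modEq q U S hS hSU
  rw [hfix, Subgroup.card_bot] at h1
  obtain ⟨n, hn⟩ := IsPGroup.iff_card.mp hU
  rcases Nat.eq_zero_or_pos n with h0 | hpos
  · rw [h0, pow_zero] at hn
    exact Subgroup.eq_bot_of_card_eq U hn
  · exfalso
    have hdvd : q ∣ Nat.card U := by
      rw [hn]; exact dvd_pow_self q (Nat.pos_iff_ne_zero.mp hpos)
    have h2 : Nat.card U % q = 0 := Nat.mod_eq_zero_of_dvd hdvd
    have h3 : Nat.card U % q = 1 % q := h1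
    have h4 : 1 % q = 1 := Nat.mod_eq_of_lt hq.one_lt
    omega

theorem centralizer_zpowers (b : X) :
    Subgroup.centralizer ((Subgroup.zpowers b : Subgroup X) : Set X) = Subgroup.centralizer {b} := by
  apply le_antisymm
  · exact Subgroup.centralizer_le (by
      intro x hx; rw [Set.mem_singleton_iff] at hx; rw [hx]; exact Subgroup.mem_zpowers b)
  · intro x hx
    rw [Subgroup.mem_centralizer_iff] at hx ⊢
    intro g hg
    obtain ⟨k, rfl⟩ := Subgroup.mem_zpowers_iff.mp hg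
    have h1 : Commute b x := hx b rfl
    exact (h1.zpow_left k).eq

theorem mem_zpowers_of_prime (p : ℕ) (hp : p.Prime) (a c : X) (ha : a ^ p = 1)
    (hc : c ∈ Subgroup.zpowers a) (hc1 : c ≠ 1) : a ∈ Subgroup.zpowers c := by
  haveI : Fact p.Prime := ⟨hp⟩
  have ha1 : a ≠ 1 := by
    rintro rfl
    rw [Subgroup.zpowers_one_eq_bot, Subgroup.mem_bot] at hc
    exact hc1 hc
  have hcard : Nat.card (Subgroup.zpowers a) = p := by
    rw [Nat.card_zpowers]; exact orderOf_eq_prime ha ha1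
  have h1 : Subgroup.zpowers (⟨c, hc⟩ : Subgroup.zpowers a) = ⊤ :=
    zpowers_eq_top_of_prime_card hcard (by intro h; exact hc1 (congrArg Subtype.val h))
  have h2 : (⟨a, Subgroup.mem_zpowers a⟩ : Subgroup.zpowers a) ∈
      Subgroup.zpowers (⟨c, hc⟩ : Subgroup.zpowers a) := by
    rw [h1]; exact Subgroup.mem_top _
  obtain ⟨k, hk⟩ := Subgroup.mem_zpowers_iff.mp h2
  rw [Subgroup.mem_zpowers_iff]
  refine ⟨k, ?_⟩
  have := congrArg Subtype.val hk
  simpa using this

theorem centralizer_le_of_mem_zpowers (p : ℕ) (hp : p.Prime) (a c : X) (ha : a ^ p = 1)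
    (hc : c ∈ Subgroup.zpowers a) (hc1 : c ≠ 1) :
    Subgroup.centralizer ({c} : Set X) ≤ Subgroup.centralizer {a} := by
  rw [← centralizer_zpowers c]
  exact Subgroup.centralizer_le (by
    intro x hx; rw [Set.mem_singleton_iff] at hx; rw [hx]
    exact mem_zpowers_of_prime p hp a c ha hc hc1)

theorem solvable_of_comm (V : Subgroup X) (hVc : ∀ a ∈ V, ∀ b ∈ V, a * b = b * a) :
    Group.IsSolvable V :=
  Group.isSolvable_of_comm (fun a b => Subtype.ext (hVc a a.2 b b.2))

theorem solvable_of_pgroup [Finite X] (r : ℕ) (hr : r.Prime) (R : Subgroup X)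
    (hR : IsPGroup r R) : Group.IsSolvable R := by
  haveI : Fact r.Prime := ⟨hr⟩
  haveI := hR.isNilpotent
  infer_instance

theorem cop_of_le [Finite X] {P Q P' Q' : Subgroup X} (h : (Nat.card P).Coprime (Nat.card Q))
    (hP : P' ≤ P) (hQ : Q' ≤ Q) : (Nat.card P').Coprime (Nat.card Q') :=
  Nat.Coprime.coprime_dvd_left (Subgroup.card_dvd_of_le hP)
    (Nat.Coprime.coprime_dvd_right (Subgroup.card_dvd_of_le hQ) h)

theorem mem_normalizer_of_comm [Finite X] (Y : Subgroup X) (g : X)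
    (h : ∀ y ∈ Y, g * y = y * g) : g ∈ Subgroup.normalizer (Y : Set X) := by
  apply mem_normalizer_of_conj
  intro y hy
  have : g * y * g⁻¹ = y := by rw [h y hy]; group
  rw [this]; exact hy

/-- Elementary abelian of order `p²` (internal form). -/
structure EA (p : ℕ) (A : Subgroup X) : Prop where
  hp : p.Prime
  comm : ∀ a ∈ A, ∀ b ∈ A, a * b = b * a
  exp : ∀ a ∈ A, a ^ p = 1
  card : Nat.card A = p ^ 2

theorem EA.isPGroup {p : ℕ} {A : Subgroup X} (h : EA p A) : IsPGroup p A :=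
  IsPGroup.of_card h.card

theorem EA.card_zpowers {p : ℕ} {A : Subgroup X} (h : EA p A) (a : X) (ha : a ∈ A)
    (ha1 : a ≠ 1) : Nat.card (Subgroup.zpowers a) = p := by
  haveI : Fact p.Prime := ⟨h.hp⟩
  rw [Nat.card_zpowers]; exact orderOf_eq_prime (h.exp a ha) ha1

theorem EA.exists_not_mem [Finite X] {p : ℕ} {A : Subgroup X} (h : EA p A) (a : X) (ha : a ∈ A) :
    ∃ b ∈ A, b ∉ Subgroup.zpowers a := by
  by_contra hcon
  push Not at hcon
  have hle : A ≤ Subgroup.zpowers a := fun b hb => hcon b hb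
  have h1 := Subgroup.card_le_of_le hle
  rw [h.card, Nat.card_zpowers] at h1
  have h2 : orderOf a ∣ p := orderOf_dvd_of_pow_eq_one (h.exp a ha)
  have h3 : orderOf a ≤ p := Nat.le_of_dvd h.hp.pos h2
  have h4 : p < p ^ 2 := by
    have := h.hp.one_lt
    nlinarith
  omega

theorem EA.sup_eq [Finite X] {p : ℕ} {A : Subgroup X} (h : EA p A) (a b : X) (ha : a ∈ A)
    (ha1 : a ≠ 1) (hb : b ∈ A) (hb' : b ∉ Subgroup.zpowers a) :
    Subgroup.zpowers a ⊔ Subgroup.zpowers b = A := by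
  have hle : Subgroup.zpowers a ⊔ Subgroup.zpowers b ≤ A :=
    sup_le (Subgroup.zpowers_le.mpr ha) (Subgroup.zpowers_le.mpr hb)
  apply Subgroup.eq_of_le_of_card_ge hle
  have hlt : Subgroup.zpowers a < Subgroup.zpowers a ⊔ Subgroup.zpowers b := by
    apply lt_of_le_of_ne le_sup_left
    intro heq
    apply hb'
    rw [heq]
    exact Subgroup.mem_sup_right (Subgroup.mem_zpowers b)
  have h1 := Cfsg.Agent.H1.card_lt_card_of_lt hlt
  rw [h.card_zpowers a ha ha1] at h1
  have h2 : Nat.card ↥(Subgroup.zpowers a ⊔ Subgroup.zpowers b) ∣ p ^ 2 := by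
    rw [← h.card]; exact Subgroup.card_dvd_of_le hle
  obtain ⟨m, hm, hm'⟩ := (Nat.dvd_prime_pow h.hp).mp h2
  rw [h.card, hm']
  rw [hm'] at h1
  have hm2 : m = 2 := by
    interval_cases m
    · simp at h1; have := h.hp.one_lt; omega
    · simp at h1
    · rfl
  rw [hm2]

theorem EA.not_cyclic [Finite X] {p : ℕ} {A : Subgroup X} (h : EA p A) : ¬ IsCyclic A := by
  intro hc
  obtain ⟨g, hg⟩ := isCyclic_iff_exists_orderOf_eq_natCard.mp hc
  rw [h.card] at hg
  have h2 : orderOf g ∣ p := by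
    apply orderOf_dvd_of_pow_eq_one
    apply Subtype.ext
    rw [Subgroup.coe_pow]
    exact h.exp g g.2
  have h3 : orderOf g ≤ p := Nat.le_of_dvd h.hp.pos h2
  have h4 : p < p ^ 2 := by
    have := h.hp.one_lt
    nlinarith
  omega

theorem EA.mem_centralizer [Finite X] {p : ℕ} {A : Subgroup X} (h : EA p A) (a b : X) (ha : a ∈ A)
    (ha1 : a ≠ 1) (hb : b ∈ A) (hb' : b ∉ Subgroup.zpowers a) (x : X) (hxa : a * x = x * a)
    (hxb : b * x = x * b) : x ∈ Subgroup.centralizer (A : Set X) := by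
  have h1 : Subgroup.zpowers a ⊔ Subgroup.zpowers b ≤ Subgroup.centralizer ({x} : Set X) := by
    apply sup_le
    · rw [Subgroup.zpowers_le, Subgroup.mem_centralizer_iff]
      intro y hy; rw [Set.mem_singleton_iff] at hy; rw [hy]; exact hxa.symm
    · rw [Subgroup.zpowers_le, Subgroup.mem_centralizer_iff]
      intro y hy; rw [Set.mem_singleton_iff] at hy; rw [hy]; exact hxb.symm
  rw [h.sup_eq a b ha ha1 hb hb'] at h1
  rw [Subgroup.mem_centralizer_iff]
  intro c hc
  exact ((Subgroup.mem_centralizer_iff.mp (h1 hc)) x rfl).symm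

theorem EA.normalizer_cent {p : ℕ} {A : Subgroup X} (h : EA p A) (a : X) (ha : a ∈ A) :
    A ≤ Subgroup.normalizer ((Subgroup.centralizer ({a} : Set X) : Subgroup X) : Set X) :=
  fun b hb => Cfsg.Agent.Lib.Helper30.mem_normalizer_centralizer_singleton (h.comm a ha b hb)

theorem EA.normalizer_inf_cent {p : ℕ} {A : Subgroup X} (h : EA p A) (Y : Subgroup X)
    (hAY : A ≤ Subgroup.normalizer (Y : Set X)) (a : X) (ha : a ∈ A) :
    A ≤ Subgroup.normalizer ((Y ⊓ Subgroup.centralizer ({a} : Set X) : Subgroup X) : Set X) :=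
  fun b hb => Subgroup.inf_normalizer_le_normalizer_inf ⟨hAY hb, h.normalizer_cent a ha hb⟩

/-- Thompson's theorem, internal form. -/
theorem thompson_int [Finite X] (K : Subgroup X) (b : X) (p : ℕ) (hp : p.Prime) (hb : b ^ p = 1)
    (hbK : b ∈ Subgroup.normalizer (K : Set X)) (hfix : ∀ x ∈ K, b * x = x * b → x = 1) :
    ∃ m, K.lowerCentralSeries m = ⊥ := by
  by_cases hK : K = ⊥
  · exact ⟨0, hK⟩
  haveI : Fact p.Prime := ⟨hp⟩
  have hZ : Subgroup.zpowers b ≤ Subgroup.normalizer (K : Set X) := Subgroup.zpowers_le.mpr hbK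
  set g : Subgroup.zpowers b := ⟨b, Subgroup.mem_zpowers _⟩ with hg
  set φ : MulAut K := conjAut K (Subgroup.zpowers b) hZ g with hφ
  have hfx : MonoidHom.FixedPointFree ((φ : K ≃* K) : K →* K) := by
    intro c hc
    have h4 : b * (c : X) * b⁻¹ = c := congrArg Subtype.val hc
    have h5 : b * (c : X) = c * b :=
      calc b * (c : X) = b * (c : X) * b⁻¹ * b := by group
        _ = c * b := by rw [h4]
    exact Subtype.ext (hfix c c.2 h5)
  have hord : orderOf φ = p := by
    apply orderOf_eq_prime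
    · rw [hφ, ← map_pow]
      have : g ^ p = 1 := by
        apply Subtype.ext
        rw [hg]
        simp only [SubmonoidClass.mk_pow, Subgroup.coe_one]
        exact hb
      rw [this, map_one]
    · intro h
      rw [hφ, conjAut_eq_one_iff] at h
      obtain ⟨u, hu1⟩ := (Subgroup.ne_bot_iff_exists_ne_one.mp hK)
      apply hu1
      have h6 := hfix u u.2 ((Subgroup.mem_centralizer_iff.mp h) u u.2).symm
      exact Subtype.ext h6
  haveI : Group.IsNilpotent K := Cfsg.Agent.S0033.result φ hfx p hp hord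
  exact (Subgroup.isNilpotent_iff_lowerCentralSeries K).mp inferInstance

/-- The centralizer of a nonidentity element of `A` in an `A`-invariant subgroup on which `A`
acts fixed-point-freely is nilpotent. -/
theorem cent_nilpotent [Finite X] {p : ℕ} {A : Subgroup X} (hA : EA p A) (Y : Subgroup X)
    (hAY : A ≤ Subgroup.normalizer (Y : Set X))
    (hfix : Y ⊓ Subgroup.centralizer (A : Set X) = ⊥) (a : X) (ha : a ∈ A) (ha1 : a ≠ 1) :
    ∃ m, (Y ⊓ Subgroup.centralizer {a}).lowerCentralSeries m = ⊥ := by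
  obtain ⟨b, hb, hb'⟩ := hA.exists_not_mem a ha
  apply thompson_int _ b p hA.hp (hA.exp b hb) (hA.normalizer_inf_cent Y hAY a ha hb)
  intro x hx hbx
  have hxa : a * x = x * a := (Subgroup.mem_centralizer_iff.mp hx.2) a rfl
  have h1 : x ∈ Y ⊓ Subgroup.centralizer (A : Set X) :=
    ⟨hx.1, hA.mem_centralizer a b ha ha1 hb hb' x hxa hbx⟩
  rw [hfix] at h1
  exact Subgroup.mem_bot.mp h1

/-- A Frobenius-type group acting without fixed points of the kernel and of the complement. -/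
theorem frob_trivial [Finite X] {K B M : Subgroup X} (h : FrobData K B M)
    (hK : M ⊓ Subgroup.centralizer (K : Set X) = ⊥)
    (hB : M ⊓ Subgroup.centralizer (B : Set X) = ⊥) : M = ⊥ := by
  have hf := wielandt_formula (Nat.card M) X K B M rfl h
  unfold Formula at hf
  have h1 : M ⊓ Subgroup.centralizer ((K ⊔ B : Subgroup X) : Set X) = ⊥ := by
    rw [eq_bot_iff, ← hK]
    exact inf_le_inf_left _ (Subgroup.centralizer_le (SetLike.coe_subset_coe.mpr le_sup_left))
  rw [h1, hK, hB, Subgroup.card_bot, one_pow, one_mul, mul_one] at hf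
  exact Subgroup.eq_bot_of_card_eq M hf

/-- If `Y` commutes with a Frobenius-type group `K ⋊ B` acting on the abelian group `M` with
`C_M(K) = 1`, and `Y` centralizes `C_M(B)`, then `Y` centralizes `M`. -/
theorem frob_centralizes [Finite X] (K B Y M : Subgroup X)
    (hMc : ∀ a ∈ M, ∀ b ∈ M, a * b = b * a)
    (hKM : K ≤ Subgroup.normalizer (M : Set X)) (hBM : B ≤ Subgroup.normalizer (M : Set X))
    (hYM : Y ≤ Subgroup.normalizer (M : Set X)) (hBK : B ≤ Subgroup.normalizer (K : Set X))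
    (hKs : Group.IsSolvable K)
    (hYK : ∀ y ∈ Y, ∀ k ∈ K, y * k = k * y) (hYB : ∀ y ∈ Y, ∀ b ∈ B, y * b = b * y)
    (hKB : (Nat.card K).Coprime (Nat.card B)) (hMK : (Nat.card M).Coprime (Nat.card K))
    (hMB : (Nat.card M).Coprime (Nat.card B)) (hYMc : (Nat.card Y).Coprime (Nat.card M))
    (hfrob : ∀ b ∈ B, b ≠ 1 → K ⊓ Subgroup.centralizer {b} = ⊥)
    (hMK0 : M ⊓ Subgroup.centralizer (K : Set X) = ⊥)
    (hMB0 : M ⊓ Subgroup.centralizer (B : Set X) ≤ Subgroup.centralizer (Y : Set X)) :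
    M ≤ Subgroup.centralizer (Y : Set X) := by
  have hM1 : ⁅M, Y⁆ ≤ M := Cfsg.Agent.H1.commutator_le_of_le_normalizer Y M hYM
  have hdata : FrobData K B ⁅M, Y⁆ :=
    { hRK := hBK
      hKs := hKs
      hKR := hKB
      hfrob := hfrob
      hKH := fun k hk => normalizer_commutator M Y k (hKM hk)
        (mem_normalizer_of_comm Y k (fun y hy => (hYK y hy k hk).symm))
      hRH := fun b hb => normalizer_commutator M Y b (hBM hb)
        (mem_normalizer_of_comm Y b (fun y hy => (hYB y hy b hb).symm))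
      hHs := solvable_of_comm _ (fun a ha b hb => hMc a (hM1 ha) b (hM1 hb))
      hHK := Nat.Coprime.coprime_dvd_left (Subgroup.card_dvd_of_le hM1) hMK
      hHR := Nat.Coprime.coprime_dvd_left (Subgroup.card_dvd_of_le hM1) hMB }
  have h1 : ⁅M, Y⁆ = ⊥ := by
    apply frob_trivial hdata
    · rw [eq_bot_iff, ← hMK0]; exact inf_le_inf_right _ hM1
    · rw [eq_bot_iff, ← centralizer_inf_commutator_eq_bot M Y hMc hYM hYMc]
      intro x hx
      exact ⟨⟨hM1 hx.1, hMB0 ⟨hM1 hx.1, hx.2⟩⟩, hx.1⟩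
  exact Subgroup.commutator_eq_bot_iff_le_centralizer.mp h1

open scoped IsMulCommutative in
/-- The norm trick: if the `S`-conjugates of `w ∈ V` (`V` abelian) lie in `T₁`, which has no
`S`-fixed points in `V`, and the conjugates by nonidentity elements lie in `T₂`, then `w ∈ T₂`. -/
theorem norm_trick [Finite X] (V S T₁ T₂ : Subgroup X)
    (hVc : ∀ a ∈ V, ∀ b ∈ V, a * b = b * a)
    (hSV : S ≤ Subgroup.normalizer (V : Set X)) (w : X) (hw : w ∈ V)
    (h1 : ∀ σ ∈ S, σ * w * σ⁻¹ ∈ T₁)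
    (hT₁ : T₁ ⊓ (V ⊓ Subgroup.centralizer (S : Set X)) = ⊥)
    (h2 : ∀ σ ∈ S, σ ≠ 1 → σ * w * σ⁻¹ ∈ T₂) : w ∈ T₂ := by
  classical
  letI : Fintype ↥S := Fintype.ofFinite _
  haveI : IsMulCommutative V := ⟨⟨fun a b => Subtype.ext (hVc a a.2 b b.2)⟩⟩
  obtain ⟨φ, hφ⟩ : ∃ φ : ↥S →* MulAut ↥V, φ = conjAut V S hSV := ⟨_, rfl⟩
  have hφv : ∀ (σ : S) (v : V), ((φ σ v : V) : X) = σ * v * (σ : X)⁻¹ := by
    intro σ v; rw [hφ]; rfl
  obtain ⟨w', hw'⟩ : ∃ w' : V, (w' : X) = w := ⟨⟨w, hw⟩, rfl⟩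
  obtain ⟨Nw, hNw⟩ : ∃ Nw : V, Nw = ∏ σ : S, φ σ w' := ⟨_, rfl⟩
  have hfix : ∀ τ : S, φ τ Nw = Nw := by
    intro τ
    rw [hNw, map_prod]
    have h3 : ∀ σ : S, φ τ (φ σ w') = φ (τ * σ) w' := fun σ => by rw [map_mul]; rfl
    simp_rw [h3]
    exact Equiv.prod_comp (Equiv.mulLeft τ) (fun σ => φ σ w')
  have hN1 : (Nw : X) ∈ T₁ := by
    have h3 : Nw ∈ T₁.subgroupOf V := by
      rw [hNw]
      apply Subgroup.prod_mem
      intro σ _
      rw [Subgroup.mem_subgroupOf, hφv, hw']
      exact h1 σ σ.2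
    exact Subgroup.mem_subgroupOf.mp h3
  have hN2 : (Nw : X) ∈ V ⊓ Subgroup.centralizer (S : Set X) := by
    refine Subgroup.mem_inf.mpr ⟨Nw.2, ?_⟩
    rw [Subgroup.mem_centralizer_iff]
    intro τ hτ
    have h3 := congrArg Subtype.val (hfix ⟨τ, hτ⟩)
    rw [hφv] at h3
    have h4 : τ * (Nw : X) * τ⁻¹ = Nw := h3
    calc τ * (Nw : X) = τ * (Nw : X) * τ⁻¹ * τ := by group
      _ = Nw * τ := by rw [h4]
  have hN : Nw = 1 := by
    have h3 : (Nw : X) ∈ (⊥ : Subgroup X) := by rw [← hT₁]; exact ⟨hN1, hN2⟩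
    exact Subtype.ext (Subgroup.mem_bot.mp h3)
  have hsplit : w' * ∏ σ ∈ (Finset.univ : Finset S).erase 1, φ σ w' = Nw := by
    have h3 := Finset.mul_prod_erase (Finset.univ : Finset S) (fun σ => φ σ w')
      (Finset.mem_univ 1)
    rw [hNw, ← h3, map_one]
    rfl
  have hrest : ((∏ σ ∈ (Finset.univ : Finset S).erase 1, φ σ w' : V) : X) ∈ T₂ := by
    have h3 : (∏ σ ∈ (Finset.univ : Finset S).erase 1, φ σ w') ∈ T₂.subgroupOf V := by
      apply Subgroup.prod_mem
      intro σ hσ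
      rw [Subgroup.mem_subgroupOf, hφv, hw']
      have hσ1 : σ ≠ 1 := Finset.ne_of_mem_erase hσ
      exact h2 σ σ.2 (fun h => hσ1 (Subtype.ext h))
    exact Subgroup.mem_subgroupOf.mp h3
  have h4 : w' = (∏ σ ∈ (Finset.univ : Finset S).erase 1, φ σ w')⁻¹ := by
    rw [hN] at hsplit; exact eq_inv_of_mul_eq_one_left hsplit
  have h5 : w = ((∏ σ ∈ (Finset.univ : Finset S).erase 1, φ σ w' : V) : X)⁻¹ := by
    have h6 := congrArg Subtype.val h4
    rw [hw', Subgroup.coe_inv] at h6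
    exact h6
  rw [h5]; exact T₂.inv_mem hrest

/-- Elements of `N(R)` whose commutators with `R` lie in `E`. -/
def comSub (R E : Subgroup X) : Subgroup X where
  carrier := {g | g ∈ Subgroup.normalizer (R : Set X) ∧ ∀ x ∈ R, g * x * g⁻¹ * x⁻¹ ∈ E}
  one_mem' := ⟨Subgroup.one_mem _, fun x hx => by simp⟩
  mul_mem' := by
    rintro g h ⟨hg, hg'⟩ ⟨hh, hh'⟩
    refine ⟨Subgroup.mul_mem _ hg hh, fun x hx => ?_⟩
    have hx' : h * x * h⁻¹ ∈ R := conj_mem_of_mem_normalizer hh hx
    have e : g * h * x * (g * h)⁻¹ * x⁻¹ =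
        (g * (h * x * h⁻¹) * g⁻¹ * (h * x * h⁻¹)⁻¹) * (h * x * h⁻¹ * x⁻¹) := by group
    rw [e]
    exact E.mul_mem (hg' _ hx') (hh' x hx)
  inv_mem' := by
    rintro g ⟨hg, hg'⟩
    refine ⟨Subgroup.inv_mem _ hg, fun x hx => ?_⟩
    have hx' : g⁻¹ * x * g ∈ R := by
      have := conj_mem_of_mem_normalizer (Subgroup.inv_mem _ hg) hx
      simpa using this
    have e : g⁻¹ * x * g⁻¹⁻¹ * x⁻¹ = (g * (g⁻¹ * x * g) * g⁻¹ * (g⁻¹ * x * g)⁻¹)⁻¹ := by group
    rw [e]
    exact E.inv_mem (hg' _ hx')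

theorem comSub_le_normalizer [Finite X] {R E : Subgroup X} (hE : E ≤ R) :
    comSub R E ≤ Subgroup.normalizer (E : Set X) := by
  intro g hg
  apply mem_normalizer_of_conj
  intro e he
  have h1 := hg.2 e (hE he)
  have e1 : g * e * g⁻¹ = (g * e * g⁻¹ * e⁻¹) * e := by group
  rw [e1]; exact E.mul_mem h1 he

theorem normalizer_comSub [Finite X] {R E : Subgroup X} (g : X)
    (hgR : g ∈ Subgroup.normalizer (R : Set X)) (hgE : g ∈ Subgroup.normalizer (E : Set X)) :
    g ∈ Subgroup.normalizer ((comSub R E : Subgroup X) : Set X) := by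
  apply mem_normalizer_of_conj
  intro h hh
  refine ⟨Subgroup.mul_mem _ (Subgroup.mul_mem _ hgR hh.1) (Subgroup.inv_mem _ hgR),
    fun x hx => ?_⟩
  have hx' : g⁻¹ * x * g ∈ R := by
    have := conj_mem_of_mem_normalizer (Subgroup.inv_mem _ hgR) hx
    simpa using this
  have h1 := hh.2 _ hx'
  have h2 := conj_mem_of_mem_normalizer hgE h1
  have e : g * h * g⁻¹ * x * (g * h * g⁻¹)⁻¹ * x⁻¹ =
      g * (h * (g⁻¹ * x * g) * h⁻¹ * (g⁻¹ * x * g)⁻¹) * g⁻¹ := by group
  rw [e]; exact h2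

theorem commutator_le_of_le_comSub {R E S : Subgroup X} (hS : S ≤ comSub R E) : ⁅R, S⁆ ≤ E := by
  rw [Subgroup.commutator_le]
  intro x hx σ hσ
  have h1 := (hS hσ).2 x hx
  have e : ⁅x, σ⁆ = (σ * x * σ⁻¹ * x⁻¹)⁻¹ := by rw [commutatorElement_def]; group
  rw [e]; exact E.inv_mem h1

theorem le_comSub_of_commutator_le {R E B : Subgroup X}
    (hB : B ≤ Subgroup.normalizer (R : Set X)) (hE : ⁅R, B⁆ ≤ E) : B ≤ comSub R E := by
  intro g hg
  refine ⟨hB hg, fun x hx => ?_⟩
  apply hE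
  rw [Subgroup.commutator_comm]
  have := Subgroup.commutator_mem_commutator hg hx
  rwa [commutatorElement_def] at this

end Cfsg.Agent.H58.Ward
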