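import Mathlib
import Cfsg.Agent.H58.WardBase

/-!
# Ward's theorem: the main configuration

`V` an elementary abelian `q`-group, `R` an `r`-group, `S` an `s`-group normalizing `R`,
`R ⊔ S` faithful and irreducible (with `A`) on `V`, `A` elementary abelian of order `p²` acting
fixed-point-freely with nilpotent centralizers, and `(R, S)` minimal with `[R, S] ≠ 1`:
this configuration is impossible.
-/

set_option autoImplicit false
set_option linter.style.haveILetI false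
set_option linter.unusedVariables false
set_option linter.unusedSectionVars false

namespace Cfsg.Agent.H58.Ward

open Cfsg.Agent.H58.FrobAct Cfsg.Agent.H58.FrobQuot Cfsg.Agent.H58.FrobWielandt
open scoped commutatorElement

universe u

variable {X : Type u} [Group X]

theorem commutator_le_centralizer_of_normalizer [Finite X] (R S M : Subgroup X)
    (hRM : R ≤ Subgroup.normalizer (M : Set X))
    (hMS : M ≤ Subgroup.centralizer (S : Set X)) :
    ⁅R, S⁆ ≤ Subgroup.centralizer (M : Set X) := by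
  rw [Subgroup.commutator_le]
  intro x hx σ hσ
  rw [Subgroup.mem_centralizer_iff]
  intro m hm
  have hσc : ∀ m' ∈ M, σ * m' = m' * σ := fun m' hm' =>
    (Subgroup.mem_centralizer_iff.mp (hMS hm')) σ hσ
  have hm1 : x⁻¹ * m * x ∈ M := by
    have := conj_mem_of_mem_normalizer (Subgroup.inv_mem _ (hRM hx)) hm
    simpa using this
  have e1 : σ * (x⁻¹ * m * x) = (x⁻¹ * m * x) * σ := hσc _ hm1
  have e2 : σ * m = m * σ := hσc m hm
  have e3 : m * σ⁻¹ = σ⁻¹ * m := by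
    calc m * σ⁻¹ = σ⁻¹ * (σ * m) * σ⁻¹ := by group
      _ = σ⁻¹ * (m * σ) * σ⁻¹ := by rw [e2]
      _ = σ⁻¹ * m := by group
  rw [commutatorElement_def]
  calc m * (x * σ * x⁻¹ * σ⁻¹) = x * ((x⁻¹ * m * x) * σ) * x⁻¹ * σ⁻¹ := by group
    _ = x * (σ * (x⁻¹ * m * x)) * x⁻¹ * σ⁻¹ := by rw [e1]
    _ = x * σ * x⁻¹ * (m * σ⁻¹) := by group
    _ = x * σ * x⁻¹ * (σ⁻¹ * m) := by rw [e3]
    _ = x * σ * x⁻¹ * σ⁻¹ * m := by group

/-- The minimal configuration. -/
structure Cfg (p q r s : ℕ) (V R S A : Subgroup X) : Prop where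
  hq : q.Prime
  hr : r.Prime
  hs : s.Prime
  hA : EA p A
  hVc : ∀ a ∈ V, ∀ b ∈ V, a * b = b * a
  hVe : ∀ v ∈ V, v ^ q = 1
  hRV : R ≤ Subgroup.normalizer (V : Set X)
  hSV : S ≤ Subgroup.normalizer (V : Set X)
  hAV : A ≤ Subgroup.normalizer (V : Set X)
  hSR : S ≤ Subgroup.normalizer (R : Set X)
  hAR : A ≤ Subgroup.normalizer (R : Set X)
  hAS : A ≤ Subgroup.normalizer (S : Set X)
  hR : IsPGroup r R
  hS : IsPGroup s S
  hqr : q ≠ r
  hrs : r ≠ s
  hfaith : (R ⊔ S) ⊓ Subgroup.centralizer (V : Set X) = ⊥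
  hfV : V ⊓ Subgroup.centralizer (A : Set X) = ⊥
  hfR : R ⊓ Subgroup.centralizer (A : Set X) = ⊥
  hfS : S ⊓ Subgroup.centralizer (A : Set X) = ⊥
  hRS : ∀ a ∈ A, a ≠ 1 → R ⊓ Subgroup.centralizer {a} ≤
    Subgroup.centralizer ((S ⊓ Subgroup.centralizer {a} : Subgroup X) : Set X)
  hVR : ∀ a ∈ A, a ≠ 1 → V ⊓ Subgroup.centralizer {a} ≤
    Subgroup.centralizer ((R ⊓ Subgroup.centralizer {a} : Subgroup X) : Set X)
  hVS : s ≠ q → ∀ a ∈ A, a ≠ 1 → V ⊓ Subgroup.centralizer {a} ≤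
    Subgroup.centralizer ((S ⊓ Subgroup.centralizer {a} : Subgroup X) : Set X)
  hirr : ∀ V₁ : Subgroup X, V₁ ≤ V → R ≤ Subgroup.normalizer (V₁ : Set X) →
    S ≤ Subgroup.normalizer (V₁ : Set X) → A ≤ Subgroup.normalizer (V₁ : Set X) →
    V₁ = ⊥ ∨ V₁ = V
  hmin : ∀ R₁ S₁ : Subgroup X, R₁ ≤ R → S₁ ≤ S → A ≤ Subgroup.normalizer (R₁ : Set X) →
    A ≤ Subgroup.normalizer (S₁ : Set X) → S₁ ≤ Subgroup.normalizer (R₁ : Set X) →
    (R₁ ≠ R ∨ S₁ ≠ S) → ⁅R₁, S₁⁆ = ⊥
  hne : ⁅R, S⁆ ≠ ⊥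

namespace Cfg

variable [Finite X] {p q r s : ℕ} {V R S A : Subgroup X} (c : Cfg p q r s V R S A)
include c

theorem hVq : IsPGroup q V :=
  fun v => ⟨1, Subtype.ext (by rw [pow_one, Subgroup.coe_pow]; exact c.hVe v v.2)⟩

theorem copAV : (Nat.card A).Coprime (Nat.card V) :=
  coprime_of_fpf p c.hA.hp V A c.hA.isPGroup c.hAV c.hfV

theorem copAR : (Nat.card A).Coprime (Nat.card R) :=
  coprime_of_fpf p c.hA.hp R A c.hA.isPGroup c.hAR c.hfR

theorem copAS : (Nat.card A).Coprime (Nat.card S) :=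
  coprime_of_fpf p c.hA.hp S A c.hA.isPGroup c.hAS c.hfS

theorem copRV : (Nat.card R).Coprime (Nat.card V) := by
  haveI : Fact r.Prime := ⟨c.hr⟩
  haveI : Fact q.Prime := ⟨c.hq⟩
  exact IsPGroup.coprime_card_of_ne r q (Ne.symm c.hqr) R V c.hR c.hVq

theorem copSR : (Nat.card S).Coprime (Nat.card R) := by
  haveI : Fact r.Prime := ⟨c.hr⟩
  haveI : Fact s.Prime := ⟨c.hs⟩
  exact IsPGroup.coprime_card_of_ne s r (Ne.symm c.hrs) S R c.hS c.hR

theorem copSV (hsq : s ≠ q) : (Nat.card S).Coprime (Nat.card V) := by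
  haveI : Fact s.Prime := ⟨c.hs⟩
  haveI : Fact q.Prime := ⟨c.hq⟩
  exact IsPGroup.coprime_card_of_ne s q hsq S V c.hS c.hVq

theorem solvR : Group.IsSolvable R := solvable_of_pgroup r c.hr R c.hR

theorem solvS : Group.IsSolvable S := solvable_of_pgroup s c.hs S c.hS

theorem solvV : Group.IsSolvable V := solvable_of_comm V c.hVc

theorem hRne : R ≠ ⊥ := by
  intro h
  apply c.hne
  rw [h, Subgroup.commutator_bot_left]

theorem hSne : S ≠ ⊥ := by
  intro h
  apply c.hne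
  rw [h, Subgroup.commutator_bot_right]

theorem faith (Y : Subgroup X) (hY : Y ≤ R ⊔ S)
    (hYV : Y ≤ Subgroup.centralizer (V : Set X)) : Y = ⊥ := by
  rw [eq_bot_iff, ← c.hfaith]
  exact le_inf hY hYV

/-- Some nonidentity `a ∈ A` centralizes `S`. -/
theorem exists_a : ∃ a ∈ A, a ≠ 1 ∧ S ≤ Subgroup.centralizer {a} := by
  by_contra hcon
  push Not at hcon
  have h1 : ∀ a ∈ A, a ≠ 1 → S ⊓ Subgroup.centralizer {a} ≤ Subgroup.centralizer (R : Set X) := by
    intro a ha ha1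
    have hA' := c.hA.normalizer_inf_cent S c.hAS a ha
    have h2 := c.hmin R (S ⊓ Subgroup.centralizer {a}) le_rfl inf_le_left c.hAR hA'
      (inf_le_left.trans c.hSR) (Or.inr (fun heq => hcon a ha ha1 (inf_eq_left.mp heq)))
    rw [Subgroup.commutator_comm] at h2
    exact Subgroup.commutator_eq_bot_iff_le_centralizer.mp h2
  have h3 : S ≤ Subgroup.centralizer (R : Set X) := by
    haveI : IsMulCommutative A := ⟨⟨fun a b => Subtype.ext (c.hA.comm a a.2 b b.2)⟩⟩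
    have h4 := Cfsg.Agent.Lib.Helper30.genCent_eq (A := A) c.hA.not_cyclic (Nat.card S) S rfl
      c.hAS c.copAS
    rw [← h4]
    exact iSup₂_le (fun a ha => h1 a ha.1 ha.2)
  apply c.hne
  rw [Subgroup.commutator_comm]
  exact Subgroup.commutator_eq_bot_iff_le_centralizer.mpr h3

theorem R_eq : ⁅R, S⁆ = R := by
  by_contra hne'
  have hle : ⁅R, S⁆ ≤ R := Cfsg.Agent.H1.commutator_le_of_le_normalizer S R c.hSR
  have h1 := c.hmin ⁅R, S⁆ S hle le_rfl
    (fun g hg => normalizer_commutator R S g (c.hAR hg) (c.hAS hg)) c.hAS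
    (Subgroup.normalizer_commutator_ge_right R S) (Or.inl hne')
  rw [Cfsg.Agent.H1.coprime_commutator_commutator S R c.hSR c.copSR (Or.inl c.solvS)] at h1
  exact c.hne h1

section WithA

variable (a : X) (ha : a ∈ A) (ha1 : a ≠ 1) (hSa : S ≤ Subgroup.centralizer {a})
include ha ha1 hSa

theorem Ra_le : R ⊓ Subgroup.centralizer {a} ≤ Subgroup.centralizer (S : Set X) := by
  have h := c.hRS a ha ha1
  rwa [inf_eq_left.mpr hSa] at h

theorem Sb_bot (b : X) (hb : b ∈ A) (hb' : b ∉ Subgroup.zpowers a) :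
    S ⊓ Subgroup.centralizer {b} = ⊥ := by
  rw [eq_bot_iff]
  intro x hx
  have hxa : a * x = x * a := (Subgroup.mem_centralizer_iff.mp (hSa hx.1)) a rfl
  have hxb : b * x = x * b := (Subgroup.mem_centralizer_iff.mp hx.2) b rfl
  have h1 : x ∈ S ⊓ Subgroup.centralizer (A : Set X) :=
    ⟨hx.1, c.hA.mem_centralizer a b ha ha1 hb hb' x hxa hxb⟩
  rw [c.hfS] at h1
  exact h1

theorem Rb_not_le (b : X) (hb : b ∈ A) (hb' : b ∉ Subgroup.zpowers a) :
    ¬ (R ⊓ Subgroup.centralizer {b} ≤ Subgroup.centralizer (S : Set X)) := by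
  intro hle
  have hdata : FrobData S (Subgroup.zpowers b) R :=
    { hRK := Subgroup.zpowers_le.mpr (c.hAS hb)
      hKs := c.solvS
      hKR := cop_of_le c.copAS.symm le_rfl (Subgroup.zpowers_le.mpr hb)
      hfrob := by
        intro b' hb'z hb'1
        rw [eq_bot_iff, ← c.Sb_bot a ha ha1 hSa b hb hb']
        exact inf_le_inf_left _
          (centralizer_le_of_mem_zpowers p c.hA.hp b b' (c.hA.exp b hb) hb'z hb'1)
      hKH := c.hSR
      hRH := Subgroup.zpowers_le.mpr (c.hAR hb)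
      hHs := c.solvR
      hHK := c.copSR.symm
      hHR := cop_of_le c.copAR.symm le_rfl (Subgroup.zpowers_le.mpr hb) }
  have hf := wielandt_formula (Nat.card R) X S (Subgroup.zpowers b) R rfl hdata
  unfold Formula at hf
  have h1 : R ⊓ Subgroup.centralizer ((S ⊔ Subgroup.zpowers b : Subgroup X) : Set X) =
      R ⊓ Subgroup.centralizer ((Subgroup.zpowers b : Subgroup X) : Set X) := by
    apply le_antisymm
    · exact inf_le_inf_left _ (Subgroup.centralizer_le (SetLike.coe_subset_coe.mpr le_sup_right))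
    · intro x hx
      refine ⟨hx.1, mem_centralizer_sup ?_ hx.2⟩
      apply hle
      exact ⟨hx.1, by rw [← centralizer_zpowers]; exact hx.2⟩
  rw [h1] at hf
  have hpos : 0 < Nat.card ↥(R ⊓ Subgroup.centralizer ((Subgroup.zpowers b : Subgroup X) : Set X)) ^
      Nat.card (Subgroup.zpowers b) := pow_pos Nat.card_pos _
  have h2 : Nat.card R = Nat.card ↥(R ⊓ Subgroup.centralizer (S : Set X)) :=
    Nat.eq_of_mul_eq_mul_left hpos hf
  have h3 : R ⊓ Subgroup.centralizer (S : Set X) = R :=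
    Subgroup.eq_of_le_of_card_ge inf_le_left h2.le
  apply c.hne
  exact Subgroup.commutator_eq_bot_iff_le_centralizer.mpr (inf_eq_left.mp h3)

omit ha ha1 hSa in
theorem CVR : V ⊓ Subgroup.centralizer (R : Set X) = ⊥ := by
  have hn : ∀ g, g ∈ Subgroup.normalizer (V : Set X) → g ∈ Subgroup.normalizer (R : Set X) →
      g ∈ Subgroup.normalizer ((V ⊓ Subgroup.centralizer (R : Set X) : Subgroup X) : Set X) :=
    fun g h1 h2 => normalizer_inf_centralizer V R g h1 h2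
  rcases c.hirr (V ⊓ Subgroup.centralizer (R : Set X)) inf_le_left
    (fun g hg => hn g (c.hRV hg) (Subgroup.le_normalizer hg))
    (fun g hg => hn g (c.hSV hg) (c.hSR hg))
    (fun g hg => hn g (c.hAV hg) (c.hAR hg)) with h | h
  · exact h
  · exfalso
    have h1 : V ≤ Subgroup.centralizer (R : Set X) := inf_eq_left.mp h
    have h2 : R ≤ Subgroup.centralizer (V : Set X) := Subgroup.le_centralizer_iff.mp h1
    exact c.hRne (c.faith R le_sup_left h2)

theorem WSb (b : X) (hb : b ∈ A) (hb' : b ∉ Subgroup.zpowers a) :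
    V ⊓ Subgroup.centralizer (S : Set X) ⊓ Subgroup.centralizer {b} = ⊥ := by
  have hb1 : b ≠ 1 := fun h => hb' (h ▸ Subgroup.one_mem _)
  obtain ⟨W, hW⟩ : ∃ W : Subgroup X,
      W = V ⊓ Subgroup.centralizer (S : Set X) ⊓ Subgroup.centralizer {b} := ⟨_, rfl⟩
  rw [← hW]
  have hWV : W ≤ V := hW ▸ inf_le_left.trans inf_le_left
  have hWS : W ≤ Subgroup.centralizer (S : Set X) := hW ▸ inf_le_left.trans inf_le_right
  have hWb : W ≤ Subgroup.centralizer {b} := hW ▸ inf_le_right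
  have hSnW : S ≤ Subgroup.normalizer (W : Set X) := fun σ hσ =>
    mem_normalizer_of_comm W σ (fun w hw => (Subgroup.mem_centralizer_iff.mp (hWS hw)) σ hσ)
  have hAnW : A ≤ Subgroup.normalizer (W : Set X) := by
    intro g hg
    rw [hW]
    exact Subgroup.inf_normalizer_le_normalizer_inf
      ⟨normalizer_inf_centralizer V S g (c.hAV hg) (c.hAS hg), c.hA.normalizer_cent b hb hg⟩
  have hR1 : R ⊓ Subgroup.centralizer {b} ≤ R ⊓ Subgroup.centralizer (W : Set X) := by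
    intro x hx
    refine Subgroup.mem_inf.mpr ⟨hx.1, ?_⟩
    rw [Subgroup.mem_centralizer_iff]
    intro w hw
    have h1 := c.hVR b hb hb1 ⟨hWV hw, hWb hw⟩
    exact ((Subgroup.mem_centralizer_iff.mp h1) x hx).symm
  by_cases hEq : R ⊓ Subgroup.centralizer (W : Set X) = R
  · have h1 : R ≤ Subgroup.centralizer (W : Set X) := inf_eq_left.mp hEq
    have h2 : W ≤ V ⊓ Subgroup.centralizer (R : Set X) :=
      fun w hw => ⟨hWV hw, Subgroup.le_centralizer_iff.mp h1 hw⟩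
    rw [c.CVR] at h2
    exact eq_bot_iff.mpr h2
  · exfalso
    have h1 := c.hmin (R ⊓ Subgroup.centralizer (W : Set X)) S inf_le_left le_rfl
      (fun g hg => normalizer_inf_centralizer R W g (c.hAR hg) (hAnW hg)) c.hAS
      (fun g hg => normalizer_inf_centralizer R W g (c.hSR hg) (hSnW hg)) (Or.inl hEq)
    have h2 : R ⊓ Subgroup.centralizer (W : Set X) ≤ Subgroup.centralizer (S : Set X) :=
      Subgroup.commutator_eq_bot_iff_le_centralizer.mp h1
    exact c.Rb_not_le a ha ha1 hSa b hb hb' (hR1.trans h2)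

theorem CVS_le : V ⊓ Subgroup.centralizer (S : Set X) ≤ Subgroup.centralizer {a} := by
  have hAV₂ : A ≤ Subgroup.normalizer ((V ⊓ Subgroup.centralizer (S : Set X) : Subgroup X) : Set X) :=
    fun g hg => normalizer_inf_centralizer V S g (c.hAV hg) (c.hAS hg)
  haveI : IsMulCommutative A := ⟨⟨fun a b => Subtype.ext (c.hA.comm a a.2 b b.2)⟩⟩
  have h4 := Cfsg.Agent.Lib.Helper30.genCent_eq (A := A) c.hA.not_cyclic
    (Nat.card ↥(V ⊓ Subgroup.centralizer (S : Set X))) (V ⊓ Subgroup.centralizer (S : Set X)) rfl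
    hAV₂ (cop_of_le c.copAV le_rfl inf_le_left)
  rw [← h4]
  apply iSup₂_le
  intro c' hc'
  by_cases hz : c' ∈ Subgroup.zpowers a
  · exact inf_le_right.trans
      (centralizer_le_of_mem_zpowers p c.hA.hp a c' (c.hA.exp a ha) hz hc'.2)
  · have h5 := c.WSb a ha ha1 hSa c' hc'.1 hz
    rw [h5]
    exact bot_le

theorem comm_zpowers_a (σ : X) (hσ : σ ∈ S) (y : X) (hy : y ∈ Subgroup.zpowers a) :
    σ * y = y * σ := by
  have h1 : σ ∈ Subgroup.centralizer ((Subgroup.zpowers a : Subgroup X) : Set X) := by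
    rw [centralizer_zpowers]; exact hSa hσ
  exact ((Subgroup.mem_centralizer_iff.mp h1) y hy).symm

/-- The case `s = q` is impossible. -/
theorem case_eq (hsq : s = q) : False := by
  have hZa : Subgroup.zpowers a ≤ Subgroup.normalizer (V : Set X) :=
    Subgroup.zpowers_le.mpr (c.hAV ha)
  have hcopaV : (Nat.card (Subgroup.zpowers a)).Coprime (Nat.card V) :=
    cop_of_le c.copAV (Subgroup.zpowers_le.mpr ha) le_rfl
  have h0 := centralizer_inf_commutator_eq_bot V (Subgroup.zpowers a) c.hVc hZa hcopaV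
  have hV1 : ⁅V, Subgroup.zpowers a⁆ ≤ V :=
    Cfsg.Agent.H1.commutator_le_of_le_normalizer (Subgroup.zpowers a) V hZa
  have hSn : S ≤ Subgroup.normalizer ((⁅V, Subgroup.zpowers a⁆ : Subgroup X) : Set X) :=
    fun σ hσ => normalizer_commutator V (Subgroup.zpowers a) σ (c.hSV hσ)
      (mem_normalizer_of_comm (Subgroup.zpowers a) σ (c.comm_zpowers_a a ha ha1 hSa σ hσ))
  have hfix : ⁅V, Subgroup.zpowers a⁆ ⊓ Subgroup.centralizer (S : Set X) = ⊥ := by
    rw [eq_bot_iff, ← h0]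
    intro x hx
    refine ⟨⟨hV1 hx.1, ?_⟩, hx.1⟩
    rw [centralizer_zpowers]
    exact c.CVS_le a ha ha1 hSa ⟨hV1 hx.1, hx.2⟩
  have hV1q : IsPGroup q ↥⁅V, Subgroup.zpowers a⁆ := c.hVq.to_le hV1
  have hSq : IsPGroup q S := hsq ▸ c.hS
  have h1 : ⁅V, Subgroup.zpowers a⁆ = ⊥ := eq_bot_of_pgroup_fixed q c.hq _ S hV1q hSq hSn hfix
  have haV : V ≤ Subgroup.centralizer {a} := by
    rw [← centralizer_zpowers]
    exact Subgroup.commutator_eq_bot_iff_le_centralizer.mp h1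
  have hRa : R ≤ Subgroup.centralizer {a} := by
    intro x hx
    have hax : a * x * a⁻¹ ∈ R := conj_mem_of_mem_normalizer (c.hAR ha) hx
    have hy : x⁻¹ * (a * x * a⁻¹) ∈ R ⊔ S :=
      Subgroup.mem_sup_left (R.mul_mem (R.inv_mem hx) hax)
    have hyV : x⁻¹ * (a * x * a⁻¹) ∈ Subgroup.centralizer (V : Set X) := by
      rw [Subgroup.mem_centralizer_iff]
      intro v hv
      have hav : a * v = v * a := (Subgroup.mem_centralizer_iff.mp (haV hv)) a rfl
      have hxv : x * v * x⁻¹ ∈ V := conj_mem_of_mem_normalizer (c.hRV hx) hv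
      have hav' : a * (x * v * x⁻¹) = (x * v * x⁻¹) * a :=
        (Subgroup.mem_centralizer_iff.mp (haV hxv)) a rfl
      have e2 : a * (x * v * x⁻¹) * a⁻¹ = x * v * x⁻¹ := by rw [hav']; group
      have e3 : a * v * a⁻¹ = v := by rw [hav]; group
      calc v * (x⁻¹ * (a * x * a⁻¹)) = x⁻¹ * (x * v * x⁻¹) * (a * x * a⁻¹) := by group
        _ = x⁻¹ * (a * (x * v * x⁻¹) * a⁻¹) * (a * x * a⁻¹) := by rw [e2]
        _ = x⁻¹ * (a * x * a⁻¹) * (a * v * a⁻¹) := by group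
        _ = x⁻¹ * (a * x * a⁻¹) * v := by rw [e3]
    have h2 : x⁻¹ * (a * x * a⁻¹) ∈ (⊥ : Subgroup X) := by
      rw [← c.hfaith]; exact ⟨hy, hyV⟩
    have h3 : x⁻¹ * (a * x * a⁻¹) = 1 := Subgroup.mem_bot.mp h2
    have h4 : a * x * a⁻¹ = x := by
      rw [inv_mul_eq_one] at h3; exact h3.symm
    rw [Subgroup.mem_centralizer_iff]
    intro h hh
    rw [Set.mem_singleton_iff] at hh
    subst hh
    calc h * x = h * x * h⁻¹ * h := by group
      _ = x * h := by rw [h4]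
  apply c.hne
  rw [Subgroup.commutator_eq_bot_iff_le_centralizer]
  intro x hx
  exact c.Ra_le a ha ha1 hSa ⟨hx, hRa hx⟩

theorem CVa_le (hsq : s ≠ q) :
    V ⊓ Subgroup.centralizer {a} ≤ Subgroup.centralizer (S : Set X) := by
  have h := c.hVS hsq a ha ha1
  rwa [inf_eq_left.mpr hSa] at h

theorem RR_le : ⁅R, R⁆ ≤ R ⊓ Subgroup.centralizer (S : Set X) := by
  haveI := c.solvR
  have hlt : ⁅R, R⁆ < R := Cfsg.Agent.H1.commutator_lt_of_isSolvable R c.hRne
  have h1 := c.hmin ⁅R, R⁆ S hlt.le le_rfl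
    (fun g hg => normalizer_commutator R R g (c.hAR hg) (c.hAR hg)) c.hAS
    (fun g hg => normalizer_commutator R R g (c.hSR hg) (c.hSR hg)) (Or.inl hlt.ne)
  exact le_inf hlt.le (Subgroup.commutator_eq_bot_iff_le_centralizer.mp h1)

theorem C_le_cent :
    R ⊓ Subgroup.centralizer (S : Set X) ≤ Subgroup.centralizer (R : Set X) := by
  obtain ⟨C, hC⟩ : ∃ C : Subgroup X, C = R ⊓ Subgroup.centralizer (S : Set X) := ⟨_, rfl⟩
  rw [← hC]
  have hCR : C ≤ R := hC ▸ inf_le_left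
  have hCS : C ≤ Subgroup.centralizer (S : Set X) := hC ▸ inf_le_right
  have h1 : ⁅⁅C, S⁆, R⁆ = ⊥ := by
    rw [Subgroup.commutator_eq_bot_iff_le_centralizer.mpr hCS, Subgroup.commutator_bot_left]
  have h2 : ⁅⁅R, C⁆, S⁆ = ⊥ := by
    rw [Subgroup.commutator_eq_bot_iff_le_centralizer]
    exact (Subgroup.commutator_mono le_rfl hCR).trans
      ((c.RR_le a ha ha1 hSa).trans inf_le_right)
  have h3 : ⁅⁅S, R⁆, C⁆ = ⊥ := Subgroup.commutator_commutator_eq_bot_of_rotate h2 h1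
  rw [Subgroup.commutator_comm S R, c.R_eq, Subgroup.commutator_comm] at h3
  exact Subgroup.commutator_eq_bot_iff_le_centralizer.mp h3

omit ha ha1 hSa in
theorem Z_bot_of (Z : Subgroup X) (hZR : Z ≤ R)
    (hRW : R ≤ Subgroup.centralizer ((⁅V, Z⁆ : Subgroup X) : Set X)) : Z = ⊥ := by
  have hZV : Z ≤ Subgroup.normalizer (V : Set X) := hZR.trans c.hRV
  have h1 : ⁅V, Z⁆ ≤ V ⊓ Subgroup.centralizer (R : Set X) :=
    le_inf (Cfsg.Agent.H1.commutator_le_of_le_normalizer Z V hZV)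
      (Subgroup.le_centralizer_iff.mp hRW)
  rw [c.CVR, le_bot_iff] at h1
  have h2 : V ≤ Subgroup.centralizer (Z : Set X) :=
    Subgroup.commutator_eq_bot_iff_le_centralizer.mp h1
  exact c.faith Z (hZR.trans le_sup_left) (Subgroup.le_centralizer_iff.mp h2)

omit ha ha1 hSa in
theorem hVne : V ≠ ⊥ := by
  intro h
  apply c.hRne
  apply c.faith R le_sup_left
  rw [h]
  intro x hx
  rw [Subgroup.mem_centralizer_iff]
  intro v hv
  rw [Subgroup.coe_bot, Set.mem_singleton_iff] at hv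
  subst hv; simp

theorem C_cent_a (hsq : s ≠ q) :
    R ⊓ Subgroup.centralizer (S : Set X) ≤ Subgroup.centralizer {a} := by
  obtain ⟨C, hC⟩ : ∃ C : Subgroup X, C = R ⊓ Subgroup.centralizer (S : Set X) := ⟨_, rfl⟩
  rw [← hC]
  have hCR : C ≤ R := hC ▸ inf_le_left
  have hCS : C ≤ Subgroup.centralizer (S : Set X) := hC ▸ inf_le_right
  have hCZ : C ≤ Subgroup.centralizer (R : Set X) := hC ▸ c.C_le_cent a ha ha1 hSa
  have hCc : ∀ x ∈ C, ∀ y ∈ C, x * y = y * x := fun x hx y hy =>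
    ((Subgroup.mem_centralizer_iff.mp (hCZ hx)) y (hCR hy)).symm
  have hAC : A ≤ Subgroup.normalizer (C : Set X) := by
    intro g hg; rw [hC]; exact normalizer_inf_centralizer R S g (c.hAR hg) (c.hAS hg)
  obtain ⟨B, hB⟩ : ∃ B : Subgroup X, B = Subgroup.zpowers a := ⟨_, rfl⟩
  have hBA : B ≤ A := hB ▸ Subgroup.zpowers_le.mpr ha
  have hBC : B ≤ Subgroup.normalizer (C : Set X) := hBA.trans hAC
  have hcopBC : (Nat.card B).Coprime (Nat.card C) := cop_of_le c.copAR hBA hCR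
  obtain ⟨Z, hZ⟩ : ∃ Z : Subgroup X, Z = ⁅C, B⁆ := ⟨_, rfl⟩
  have hZC : Z ≤ C := hZ ▸ Cfsg.Agent.H1.commutator_le_of_le_normalizer B C hBC
  have hZR : Z ≤ R := hZC.trans hCR
  suffices hZbot : Z = ⊥ by
    rw [hZ, Subgroup.commutator_eq_bot_iff_le_centralizer, hB, centralizer_zpowers] at hZbot
    exact hZbot
  apply c.Z_bot_of Z hZR
  obtain ⟨M, hM⟩ : ∃ M : Subgroup X, M = ⁅V, Z⁆ := ⟨_, rfl⟩
  rw [← hM]
  have hZV : Z ≤ Subgroup.normalizer (V : Set X) := hZR.trans c.hRV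
  have hMV : M ≤ V := hM ▸ Cfsg.Agent.H1.commutator_le_of_le_normalizer Z V hZV
  have hBZ : B ≤ Subgroup.normalizer (Z : Set X) := by
    intro g hg; rw [hZ]; exact normalizer_commutator C B g (hBC hg) (Subgroup.le_normalizer hg)
  have hSZ : ∀ y ∈ S, ∀ k ∈ Z, y * k = k * y := fun y hy k hk =>
    ((Subgroup.mem_centralizer_iff.mp (hCS (hZC hk))) y hy)
  have hSB : ∀ y ∈ S, ∀ b ∈ B, y * b = b * y := fun y hy b hb =>
    c.comm_zpowers_a a ha ha1 hSa y hy b (hB ▸ hb)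
  have hMS : M ≤ Subgroup.centralizer (S : Set X) := by
    apply frob_centralizes Z B S M
    · exact fun x hx y hy => c.hVc x (hMV hx) y (hMV hy)
    · intro g hg; rw [hM]
      exact normalizer_commutator V Z g (hZV hg) (Subgroup.le_normalizer hg)
    · intro g hg; rw [hM]; exact normalizer_commutator V Z g (c.hAV (hBA hg)) (hBZ hg)
    · intro g hg; rw [hM]
      exact normalizer_commutator V Z g (c.hSV hg)
        (mem_normalizer_of_comm Z g (fun k hk => hSZ g hg k hk))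
    · exact hBZ
    · exact solvable_of_comm Z (fun x hx y hy => hCc x (hZC hx) y (hZC hy))
    · exact hSZ
    · exact hSB
    · exact cop_of_le c.copAR.symm hZR hBA
    · exact cop_of_le c.copRV.symm hMV hZR
    · exact cop_of_le c.copAV.symm hMV hBA
    · exact cop_of_le (c.copSV hsq) le_rfl hMV
    · intro b' hb' hb'1
      have h0 := centralizer_inf_commutator_eq_bot C B hCc hBC hcopBC
      rw [eq_bot_iff, ← h0]
      intro x hx
      refine Subgroup.mem_inf.mpr ⟨Subgroup.mem_inf.mpr ⟨hZC hx.1, ?_⟩, hZ ▸ hx.1⟩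
      rw [hB, centralizer_zpowers]
      exact centralizer_le_of_mem_zpowers p c.hA.hp a b' (c.hA.exp a ha) (hB ▸ hb') hb'1 hx.2
    · have h0 := centralizer_inf_commutator_eq_bot V Z c.hVc hZV (cop_of_le c.copRV hZR le_rfl)
      rw [eq_bot_iff, ← h0]
      intro x hx
      exact Subgroup.mem_inf.mpr ⟨Subgroup.mem_inf.mpr ⟨hMV hx.1, hx.2⟩, hM ▸ hx.1⟩
    · intro x hx
      apply c.CVa_le a ha ha1 hSa hsq
      refine Subgroup.mem_inf.mpr ⟨hMV hx.1, ?_⟩
      rw [← centralizer_zpowers, ← hB]; exact hx.2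
  have hRM : R ≤ Subgroup.normalizer (M : Set X) := by
    intro g hg; rw [hM]
    exact normalizer_commutator V Z g (c.hRV hg)
      (mem_normalizer_of_comm Z g
        (fun k hk => ((Subgroup.mem_centralizer_iff.mp (hCZ (hZC hk))) g hg)))
  have h5 := commutator_le_centralizer_of_normalizer R S M hRM hMS
  rw [c.R_eq] at h5
  exact h5

theorem C_bot (hsq : s ≠ q) : R ⊓ Subgroup.centralizer (S : Set X) = ⊥ := by
  obtain ⟨b, hb, hb'⟩ := c.hA.exists_not_mem a ha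
  have hb1 : b ≠ 1 := fun h => hb' (h ▸ Subgroup.one_mem _)
  obtain ⟨C, hC⟩ : ∃ C : Subgroup X, C = R ⊓ Subgroup.centralizer (S : Set X) := ⟨_, rfl⟩
  rw [← hC]
  have hCR : C ≤ R := hC ▸ inf_le_left
  have hCS : C ≤ Subgroup.centralizer (S : Set X) := hC ▸ inf_le_right
  have hCZ : C ≤ Subgroup.centralizer (R : Set X) := hC ▸ c.C_le_cent a ha ha1 hSa
  have hCa : C ≤ Subgroup.centralizer {a} := hC ▸ c.C_cent_a a ha ha1 hSa hsq
  have hCc : ∀ x ∈ C, ∀ y ∈ C, x * y = y * x := fun x hx y hy =>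
    ((Subgroup.mem_centralizer_iff.mp (hCZ hx)) y (hCR hy)).symm
  have hAC : A ≤ Subgroup.normalizer (C : Set X) := by
    intro g hg; rw [hC]; exact normalizer_inf_centralizer R S g (c.hAR hg) (c.hAS hg)
  have hSC : S ≤ Subgroup.normalizer (C : Set X) := by
    intro g hg; rw [hC]
    exact normalizer_inf_centralizer R S g (c.hSR hg) (Subgroup.le_normalizer hg)
  obtain ⟨B, hB⟩ : ∃ B : Subgroup X, B = Subgroup.zpowers b := ⟨_, rfl⟩
  have hBA : B ≤ A := hB ▸ Subgroup.zpowers_le.mpr hb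
  obtain ⟨Y, hY⟩ : ∃ Y : Subgroup X, Y = R ⊓ Subgroup.centralizer {b} := ⟨_, rfl⟩
  have hYR : Y ≤ R := hY ▸ inf_le_left
  apply c.Z_bot_of C hCR
  obtain ⟨M, hM⟩ : ∃ M : Subgroup X, M = ⁅V, C⁆ := ⟨_, rfl⟩
  rw [← hM]
  have hCV : C ≤ Subgroup.normalizer (V : Set X) := hCR.trans c.hRV
  have hMV : M ≤ V := hM ▸ Cfsg.Agent.H1.commutator_le_of_le_normalizer C V hCV
  have hYC : ∀ y ∈ Y, ∀ k ∈ C, y * k = k * y := fun y hy k hk =>
    (Subgroup.mem_centralizer_iff.mp (hCZ hk)) y (hYR hy)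
  have hYB : ∀ y ∈ Y, ∀ b' ∈ B, y * b' = b' * y := by
    intro y hy b' hb'B
    have h1 : y ∈ Subgroup.centralizer ((Subgroup.zpowers b : Subgroup X) : Set X) := by
      rw [centralizer_zpowers]; exact (hY ▸ hy : y ∈ R ⊓ Subgroup.centralizer {b}).2
    exact ((Subgroup.mem_centralizer_iff.mp h1) b' (hB ▸ hb'B)).symm
  have hMY : M ≤ Subgroup.centralizer (Y : Set X) := by
    apply frob_centralizes C B Y M
    · exact fun x hx y hy => c.hVc x (hMV hx) y (hMV hy)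
    · intro g hg; rw [hM]
      exact normalizer_commutator V C g (hCV hg) (Subgroup.le_normalizer hg)
    · intro g hg; rw [hM]
      exact normalizer_commutator V C g (c.hAV (hBA hg)) (hAC (hBA hg))
    · intro g hg; rw [hM]
      exact normalizer_commutator V C g (c.hRV (hYR hg))
        (mem_normalizer_of_comm C g (fun k hk => hYC g hg k hk))
    · exact hBA.trans hAC
    · exact solvable_of_comm C hCc
    · exact hYC
    · exact hYB
    · exact cop_of_le c.copAR.symm hCR hBA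
    · exact cop_of_le c.copRV.symm hMV hCR
    · exact cop_of_le c.copAV.symm hMV hBA
    · exact cop_of_le c.copRV hYR hMV
    · intro b'' hb'' hb''1
      rw [eq_bot_iff, ← c.hfR]
      intro x hx
      have hxb : x ∈ Subgroup.centralizer {b} :=
        centralizer_le_of_mem_zpowers p c.hA.hp b b'' (c.hA.exp b hb) (hB ▸ hb'') hb''1 hx.2
      refine Subgroup.mem_inf.mpr ⟨hCR hx.1, c.hA.mem_centralizer a b ha ha1 hb hb' x ?_ ?_⟩
      · exact (Subgroup.mem_centralizer_iff.mp (hCa hx.1)) a rfl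
      · exact (Subgroup.mem_centralizer_iff.mp hxb) b rfl
    · have h0 := centralizer_inf_commutator_eq_bot V C c.hVc hCV (cop_of_le c.copRV hCR le_rfl)
      rw [eq_bot_iff, ← h0]
      intro x hx
      exact Subgroup.mem_inf.mpr ⟨Subgroup.mem_inf.mpr ⟨hMV hx.1, hx.2⟩, hM ▸ hx.1⟩
    · intro x hx
      have h1 := c.hVR b hb hb1
        (Subgroup.mem_inf.mpr ⟨hMV hx.1, by rw [← centralizer_zpowers, ← hB]; exact hx.2⟩)
      rw [hY]; exact h1
  have hAM : A ≤ Subgroup.normalizer (M : Set X) := by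
    intro g hg; rw [hM]; exact normalizer_commutator V C g (c.hAV hg) (hAC hg)
  have hSM : S ≤ Subgroup.normalizer (M : Set X) := by
    intro g hg; rw [hM]; exact normalizer_commutator V C g (c.hSV hg) (hSC hg)
  by_contra hcon
  have hne' : R ⊓ Subgroup.centralizer (M : Set X) ≠ R := fun h => hcon (inf_eq_left.mp h)
  have h1 := c.hmin (R ⊓ Subgroup.centralizer (M : Set X)) S inf_le_left le_rfl
    (fun g hg => normalizer_inf_centralizer R M g (c.hAR hg) (hAM hg)) c.hAS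
    (fun g hg => normalizer_inf_centralizer R M g (c.hSR hg) (hSM hg)) (Or.inl hne')
  have h2 : R ⊓ Subgroup.centralizer (M : Set X) ≤ Subgroup.centralizer (S : Set X) :=
    Subgroup.commutator_eq_bot_iff_le_centralizer.mp h1
  apply c.Rb_not_le a ha ha1 hSa b hb hb'
  intro x hx
  apply h2
  exact Subgroup.mem_inf.mpr ⟨hx.1, Subgroup.le_centralizer_iff.mp hMY (hY ▸ hx)⟩

theorem R_comm (hsq : s ≠ q) : ∀ x ∈ R, ∀ y ∈ R, x * y = y * x := by
  have h1 := c.RR_le a ha ha1 hSa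
  rw [c.C_bot a ha ha1 hSa hsq, le_bot_iff] at h1
  have h2 : R ≤ Subgroup.centralizer (R : Set X) :=
    Subgroup.commutator_eq_bot_iff_le_centralizer.mp h1
  intro x hx y hy
  exact ((Subgroup.mem_centralizer_iff.mp (h2 hx)) y hy).symm

theorem Ra_bot (hsq : s ≠ q) : R ⊓ Subgroup.centralizer {a} = ⊥ := by
  rw [eq_bot_iff, ← c.C_bot a ha ha1 hSa hsq]
  exact le_inf inf_le_left (c.Ra_le a ha ha1 hSa)

theorem S2_bot (hsq : s ≠ q) : S ⊓ Subgroup.centralizer (R : Set X) = ⊥ := by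
  obtain ⟨S₂, hS₂⟩ : ∃ S₂ : Subgroup X, S₂ = S ⊓ Subgroup.centralizer (R : Set X) := ⟨_, rfl⟩
  rw [← hS₂]
  have hS₂S : S₂ ≤ S := hS₂ ▸ inf_le_left
  have hS₂R : S₂ ≤ Subgroup.centralizer (R : Set X) := hS₂ ▸ inf_le_right
  have hRn : R ≤ Subgroup.normalizer (S₂ : Set X) := fun g hg =>
    mem_normalizer_of_comm S₂ g
      (fun y hy => ((Subgroup.mem_centralizer_iff.mp (hS₂R hy)) g hg))
  have hSn : S ≤ Subgroup.normalizer (S₂ : Set X) := by
    intro g hg; rw [hS₂]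
    exact normalizer_inf_centralizer S R g (Subgroup.le_normalizer hg) (c.hSR hg)
  have hAn : A ≤ Subgroup.normalizer (S₂ : Set X) := by
    intro g hg; rw [hS₂]; exact normalizer_inf_centralizer S R g (c.hAS hg) (c.hAR hg)
  rcases c.hirr (V ⊓ Subgroup.centralizer (S₂ : Set X)) inf_le_left
    (fun g hg => normalizer_inf_centralizer V S₂ g (c.hRV hg) (hRn hg))
    (fun g hg => normalizer_inf_centralizer V S₂ g (c.hSV hg) (hSn hg))
    (fun g hg => normalizer_inf_centralizer V S₂ g (c.hAV hg) (hAn hg)) with h | h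
  · exfalso
    have hVa : V ⊓ Subgroup.centralizer {a} = ⊥ := by
      rw [eq_bot_iff, ← h]
      intro x hx
      refine Subgroup.mem_inf.mpr ⟨hx.1, ?_⟩
      exact Subgroup.centralizer_le (SetLike.coe_subset_coe.mpr hS₂S)
        (c.CVa_le a ha ha1 hSa hsq hx)
    have hdata : FrobData R (Subgroup.zpowers a) V :=
      { hRK := Subgroup.zpowers_le.mpr (c.hAR ha)
        hKs := c.solvR
        hKR := cop_of_le c.copAR.symm le_rfl (Subgroup.zpowers_le.mpr ha)
        hfrob := by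
          intro a' ha'z ha'1
          rw [eq_bot_iff, ← c.Ra_bot a ha ha1 hSa hsq]
          exact inf_le_inf_left _
            (centralizer_le_of_mem_zpowers p c.hA.hp a a' (c.hA.exp a ha) ha'z ha'1)
        hKH := c.hRV
        hRH := Subgroup.zpowers_le.mpr (c.hAV ha)
        hHs := c.solvV
        hHK := c.copRV.symm
        hHR := cop_of_le c.copAV.symm le_rfl (Subgroup.zpowers_le.mpr ha) }
    have hV := frob_trivial hdata c.CVR (by rw [centralizer_zpowers]; exact hVa)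
    exact c.hVne hV
  · have h1 : V ≤ Subgroup.centralizer (S₂ : Set X) := inf_eq_left.mp h
    exact c.faith S₂ (hS₂S.trans le_sup_right) (Subgroup.le_centralizer_iff.mp h1)


section WithB

variable (b : X) (hb : b ∈ A) (hb' : b ∉ Subgroup.zpowers a)
include hb hb'

theorem U_ne (hsq : s ≠ q) :
    V ⊓ Subgroup.centralizer ((⁅R, Subgroup.zpowers b⁆ : Subgroup X) : Set X) ≠ ⊥ := by
  intro hU
  have hb1 : b ≠ 1 := fun h => hb' (h ▸ Subgroup.one_mem _)
  obtain ⟨B, hB⟩ : ∃ B : Subgroup X, B = Subgroup.zpowers b := ⟨_, rfl⟩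
  rw [← hB] at hU
  have hBA : B ≤ A := hB ▸ Subgroup.zpowers_le.mpr hb
  have hBR : B ≤ Subgroup.normalizer (R : Set X) := hBA.trans c.hAR
  obtain ⟨D, hD⟩ : ∃ D : Subgroup X, D = ⁅R, B⁆ := ⟨_, rfl⟩
  rw [← hD] at hU
  have hDR : D ≤ R := hD ▸ Cfsg.Agent.H1.commutator_le_of_le_normalizer B R hBR
  have hRc := c.R_comm a ha ha1 hSa hsq
  obtain ⟨Y, hY⟩ : ∃ Y : Subgroup X, Y = R ⊓ Subgroup.centralizer {b} := ⟨_, rfl⟩
  have hYR : Y ≤ R := hY ▸ inf_le_left
  have hBD : B ≤ Subgroup.normalizer (D : Set X) := by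
    intro g hg; rw [hD]; exact normalizer_commutator R B g (hBR hg) (Subgroup.le_normalizer hg)
  have hYB : ∀ y ∈ Y, ∀ b' ∈ B, y * b' = b' * y := by
    intro y hy b' hb'B
    have h1 : y ∈ Subgroup.centralizer ((Subgroup.zpowers b : Subgroup X) : Set X) := by
      rw [centralizer_zpowers]; exact (hY ▸ hy : y ∈ R ⊓ Subgroup.centralizer {b}).2
    exact ((Subgroup.mem_centralizer_iff.mp h1) b' (hB ▸ hb'B)).symm
  have hVY : V ≤ Subgroup.centralizer (Y : Set X) := by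
    apply frob_centralizes D B Y V c.hVc (hDR.trans c.hRV) (hBA.trans c.hAV) (hYR.trans c.hRV) hBD
      (solvable_of_comm D (fun x hx y hy => hRc x (hDR hx) y (hDR hy)))
      (fun y hy k hk => hRc y (hYR hy) k (hDR hk)) hYB
      (cop_of_le c.copAR.symm hDR hBA) (cop_of_le c.copRV.symm le_rfl hDR)
      (cop_of_le c.copAV.symm le_rfl hBA) (cop_of_le c.copRV hYR le_rfl)
    · intro b'' hb'' hb''1
      have h0 := centralizer_inf_commutator_eq_bot R B hRc hBR (cop_of_le c.copAR hBA le_rfl)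
      rw [eq_bot_iff, ← h0]
      intro x hx
      refine Subgroup.mem_inf.mpr ⟨Subgroup.mem_inf.mpr ⟨hDR hx.1, ?_⟩, hD ▸ hx.1⟩
      rw [hB, centralizer_zpowers]
      exact centralizer_le_of_mem_zpowers p c.hA.hp b b'' (c.hA.exp b hb) (hB ▸ hb'') hb''1 hx.2
    · exact hU
    · intro x hx
      have h1 := c.hVR b hb hb1
        (Subgroup.mem_inf.mpr ⟨hx.1, by rw [← centralizer_zpowers, ← hB]; exact hx.2⟩)
      rw [hY]; exact h1
  have hYbot : Y = ⊥ := c.faith Y (hYR.trans le_sup_left) (Subgroup.le_centralizer_iff.mp hVY)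
  apply c.Rb_not_le a ha ha1 hSa b hb hb'
  rw [← hY, hYbot]; exact bot_le

open Pointwise in
theorem sup_conj_eq (hsq : s ≠ q) (σ : X) (hσ : σ ∈ S) (hσ1 : σ ≠ 1) :
    ⁅R, Subgroup.zpowers b⁆ ⊔ MulAut.conj σ • ⁅R, Subgroup.zpowers b⁆ = R := by
  obtain ⟨B, hB⟩ : ∃ B : Subgroup X, B = Subgroup.zpowers b := ⟨_, rfl⟩
  rw [← hB]
  have hbB : b ∈ B := hB ▸ Subgroup.mem_zpowers b
  have hBA : B ≤ A := hB ▸ Subgroup.zpowers_le.mpr hb
  have hBR : B ≤ Subgroup.normalizer (R : Set X) := hBA.trans c.hAR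
  obtain ⟨D, hD⟩ : ∃ D : Subgroup X, D = ⁅R, B⁆ := ⟨_, rfl⟩
  rw [← hD]
  have hDR : D ≤ R := hD ▸ Cfsg.Agent.H1.commutator_le_of_le_normalizer B R hBR
  have hσR : σ ∈ Subgroup.normalizer (R : Set X) := c.hSR hσ
  have hD'R : MulAut.conj σ • D ≤ R := by
    intro x hx
    rw [Cfsg.Agent.H1.mem_conj_smul_iff] at hx
    have h1 := conj_mem_of_mem_normalizer hσR (hDR hx)
    have e : σ * (σ⁻¹ * x * σ) * σ⁻¹ = x := by group
    rwa [e] at h1
  obtain ⟨E, hE⟩ : ∃ E : Subgroup X, E = D ⊔ MulAut.conj σ • D := ⟨_, rfl⟩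
  rw [← hE]
  have hER : E ≤ R := hE ▸ sup_le hDR hD'R
  have hDE : D ≤ E := hE ▸ le_sup_left
  have hD'E : MulAut.conj σ • D ≤ E := hE ▸ le_sup_right
  -- `b` and `σ b σ⁻¹` act trivially on `R / E`
  have hBcom : B ≤ comSub R E := le_comSub_of_commutator_le hBR (hD ▸ hDE)
  have hbcom : b ∈ comSub R E := hBcom hbB
  have hσbcom : σ * b * σ⁻¹ ∈ comSub R E := by
    refine ⟨Subgroup.mul_mem _ (Subgroup.mul_mem _ hσR (hBR hbB)) (Subgroup.inv_mem _ hσR), ?_⟩
    intro x hx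
    have hy : σ⁻¹ * x * σ ∈ R := by
      have := conj_mem_of_mem_normalizer (Subgroup.inv_mem _ hσR) hx
      simpa using this
    have h1 : b * (σ⁻¹ * x * σ) * b⁻¹ * (σ⁻¹ * x * σ)⁻¹ ∈ D := by
      have h2 := (le_comSub_of_commutator_le (E := D) hBR (hD ▸ le_rfl) hbB).2 _ hy
      exact h2
    apply hD'E
    rw [Cfsg.Agent.H1.mem_conj_smul_iff]
    have e : σ⁻¹ * (σ * b * σ⁻¹ * x * (σ * b * σ⁻¹)⁻¹ * x⁻¹) * σ =
        b * (σ⁻¹ * x * σ) * b⁻¹ * (σ⁻¹ * x * σ)⁻¹ := by group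
    rw [e]; exact h1
  obtain ⟨t, ht⟩ : ∃ t : X, t = σ * b * σ⁻¹ * b⁻¹ := ⟨_, rfl⟩
  have htcom : t ∈ comSub R E := by
    rw [ht]; exact Subgroup.mul_mem _ hσbcom (Subgroup.inv_mem _ hbcom)
  have htS : t ∈ S := by
    have h1 : b * σ⁻¹ * b⁻¹ ∈ S := conj_mem_of_mem_normalizer (c.hAS hb) (S.inv_mem hσ)
    have e : t = σ * (b * σ⁻¹ * b⁻¹) := by rw [ht]; group
    rw [e]; exact S.mul_mem hσ h1
  have ht1 : t ≠ 1 := by
    intro h
    apply hσ1
    have h2 : b * σ = σ * b := by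
      have h3 : σ * b * σ⁻¹ * b⁻¹ = 1 := ht ▸ h
      calc b * σ = (σ * b * σ⁻¹ * b⁻¹)⁻¹ * (σ * b) := by group
        _ = σ * b := by rw [h3]; group
    have h4 : σ ∈ S ⊓ Subgroup.centralizer {b} := by
      refine Subgroup.mem_inf.mpr ⟨hσ, ?_⟩
      rw [Subgroup.mem_centralizer_iff]
      intro h hh
      rw [Set.mem_singleton_iff] at hh
      rw [hh]; exact h2
    rw [c.Sb_bot a ha ha1 hSa b hb hb'] at h4
    exact Subgroup.mem_bot.mp h4
  -- `S₁`, the elements of `S` acting trivially on `R / E`, is `A`-invariant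
  obtain ⟨S₁, hS₁⟩ : ∃ S₁ : Subgroup X, S₁ = S ⊓ comSub R E := ⟨_, rfl⟩
  have hS₁S : S₁ ≤ S := hS₁ ▸ inf_le_left
  have haD : a ∈ Subgroup.normalizer (D : Set X) := by
    rw [hD]
    apply normalizer_commutator R B a (c.hAR ha)
    rw [hB]
    exact mem_normalizer_of_comm _ a (fun y hy => by
      obtain ⟨k, rfl⟩ := Subgroup.mem_zpowers_iff.mp hy
      have h1 : Commute a b := c.hA.comm a ha b hb
      exact (h1.zpow_right k).eq)
  have haσ : a * σ = σ * a := (Subgroup.mem_centralizer_iff.mp (hSa hσ)) a rfl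
  have haD' : a ∈ Subgroup.normalizer ((MulAut.conj σ • D : Subgroup X) : Set X) := by
    apply mem_normalizer_of_conj
    intro x hx
    rw [Cfsg.Agent.H1.mem_conj_smul_iff] at hx ⊢
    have h1 := conj_mem_of_mem_normalizer haD hx
    have haσ' : σ⁻¹ * a = a * σ⁻¹ := by
      calc σ⁻¹ * a = σ⁻¹ * (a * σ) * σ⁻¹ := by group
        _ = σ⁻¹ * (σ * a) * σ⁻¹ := by rw [haσ]
        _ = a * σ⁻¹ := by group
    have e : σ⁻¹ * (a * x * a⁻¹) * σ = a * (σ⁻¹ * x * σ) * a⁻¹ := by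
      calc σ⁻¹ * (a * x * a⁻¹) * σ = (σ⁻¹ * a) * x * a⁻¹ * σ := by group
        _ = (a * σ⁻¹) * x * a⁻¹ * σ := by rw [haσ']
        _ = a * σ⁻¹ * x * (σ⁻¹ * a)⁻¹ := by group
        _ = a * σ⁻¹ * x * (a * σ⁻¹)⁻¹ := by rw [haσ']
        _ = a * (σ⁻¹ * x * σ) * a⁻¹ := by group
    rw [e]; exact h1
  have haE : a ∈ Subgroup.normalizer (E : Set X) := by
    have h1 : Subgroup.zpowers a ≤ Subgroup.normalizer (E : Set X) := by
      rw [hE]
      exact Cfsg.Agent.H1.le_normalizer_sup _ _ _ (Subgroup.zpowers_le.mpr haD)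
        (Subgroup.zpowers_le.mpr haD')
    exact h1 (Subgroup.mem_zpowers a)
  have haS₁ : a ∈ Subgroup.normalizer (S₁ : Set X) := by
    rw [hS₁]
    exact Subgroup.inf_normalizer_le_normalizer_inf
      ⟨c.hAS ha, normalizer_comSub a (c.hAR ha) haE⟩
  have hbS₁ : b ∈ Subgroup.normalizer (S₁ : Set X) := by
    rw [hS₁]
    exact Subgroup.inf_normalizer_le_normalizer_inf ⟨c.hAS hb, Subgroup.le_normalizer hbcom⟩
  have hAS₁ : A ≤ Subgroup.normalizer (S₁ : Set X) := by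
    rw [← c.hA.sup_eq a b ha ha1 hb hb']
    exact sup_le (Subgroup.zpowers_le.mpr haS₁) (Subgroup.zpowers_le.mpr hbS₁)
  have htS₁ : t ∈ S₁ := hS₁ ▸ Subgroup.mem_inf.mpr ⟨htS, htcom⟩
  have hS₁eq : S₁ = S := by
    by_contra hne'
    have h1 := c.hmin R S₁ le_rfl hS₁S c.hAR hAS₁ (hS₁S.trans c.hSR) (Or.inr hne')
    rw [Subgroup.commutator_comm] at h1
    have h2 : S₁ ≤ Subgroup.centralizer (R : Set X) :=
      Subgroup.commutator_eq_bot_iff_le_centralizer.mp h1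
    have h3 : t ∈ S ⊓ Subgroup.centralizer (R : Set X) := Subgroup.mem_inf.mpr ⟨htS, h2 htS₁⟩
    rw [c.S2_bot a ha ha1 hSa hsq] at h3
    exact ht1 (Subgroup.mem_bot.mp h3)
  have hScom : S ≤ comSub R E := by
    rw [← hS₁eq, hS₁]; exact inf_le_right
  have h5 : ⁅R, S⁆ ≤ E := commutator_le_of_le_comSub hScom
  rw [c.R_eq] at h5
  exact le_antisymm hER h5

open Pointwise in
theorem conj_mem_comm (hsq : s ≠ q) (σ : X) (hσ : σ ∈ S) (hσ1 : σ ≠ 1) (w : X)
    (hw : w ∈ V ⊓ Subgroup.centralizer ((⁅R, Subgroup.zpowers b⁆ : Subgroup X) : Set X)) :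
    σ * w * σ⁻¹ ∈ ⁅V, ⁅R, Subgroup.zpowers b⁆⁆ := by
  have hsup := c.sup_conj_eq a ha ha1 hSa b hb hb' hsq σ hσ hσ1
  have hRc := c.R_comm a ha ha1 hSa hsq
  obtain ⟨D, hD⟩ : ∃ D : Subgroup X, D = ⁅R, Subgroup.zpowers b⁆ := ⟨_, rfl⟩
  rw [← hD] at hw hsup ⊢
  have hDR : D ≤ R := by
    rw [hD]
    exact Cfsg.Agent.H1.commutator_le_of_le_normalizer _ R (Subgroup.zpowers_le.mpr (c.hAR hb))
  obtain ⟨D', hD'⟩ : ∃ D' : Subgroup X, D' = MulAut.conj σ • D := ⟨_, rfl⟩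
  rw [← hD'] at hsup
  have hD'R : D' ≤ R := hsup ▸ le_sup_right
  obtain ⟨W', hW'⟩ : ∃ W' : Subgroup X, W' = V ⊓ Subgroup.centralizer (D' : Set X) := ⟨_, rfl⟩
  have hW'V : W' ≤ V := hW' ▸ inf_le_left
  have hmem : σ * w * σ⁻¹ ∈ W' := by
    rw [hW']
    refine Subgroup.mem_inf.mpr ⟨conj_mem_of_mem_normalizer (c.hSV hσ) hw.1, ?_⟩
    rw [Subgroup.mem_centralizer_iff]
    intro y hy
    rw [hD', SetLike.mem_coe, Cfsg.Agent.H1.mem_conj_smul_iff] at hy
    have h1 : (σ⁻¹ * y * σ) * w = w * (σ⁻¹ * y * σ) :=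
      (Subgroup.mem_centralizer_iff.mp hw.2) _ hy
    calc y * (σ * w * σ⁻¹) = σ * ((σ⁻¹ * y * σ) * w) * σ⁻¹ := by group
      _ = σ * (w * (σ⁻¹ * y * σ)) * σ⁻¹ := by rw [h1]
      _ = σ * w * σ⁻¹ * y := by group
  have hDW' : D ≤ Subgroup.normalizer (W' : Set X) := by
    intro g hg
    rw [hW']
    exact normalizer_inf_centralizer V D' g (c.hRV (hDR hg))
      (mem_normalizer_of_comm D' g (fun y hy => hRc g (hDR hg) y (hD'R hy)))
  have hcop : (Nat.card D).Coprime (Nat.card W') := cop_of_le c.copRV hDR hW'V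
  have h1 := Cfsg.Agent.H1.coprime_commutator_sup_centralizer D W' hDW' hcop
    (Or.inr (solvable_of_comm W' (fun x hx y hy => c.hVc x (hW'V hx) y (hW'V hy))))
  have h2 : W' ⊓ Subgroup.centralizer (D : Set X) = ⊥ := by
    rw [eq_bot_iff, ← c.CVR]
    intro x hx
    have hx1 : x ∈ V ⊓ Subgroup.centralizer (D' : Set X) := hW' ▸ hx.1
    refine Subgroup.mem_inf.mpr ⟨hx1.1, ?_⟩
    have h3 : D ⊔ D' ≤ Subgroup.centralizer ({x} : Set X) := by
      apply sup_le
      · intro d hd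
        rw [Subgroup.mem_centralizer_iff]
        intro y hy; rw [Set.mem_singleton_iff] at hy; rw [hy]
        exact ((Subgroup.mem_centralizer_iff.mp hx.2) d hd).symm
      · intro d hd
        rw [Subgroup.mem_centralizer_iff]
        intro y hy; rw [Set.mem_singleton_iff] at hy; rw [hy]
        exact ((Subgroup.mem_centralizer_iff.mp hx1.2) d hd).symm
    rw [hsup] at h3
    rw [Subgroup.mem_centralizer_iff]
    intro g hg
    exact ((Subgroup.mem_centralizer_iff.mp (h3 hg)) x rfl).symm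
  rw [h2, sup_bot_eq] at h1
  have h4 : ⁅W', D⁆ ≤ ⁅V, D⁆ := Subgroup.commutator_mono hW'V le_rfl
  apply h4
  rw [h1]; exact hmem

theorem U_le_cent_a (hsq : s ≠ q) :
    V ⊓ Subgroup.centralizer ((⁅R, Subgroup.zpowers b⁆ : Subgroup X) : Set X) ≤
      Subgroup.centralizer {a} := by
  have hconj := c.conj_mem_comm a ha ha1 hSa b hb hb' hsq
  obtain ⟨D, hD⟩ : ∃ D : Subgroup X, D = ⁅R, Subgroup.zpowers b⁆ := ⟨_, rfl⟩
  rw [← hD] at hconj ⊢
  have hDR : D ≤ R := by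
    rw [hD]
    exact Cfsg.Agent.H1.commutator_le_of_le_normalizer _ R (Subgroup.zpowers_le.mpr (c.hAR hb))
  have haD : a ∈ Subgroup.normalizer (D : Set X) := by
    rw [hD]
    apply normalizer_commutator R _ a (c.hAR ha)
    exact mem_normalizer_of_comm _ a (fun y hy => by
      obtain ⟨k, rfl⟩ := Subgroup.mem_zpowers_iff.mp hy
      have h1 : Commute a b := c.hA.comm a ha b hb
      exact (h1.zpow_right k).eq)
  obtain ⟨U, hU⟩ : ∃ U : Subgroup X, U = V ⊓ Subgroup.centralizer (D : Set X) := ⟨_, rfl⟩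
  rw [← hU]
  have hUV : U ≤ V := hU ▸ inf_le_left
  have hZa : Subgroup.zpowers a ≤ Subgroup.normalizer (V : Set X) :=
    Subgroup.zpowers_le.mpr (c.hAV ha)
  have hZU : Subgroup.zpowers a ≤ Subgroup.normalizer (U : Set X) := by
    rw [Subgroup.zpowers_le, hU]
    exact normalizer_inf_centralizer V D a (c.hAV ha) haD
  have hcopaV : (Nat.card (Subgroup.zpowers a)).Coprime (Nat.card V) :=
    cop_of_le c.copAV (Subgroup.zpowers_le.mpr ha) le_rfl
  have h0 := centralizer_inf_commutator_eq_bot V (Subgroup.zpowers a) c.hVc hZa hcopaV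
  have hV1 : ⁅V, Subgroup.zpowers a⁆ ≤ V :=
    Cfsg.Agent.H1.commutator_le_of_le_normalizer (Subgroup.zpowers a) V hZa
  have hSn : S ≤ Subgroup.normalizer ((⁅V, Subgroup.zpowers a⁆ : Subgroup X) : Set X) :=
    fun σ hσ => normalizer_commutator V (Subgroup.zpowers a) σ (c.hSV hσ)
      (mem_normalizer_of_comm (Subgroup.zpowers a) σ (c.comm_zpowers_a a ha ha1 hSa σ hσ))
  have hT₁ : ⁅V, Subgroup.zpowers a⁆ ⊓ (V ⊓ Subgroup.centralizer (S : Set X)) = ⊥ := by
    rw [eq_bot_iff, ← h0]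
    intro x hx
    refine Subgroup.mem_inf.mpr ⟨Subgroup.mem_inf.mpr ⟨hV1 hx.1, ?_⟩, hx.1⟩
    rw [centralizer_zpowers]
    exact c.CVS_le a ha ha1 hSa hx.2
  have hDV : D ≤ Subgroup.normalizer (V : Set X) := hDR.trans c.hRV
  have h00 := centralizer_inf_commutator_eq_bot V D c.hVc hDV (cop_of_le c.copRV hDR le_rfl)
  have hcomm : ⁅U, Subgroup.zpowers a⁆ = ⊥ := by
    rw [eq_bot_iff]
    intro w hw
    have hwU : w ∈ U := Cfsg.Agent.H1.commutator_le_of_le_normalizer _ U hZU hw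
    have hwT : w ∈ ⁅V, Subgroup.zpowers a⁆ := Subgroup.commutator_mono hUV le_rfl hw
    have hw2 : w ∈ ⁅V, D⁆ := by
      apply norm_trick V S ⁅V, Subgroup.zpowers a⁆ ⁅V, D⁆ c.hVc c.hSV w (hUV hwU)
      · intro σ hσ
        exact conj_mem_of_mem_normalizer (hSn hσ) hwT
      · exact hT₁
      · intro σ hσ hσ1
        exact hconj σ hσ hσ1 w (hU ▸ hwU)
    have h3 : w ∈ (V ⊓ Subgroup.centralizer (D : Set X)) ⊓ ⁅V, D⁆ :=
      Subgroup.mem_inf.mpr ⟨hU ▸ hwU, hw2⟩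
    rw [h00] at h3
    exact h3
  rw [← centralizer_zpowers]
  exact Subgroup.commutator_eq_bot_iff_le_centralizer.mp hcomm

/-- The case `s ≠ q` is impossible. -/
theorem case_ne (hsq : s ≠ q) : False := by
  have hconj := c.conj_mem_comm a ha ha1 hSa b hb hb' hsq
  have hUa := c.U_le_cent_a a ha ha1 hSa b hb hb' hsq
  apply c.U_ne a ha ha1 hSa b hb hb' hsq
  obtain ⟨D, hD⟩ : ∃ D : Subgroup X, D = ⁅R, Subgroup.zpowers b⁆ := ⟨_, rfl⟩
  rw [← hD] at hconj hUa ⊢
  have hDR : D ≤ R := by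
    rw [hD]
    exact Cfsg.Agent.H1.commutator_le_of_le_normalizer _ R (Subgroup.zpowers_le.mpr (c.hAR hb))
  have hDV : D ≤ Subgroup.normalizer (V : Set X) := hDR.trans c.hRV
  have h00 := centralizer_inf_commutator_eq_bot V D c.hVc hDV (cop_of_le c.copRV hDR le_rfl)
  obtain ⟨σ, hσ, hσ1⟩ : ∃ σ ∈ S, σ ≠ 1 := by
    by_contra hcon
    push Not at hcon
    exact c.hSne (eq_bot_iff.mpr (fun x hx => Subgroup.mem_bot.mpr (hcon x hx)))
  rw [eq_bot_iff]
  intro w hw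
  have hwS : w ∈ Subgroup.centralizer (S : Set X) :=
    c.CVa_le a ha ha1 hSa hsq (Subgroup.mem_inf.mpr ⟨hw.1, hUa hw⟩)
  have h1 : σ * w = w * σ := (Subgroup.mem_centralizer_iff.mp hwS) σ hσ
  have h2 : σ * w * σ⁻¹ = w := by rw [h1]; group
  have h3 := hconj σ hσ hσ1 w hw
  rw [h2] at h3
  have h4 : w ∈ (V ⊓ Subgroup.centralizer (D : Set X)) ⊓ ⁅V, D⁆ := Subgroup.mem_inf.mpr ⟨hw, h3⟩
  rw [h00] at h4
  exact h4

end WithB

end WithA

/-- The minimal configuration does not exist. -/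
theorem false : False := by
  obtain ⟨a, ha, ha1, hSa⟩ := c.exists_a
  obtain ⟨b, hb, hb'⟩ := c.hA.exists_not_mem a ha
  by_cases hsq : s = q
  · exact c.case_eq a ha ha1 hSa hsq
  · exact c.case_ne a ha ha1 hSa b hb hb' hsq

end Cfg

end Cfsg.Agent.H58.Ward
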