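import Mathlib
import Cfsg.Agent.H58.WardMain
import Cfsg.Agent.H1.PCore

/-!
# Ward's theorem: reduction of the split situation to the minimal configuration

`V` elementary abelian `q`-group, `H` solvable acting faithfully on `V`, `A` elementary abelian
of order `p²` acting fixed-point-freely on `V` and `H`, `V` irreducible for `H A`, and all
`V H₁` with `H₁ < H` `A`-invariant of Fitting height at most two.  Then `H` is nilpotent.
-/

set_option autoImplicit false
set_option linter.style.haveILetI false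
set_option linter.unusedVariables false
set_option linter.unusedSectionVars false

namespace Cfsg.Agent.H58.Ward

open Cfsg.Agent.H58.FrobAct Cfsg.Agent.H58.FrobQuot Cfsg.Agent.H58.FrobWielandt
open scoped commutatorElement

universe u

variable {X : Type u} [Group X]

/-- Elements of `V ⊔ H` are products when `H` normalizes `V`. -/
theorem mem_sup_of_norm {V H : Subgroup X}
    (hn : H ≤ Subgroup.normalizer (V : Set X)) {u : X} (hu : u ∈ V ⊔ H) :
    ∃ v ∈ V, ∃ h ∈ H, u = v * h := by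
  have hc : ∀ y ∈ H, ∀ x ∈ V, y * x * y⁻¹ ∈ V := fun y hy x hx =>
    (Subgroup.mem_normalizer_iff.mp (hn hy) x).mp hx
  rw [Subgroup.sup_eq_closure] at hu
  refine Subgroup.closure_induction ?_ ?_ ?_ ?_ hu
  · rintro x (hx | hx)
    · exact ⟨x, hx, 1, H.one_mem, by simp⟩
    · exact ⟨1, V.one_mem, x, hx, by simp⟩
  · exact ⟨1, V.one_mem, 1, H.one_mem, by simp⟩
  · rintro _ _ _ _ ⟨x₁, hx₁, y₁, hy₁, rfl⟩ ⟨x₂, hx₂, y₂, hy₂, rfl⟩
    exact ⟨x₁ * (y₁ * x₂ * y₁⁻¹), V.mul_mem hx₁ (hc y₁ hy₁ x₂ hx₂), y₁ * y₂, H.mul_mem hy₁ hy₂,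
      by group⟩
  · rintro _ _ ⟨x, hx, y, hy, rfl⟩
    exact ⟨y⁻¹ * x⁻¹ * y⁻¹⁻¹, hc y⁻¹ (H.inv_mem hy) x⁻¹ (V.inv_mem hx), y⁻¹, H.inv_mem hy,
      by group⟩

theorem lcs_normalizer [Finite X] (S : Subgroup X) (g : X)
    (hg : g ∈ Subgroup.normalizer (S : Set X)) (n : ℕ) :
    g ∈ Subgroup.normalizer ((S.lowerCentralSeries n : Subgroup X) : Set X) := by
  induction n with
  | zero => exact hg
  | succ n ih =>
    rw [Subgroup.lowerCentralSeries_succ]
    exact normalizer_commutator _ _ g ih hg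

theorem pq_bot [Finite X] (q r : ℕ) (hq : q.Prime) (hr : r.Prime) (hqr : q ≠ r) (U : Subgroup X)
    (h1 : IsPGroup q U) (h2 : IsPGroup r U) : U = ⊥ := by
  haveI : Fact q.Prime := ⟨hq⟩
  haveI : Fact r.Prime := ⟨hr⟩
  have h := IsPGroup.coprime_card_of_ne q r hqr U U h1 h2
  rw [Nat.coprime_self] at h
  exact Subgroup.eq_bot_of_card_eq U h

/-- An `r`-subgroup of `K` normalizing a Sylow `r`-subgroup of `K` lies in it. -/
theorem le_sylow_of_normalizes [Finite X] (r : ℕ) [Fact r.Prime] (K : Subgroup X) (P : Sylow r K)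
    (Q : Subgroup X) (hQK : Q ≤ K) (hQ : IsPGroup r Q)
    (hQn : Q ≤ Subgroup.normalizer
      ((((P : Subgroup K).map K.subtype : Subgroup X)) : Set X)) :
    Q ≤ (P : Subgroup K).map K.subtype := by
  obtain ⟨T, hT⟩ : ∃ T : Subgroup X, T = (P : Subgroup K).map K.subtype := ⟨_, rfl⟩
  rw [← hT] at hQn ⊢
  have hTp : IsPGroup r T := hT ▸ P.isPGroup'.map K.subtype
  have h1 : IsPGroup r (Q ⊔ T : Subgroup X) := hQ.to_sup_of_normal_right' hTp hQn
  have h2 : IsPGroup r ((Q ⊔ T).subgroupOf K) := h1.comap_subtype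
  have h3 : (P : Subgroup K) ≤ (Q ⊔ T).subgroupOf K := by
    intro x hx
    rw [Subgroup.mem_subgroupOf]
    apply Subgroup.mem_sup_right
    rw [hT]
    exact Subgroup.mem_map_of_mem _ hx
  have h4 := P.is_maximal' h2 h3
  intro x hx
  have hx' : (⟨x, hQK hx⟩ : K) ∈ (Q ⊔ T).subgroupOf K := by
    rw [Subgroup.mem_subgroupOf]; exact Subgroup.mem_sup_left hx
  rw [h4] at hx'
  rw [hT]
  exact ⟨⟨x, hQK hx⟩, hx', rfl⟩

/-- A normal Sylow subgroup of `K` is normalized by everything normalizing `K`. -/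
theorem sylow_normalizer [Finite X] (r : ℕ) [Fact r.Prime] (K : Subgroup X) (P : Sylow r K)
    (hn : K ≤ Subgroup.normalizer ((((P : Subgroup K).map K.subtype : Subgroup X)) : Set X))
    (g : X) (hg : g ∈ Subgroup.normalizer (K : Set X)) :
    g ∈ Subgroup.normalizer ((((P : Subgroup K).map K.subtype : Subgroup X)) : Set X) := by
  have hle := le_sylow_of_normalizes r K P
  obtain ⟨T, hT⟩ : ∃ T : Subgroup X, T = (P : Subgroup K).map K.subtype := ⟨_, rfl⟩
  rw [← hT] at hn hle ⊢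
  have hTK : T ≤ K := hT ▸ Subgroup.map_subtype_le _
  have hTp : IsPGroup r T := hT ▸ P.isPGroup'.map K.subtype
  apply mem_normalizer_of_conj
  intro t ht
  have hQ : IsPGroup r (T.map (MulAut.conj g).toMonoidHom) := hTp.map _
  have hQK : T.map (MulAut.conj g).toMonoidHom ≤ K := by
    rintro _ ⟨y, hy, rfl⟩
    exact conj_mem_of_mem_normalizer hg (hTK hy)
  have h1 := hle _ hQK hQ (hQK.trans hn)
  exact h1 ⟨t, ht, rfl⟩

/-- Sylow subgroups of a nilpotent subgroup are normal in it. -/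
theorem nilpotent_sylow_normal [Finite X] (D : Subgroup X) (k : ℕ)
    (hk : D.lowerCentralSeries k = ⊥) (r : ℕ) [Fact r.Prime] (P : Sylow r D) :
    D ≤ Subgroup.normalizer ((((P : Subgroup D).map D.subtype : Subgroup X)) : Set X) := by
  haveI : Group.IsNilpotent D := (Subgroup.isNilpotent_iff_lowerCentralSeries D).mpr ⟨k, hk⟩
  have hn : (P : Subgroup D).Normal := inferInstance
  intro d hd
  apply mem_normalizer_of_conj
  rintro _ ⟨y, hy, rfl⟩
  have h1 := hn.conj_mem y hy ⟨d, hd⟩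
  exact ⟨_, h1, rfl⟩

/-- The split situation. -/
structure Split (p q : ℕ) (V H A : Subgroup X) : Prop where
  hq : q.Prime
  hA : EA p A
  hVc : ∀ a ∈ V, ∀ b ∈ V, a * b = b * a
  hVe : ∀ v ∈ V, v ^ q = 1
  hVne : V ≠ ⊥
  hHV : H ≤ Subgroup.normalizer (V : Set X)
  hAV : A ≤ Subgroup.normalizer (V : Set X)
  hAH : A ≤ Subgroup.normalizer (H : Set X)
  hfaith : H ⊓ Subgroup.centralizer (V : Set X) = ⊥
  hHs : Group.IsSolvable H
  hfV : V ⊓ Subgroup.centralizer (A : Set X) = ⊥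
  hfH : H ⊓ Subgroup.centralizer (A : Set X) = ⊥
  hirr : ∀ V₁ : Subgroup X, V₁ ≤ V → H ≤ Subgroup.normalizer (V₁ : Set X) →
    A ≤ Subgroup.normalizer (V₁ : Set X) → V₁ = ⊥ ∨ V₁ = V
  hsub : ∀ H₁ : Subgroup X, H₁ ≤ H → A ≤ Subgroup.normalizer (H₁ : Set X) → H₁ ≠ H →
    ∃ k m, ((V ⊔ H₁).lowerCentralSeries k).lowerCentralSeries m = ⊥

namespace Split

variable [Finite X] {p q : ℕ} {V H A : Subgroup X} (c : Split p q V H A)
include c

theorem hVq : IsPGroup q V :=
  fun v => ⟨1, Subtype.ext (by rw [pow_one, Subgroup.coe_pow]; exact c.hVe v v.2)⟩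

theorem copAV : (Nat.card A).Coprime (Nat.card V) :=
  coprime_of_fpf p c.hA.hp V A c.hA.isPGroup c.hAV c.hfV

theorem copAH : (Nat.card A).Coprime (Nat.card H) :=
  coprime_of_fpf p c.hA.hp H A c.hA.isPGroup c.hAH c.hfH

theorem solvV : Group.IsSolvable V := solvable_of_comm V c.hVc

theorem V_le_cent : V ≤ Subgroup.centralizer (V : Set X) := by
  intro v hv
  rw [Subgroup.mem_centralizer_iff]
  intro w hw
  exact c.hVc w hw v hv

theorem VH_cent : (V ⊔ H) ⊓ Subgroup.centralizer (V : Set X) ≤ V := by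
  intro x hx
  obtain ⟨v, hv, h, hh, rfl⟩ := mem_sup_of_norm c.hHV hx.1
  have h1 : h ∈ Subgroup.centralizer (V : Set X) := by
    have h2 := Subgroup.mul_mem _ (Subgroup.inv_mem _ (c.V_le_cent hv)) hx.2
    rwa [inv_mul_cancel_left] at h2
  have h3 : h ∈ H ⊓ Subgroup.centralizer (V : Set X) := Subgroup.mem_inf.mpr ⟨hh, h1⟩
  rw [c.hfaith, Subgroup.mem_bot] at h3
  rw [h3, mul_one]; exact hv

theorem VH_fix : (V ⊔ H) ⊓ Subgroup.centralizer (A : Set X) = ⊥ := by
  rw [eq_bot_iff]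
  intro x hx
  obtain ⟨v, hv, h, hh, rfl⟩ := mem_sup_of_norm c.hHV hx.1
  have hkey : ∀ a ∈ A, a * v * a⁻¹ = v ∧ a * h * a⁻¹ = h := by
    intro a ha
    have h1 : a * (v * h) = (v * h) * a := (Subgroup.mem_centralizer_iff.mp hx.2) a ha
    have hv' : a * v * a⁻¹ ∈ V := conj_mem_of_mem_normalizer (c.hAV ha) hv
    have hh' : a * h * a⁻¹ ∈ H := conj_mem_of_mem_normalizer (c.hAH ha) hh
    have h2 : (a * v * a⁻¹) * (a * h * a⁻¹) = v * h := by
      calc (a * v * a⁻¹) * (a * h * a⁻¹) = a * (v * h) * a⁻¹ := by group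
        _ = v * h := by rw [h1]; group
    have h3 : v⁻¹ * (a * v * a⁻¹) = h * (a * h * a⁻¹)⁻¹ := by
      calc v⁻¹ * (a * v * a⁻¹) = v⁻¹ * ((a * v * a⁻¹) * (a * h * a⁻¹)) * (a * h * a⁻¹)⁻¹ := by
            group
        _ = h * (a * h * a⁻¹)⁻¹ := by rw [h2]; group
    have h4 : v⁻¹ * (a * v * a⁻¹) ∈ H ⊓ Subgroup.centralizer (V : Set X) := by
      refine Subgroup.mem_inf.mpr ⟨?_, c.V_le_cent (V.mul_mem (V.inv_mem hv) hv')⟩
      rw [h3]; exact H.mul_mem hh (H.inv_mem hh')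
    rw [c.hfaith, Subgroup.mem_bot] at h4
    have h5 : a * v * a⁻¹ = v := by
      rw [inv_mul_eq_one] at h4; exact h4.symm
    refine ⟨h5, ?_⟩
    rw [h5, inv_mul_cancel] at h3
    have h6 : h * (a * h * a⁻¹)⁻¹ = 1 := h3.symm
    rw [mul_inv_eq_one] at h6
    exact h6.symm
  have hv1 : v ∈ V ⊓ Subgroup.centralizer (A : Set X) := by
    refine Subgroup.mem_inf.mpr ⟨hv, ?_⟩
    rw [Subgroup.mem_centralizer_iff]
    intro a ha
    have h1 := (hkey a ha).1
    calc a * v = a * v * a⁻¹ * a := by group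
      _ = v * a := by rw [h1]
  have hh1 : h ∈ H ⊓ Subgroup.centralizer (A : Set X) := by
    refine Subgroup.mem_inf.mpr ⟨hh, ?_⟩
    rw [Subgroup.mem_centralizer_iff]
    intro a ha
    have h1 := (hkey a ha).2
    calc a * h = a * h * a⁻¹ * a := by group
      _ = h * a := by rw [h1]
  rw [c.hfV, Subgroup.mem_bot] at hv1
  rw [c.hfH, Subgroup.mem_bot] at hh1
  rw [hv1, hh1, mul_one]
  exact Subgroup.one_mem _

/-- A nilpotent term of the lower central series of `V ≤ Y ≤ V H` is a `q`-group. -/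
theorem qgroup_of_lcs (Y : Subgroup X) (hY : Y ≤ V ⊔ H) (hVY : V ≤ Y) (k m : ℕ)
    (h : (Y.lowerCentralSeries k).lowerCentralSeries m = ⊥) :
    IsPGroup q ↥(Y.lowerCentralSeries k) := by
  haveI : Fact q.Prime := ⟨c.hq⟩
  obtain ⟨K, hK⟩ : ∃ K : Subgroup X, K = Y.lowerCentralSeries k := ⟨_, rfl⟩
  rw [← hK] at h ⊢
  have hKY : K ≤ Y := hK ▸ lcs_le Y k
  have hYV : Y ≤ Subgroup.normalizer (V : Set X) :=
    hY.trans (sup_le Subgroup.le_normalizer c.hHV)
  have hYK : Y ≤ Subgroup.normalizer (K : Set X) := by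
    intro g hg; rw [hK]; exact lcs_normalizer Y g (Subgroup.le_normalizer hg) k
  obtain ⟨e, he⟩ := IsPGroup.iff_card.mp c.hVq
  intro x
  obtain ⟨n, hn⟩ : ∃ n : ℕ, n = (orderOf (x : X)).factorization q := ⟨_, rfl⟩
  refine ⟨n, ?_⟩
  apply Subtype.ext
  rw [Subgroup.coe_pow, Subgroup.coe_one]
  obtain ⟨y, hy⟩ : ∃ y : X, y = (x : X) ^ q ^ n := ⟨_, rfl⟩
  rw [← hy]
  have hyK : y ∈ K := hy ▸ K.pow_mem x.2 _
  have hord : orderOf y = orderOf (x : X) / q ^ n := by
    rw [hy, orderOf_pow, hn, Nat.gcd_eq_right (Nat.ordProj_dvd _ _)]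
  have hx0 : orderOf (x : X) ≠ 0 := (orderOf_pos (x : X)).ne'
  have hcopq : Nat.Coprime q (orderOf y) := by
    rw [hord, hn]; exact Nat.coprime_ordCompl c.hq hx0
  obtain ⟨Z, hZ⟩ : ∃ Z : Subgroup X, Z = Subgroup.zpowers y := ⟨_, rfl⟩
  have hZK : Z ≤ K := hZ ▸ Subgroup.zpowers_le.mpr hyK
  have hZcard : Nat.card Z = orderOf y := by rw [hZ, Nat.card_zpowers]
  have hcopZV : (Nat.card Z).Coprime (Nat.card V) := by
    rw [hZcard, he]; exact (hcopq.pow_left e).symm
  have hZV : Z ≤ Subgroup.normalizer (V : Set X) := hZK.trans (hKY.trans hYV)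
  obtain ⟨P, hP⟩ : ∃ P : Subgroup X, P = V ⊓ K := ⟨_, rfl⟩
  have hPK : P ≤ K := hP ▸ inf_le_right
  have hPV : P ≤ V := hP ▸ inf_le_left
  have hZP : Z ≤ Subgroup.normalizer (P : Set X) := by
    intro g hg; rw [hP]
    exact Subgroup.inf_normalizer_le_normalizer_inf ⟨hZV hg, Subgroup.le_normalizer (hZK hg)⟩
  have h1 : ⁅P, Z⁆ = ⊥ := commutator_eq_bot_of_lcs K P Z hPK hZK hZP (cop_of_le hcopZV le_rfl hPV)
    (Or.inr (solvable_of_comm P (fun a ha b hb => c.hVc a (hPV ha) b (hPV hb)))) m h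
  have h2 : ⁅V, Z⁆ ≤ P := by
    rw [hP]
    refine le_inf (Cfsg.Agent.H1.commutator_le_of_le_normalizer Z V hZV) ?_
    rw [Subgroup.commutator_comm]
    exact (Subgroup.commutator_mono hZK le_rfl).trans
      (Cfsg.Agent.H1.commutator_le_of_le_normalizer V K (hVY.trans hYK))
  have h3 : ⁅V, Z⁆ = ⊥ := by
    rw [← Cfsg.Agent.H1.coprime_commutator_commutator Z V hZV hcopZV (Or.inr c.solvV),
      eq_bot_iff, ← h1]
    exact Subgroup.commutator_mono h2 le_rfl
  have h4 : V ≤ Subgroup.centralizer (Z : Set X) :=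
    Subgroup.commutator_eq_bot_iff_le_centralizer.mp h3
  have h5 : y ∈ Subgroup.centralizer (V : Set X) :=
    Subgroup.le_centralizer_iff.mp h4 (hZ ▸ Subgroup.mem_zpowers y)
  have hyV : y ∈ V := c.VH_cent (Subgroup.mem_inf.mpr ⟨hY (hKY hyK), h5⟩)
  have h6 : orderOf y ∣ q ^ e := by
    have h7 : orderOf (⟨y, hyV⟩ : V) ∣ Nat.card V := orderOf_dvd_natCard _
    rw [he] at h7
    have h8 : orderOf (⟨y, hyV⟩ : V) = orderOf y := Subgroup.orderOf_mk y hyV
    rwa [h8] at h7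
  have h9 : orderOf y = 1 := Nat.Coprime.eq_one_of_dvd (hcopq.pow_left e).symm h6
  exact orderOf_eq_one_iff.mp h9

/-- Proper `A`-invariant subgroups of `H` have a `q`-group as a term of the lower central
series. -/
theorem QN (H₁ : Subgroup X) (hH₁ : H₁ ≤ H) (hAH₁ : A ≤ Subgroup.normalizer (H₁ : Set X))
    (hne : H₁ ≠ H) : ∃ k, IsPGroup q ↥(H₁.lowerCentralSeries k) := by
  obtain ⟨k, m, hkm⟩ := c.hsub H₁ hH₁ hAH₁ hne
  refine ⟨k, ?_⟩
  have h1 := c.qgroup_of_lcs (V ⊔ H₁) (sup_le le_sup_left (hH₁.trans le_sup_right)) le_sup_left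
    k m hkm
  exact h1.to_le (lcs_mono le_sup_right k)

/-- `q`-subgroups of `H` normalized by `H` and `A` are trivial. -/
theorem NQ (Q : Subgroup X) (hQH : Q ≤ H) (hQ : IsPGroup q Q)
    (hHQ : H ≤ Subgroup.normalizer (Q : Set X)) (hAQ : A ≤ Subgroup.normalizer (Q : Set X)) :
    Q = ⊥ := by
  have hQV : Q ≤ Subgroup.normalizer (V : Set X) := hQH.trans c.hHV
  rcases c.hirr (V ⊓ Subgroup.centralizer (Q : Set X)) inf_le_left
    (fun g hg => normalizer_inf_centralizer V Q g (c.hHV hg) (hHQ hg))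
    (fun g hg => normalizer_inf_centralizer V Q g (c.hAV hg) (hAQ hg)) with h | h
  · exfalso
    exact c.hVne (eq_bot_of_pgroup_fixed q c.hq V Q c.hVq hQ hQV h)
  · have h1 : V ≤ Subgroup.centralizer (Q : Set X) := inf_eq_left.mp h
    rw [eq_bot_iff, ← c.hfaith]
    exact le_inf hQH (Subgroup.le_centralizer_iff.mp h1)

/-- Coprime commutators with an `r`-group (`r ≠ q`) in a proper `A`-invariant subgroup vanish. -/
theorem comm_bot_of_proper (H₁ : Subgroup X) (hH₁ : H₁ ≤ H)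
    (hAH₁ : A ≤ Subgroup.normalizer (H₁ : Set X)) (hne : H₁ ≠ H) (P Q : Subgroup X)
    (hP : P ≤ H₁) (hQ : Q ≤ H₁) (hQP : Q ≤ Subgroup.normalizer (P : Set X))
    (hcop : (Nat.card Q).Coprime (Nat.card P))
    (hsolv : Group.IsSolvable Q ∨ Group.IsSolvable P) (r : ℕ) (hr : r.Prime) (hqr : q ≠ r)
    (hPr : IsPGroup r P) : ⁅P, Q⁆ = ⊥ := by
  obtain ⟨k, hk⟩ := c.QN H₁ hH₁ hAH₁ hne
  have h1 : ⁅P, Q⁆ ≤ H₁.lowerCentralSeries k := commutator_le_lcs H₁ P Q hP hQ hQP hcop hsolv k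
  have h2 : ⁅P, Q⁆ ≤ P := Cfsg.Agent.H1.commutator_le_of_le_normalizer Q P hQP
  exact pq_bot q r c.hq hr hqr _ (hk.to_le h1) (hPr.to_le h2)

/-- Proper normal `A`-invariant subgroups of `H` are nilpotent. -/
theorem nilp_of_normal (H₁ : Subgroup X) (hH₁ : H₁ ≤ H)
    (hHH₁ : H ≤ Subgroup.normalizer (H₁ : Set X))
    (hAH₁ : A ≤ Subgroup.normalizer (H₁ : Set X)) (hne : H₁ ≠ H) :
    ∃ k, H₁.lowerCentralSeries k = ⊥ := by
  obtain ⟨k, hk⟩ := c.QN H₁ hH₁ hAH₁ hne
  refine ⟨k, c.NQ _ ((lcs_le H₁ k).trans hH₁) hk ?_ ?_⟩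
  · intro g hg; exact lcs_normalizer H₁ g (hHH₁ hg) k
  · intro g hg; exact lcs_normalizer H₁ g (hAH₁ hg) k

/-- The key step: Sylow subgroups of the derived group commute with `A`-invariant Sylow
subgroups of `H` for other primes. -/
theorem key (hH : H ≠ ⊥) (r s : ℕ) [hr : Fact r.Prime] [hs : Fact s.Prime] (hrs : r ≠ s)
    (Pr : Sylow r ↥⁅H, H⁆) (Ps : Sylow s H)
    (hAS : A ≤ Subgroup.normalizer ((((Ps : Subgroup H).map H.subtype : Subgroup X)) : Set X)) :
    ⁅(Pr : Subgroup ↥⁅H, H⁆).map (⁅H, H⁆ : Subgroup X).subtype,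
      (Ps : Subgroup H).map H.subtype⁆ = ⊥ := by
  haveI := c.hHs
  haveI : Fact q.Prime := ⟨c.hq⟩
  have hDlt : ⁅H, H⁆ < H := Cfsg.Agent.H1.commutator_lt_of_isSolvable H hH
  have hHD : H ≤ Subgroup.normalizer ((⁅H, H⁆ : Subgroup X) : Set X) :=
    fun g hg => normalizer_commutator H H g (Subgroup.le_normalizer hg) (Subgroup.le_normalizer hg)
  have hAD : A ≤ Subgroup.normalizer ((⁅H, H⁆ : Subgroup X) : Set X) :=
    fun g hg => normalizer_commutator H H g (c.hAH hg) (c.hAH hg)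
  obtain ⟨k, hk⟩ := c.nilp_of_normal ⁅H, H⁆ hDlt.le hHD hAD hDlt.ne
  have hDn := nilpotent_sylow_normal ⁅H, H⁆ k hk r Pr
  have hHR := fun g hg => sylow_normalizer r ⁅H, H⁆ Pr hDn g (hHD hg)
  have hAR := fun g hg => sylow_normalizer r ⁅H, H⁆ Pr hDn g (hAD hg)
  obtain ⟨R, hR⟩ : ∃ R : Subgroup X,
      R = (Pr : Subgroup ↥⁅H, H⁆).map (⁅H, H⁆ : Subgroup X).subtype := ⟨_, rfl⟩
  obtain ⟨S, hS⟩ : ∃ S : Subgroup X, S = (Ps : Subgroup H).map H.subtype := ⟨_, rfl⟩
  rw [← hR] at hHR hAR ⊢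
  rw [← hS] at hAS ⊢
  have hRD : R ≤ ⁅H, H⁆ := hR ▸ Subgroup.map_subtype_le _
  have hRH : R ≤ H := hRD.trans hDlt.le
  have hSH : S ≤ H := hS ▸ Subgroup.map_subtype_le _
  have hRp : IsPGroup r R := hR ▸ Pr.isPGroup'.map _
  have hSp : IsPGroup s S := hS ▸ Ps.isPGroup'.map _
  have hSR : S ≤ Subgroup.normalizer (R : Set X) := fun g hg => hHR g (hSH hg)
  by_contra hne
  have hqr : q ≠ r := by
    intro h
    apply hne
    have h1 : R = ⊥ := c.NQ R hRH (h ▸ hRp) (fun g hg => hHR g hg) (fun g hg => hAR g hg)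
    rw [h1, Subgroup.commutator_bot_left]
  have hcopSR : (Nat.card S).Coprime (Nat.card R) :=
    IsPGroup.coprime_card_of_ne s r (Ne.symm hrs) S R hSp hRp
  have hsolvR : Group.IsSolvable R := solvable_of_pgroup r hr.out R hRp
  have hsolvS : Group.IsSolvable S := solvable_of_pgroup s hs.out S hSp
  have hARS : A ≤ Subgroup.normalizer ((R ⊔ S : Subgroup X) : Set X) :=
    Cfsg.Agent.H1.le_normalizer_sup A R S (fun g hg => hAR g hg) hAS
  have hHeq : R ⊔ S = H := by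
    by_contra hne'
    exact hne (c.comm_bot_of_proper (R ⊔ S) (sup_le hRH hSH) hARS hne' R S le_sup_left
      le_sup_right hSR hcopSR (Or.inl hsolvS) r hr.out hqr hRp)
  have hcardH : Nat.card H = Nat.card S * Nat.card R := by
    rw [← hHeq, sup_comm]
    exact Cfsg.Agent.H1.card_sup_of_le_normalizer S R hSR
      ((Subgroup.disjoint_of_coprime_natCard hcopSR).eq_bot)
  have hAVH : A ≤ Subgroup.normalizer ((V ⊔ H : Subgroup X) : Set X) :=
    Cfsg.Agent.H1.le_normalizer_sup A V H c.hAV c.hAH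
  have hcent : ∀ a ∈ A, a ≠ 1 → ∀ P Q : Subgroup X, P ≤ V ⊔ H → Q ≤ V ⊔ H →
      Q ≤ Subgroup.normalizer (P : Set X) → (Nat.card Q).Coprime (Nat.card P) →
      ∀ l : ℕ, l.Prime → IsPGroup l Q →
      P ⊓ Subgroup.centralizer {a} ≤
        Subgroup.centralizer ((Q ⊓ Subgroup.centralizer {a} : Subgroup X) : Set X) := by
    intro a ha ha1 P Q hP hQ hQP hcop l hl hQl
    obtain ⟨m, hm⟩ := cent_nilpotent c.hA (V ⊔ H) hAVH c.VH_fix a ha ha1
    have h1 := commutator_eq_bot_of_lcs ((V ⊔ H) ⊓ Subgroup.centralizer {a})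
      (P ⊓ Subgroup.centralizer {a}) (Q ⊓ Subgroup.centralizer {a})
      (inf_le_inf_right _ hP) (inf_le_inf_right _ hQ)
      (fun g hg => Subgroup.inf_normalizer_le_normalizer_inf
        ⟨hQP hg.1, Subgroup.le_normalizer hg.2⟩)
      (cop_of_le hcop inf_le_left inf_le_left)
      (Or.inl (solvable_of_pgroup l hl _ (hQl.to_le inf_le_left))) m hm
    exact Subgroup.commutator_eq_bot_iff_le_centralizer.mp h1
  have hcopRV : (Nat.card R).Coprime (Nat.card V) :=
    IsPGroup.coprime_card_of_ne r q (Ne.symm hqr) R V hRp c.hVq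
  have hc : Cfg p q r s V R S A :=
    { hq := c.hq
      hr := hr.out
      hs := hs.out
      hA := c.hA
      hVc := c.hVc
      hVe := c.hVe
      hRV := hRH.trans c.hHV
      hSV := hSH.trans c.hHV
      hAV := c.hAV
      hSR := hSR
      hAR := fun g hg => hAR g hg
      hAS := hAS
      hR := hRp
      hS := hSp
      hqr := hqr
      hrs := hrs
      hfaith := by rw [hHeq]; exact c.hfaith
      hfV := c.hfV
      hfR := by rw [eq_bot_iff, ← c.hfH]; exact inf_le_inf_right _ hRH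
      hfS := by rw [eq_bot_iff, ← c.hfH]; exact inf_le_inf_right _ hSH
      hRS := fun a ha ha1 => hcent a ha ha1 R S (hRH.trans le_sup_right) (hSH.trans le_sup_right)
        hSR hcopSR s hs.out hSp
      hVR := fun a ha ha1 => hcent a ha ha1 V R le_sup_left (hRH.trans le_sup_right)
        (hRH.trans c.hHV) hcopRV r hr.out hRp
      hVS := fun hsq a ha ha1 => hcent a ha ha1 V S le_sup_left (hSH.trans le_sup_right)
        (hSH.trans c.hHV) (IsPGroup.coprime_card_of_ne s q hsq S V hSp c.hVq) s hs.out hSp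
      hirr := fun V₁ hV₁ hRV₁ hSV₁ hAV₁ =>
        c.hirr V₁ hV₁ (by rw [← hHeq]; exact sup_le hRV₁ hSV₁) hAV₁
      hmin := by
        intro R₁ S₁ hR₁ hS₁ hAR₁ hAS₁ hS₁R₁ hor
        have hcop₁ : (Nat.card S₁).Coprime (Nat.card R₁) := cop_of_le hcopSR hS₁ hR₁
        have hcard₁ : Nat.card ↥(S₁ ⊔ R₁) = Nat.card S₁ * Nat.card R₁ :=
          Cfsg.Agent.H1.card_sup_of_le_normalizer S₁ R₁ hS₁R₁
            ((Subgroup.disjoint_of_coprime_natCard hcop₁).eq_bot)
        have hne₁ : R₁ ⊔ S₁ ≠ H := by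
          intro heq
          rw [sup_comm] at heq
          rw [heq, hcardH] at hcard₁
          have h1 : Nat.card S₁ ≤ Nat.card S := Subgroup.card_le_of_le hS₁
          have h2 : Nat.card R₁ ≤ Nat.card R := Subgroup.card_le_of_le hR₁
          have h3 : 0 < Nat.card S₁ := Nat.card_pos
          have h4 : 0 < Nat.card R₁ := Nat.card_pos
          rcases hor with h | h
          · apply h
            apply Subgroup.eq_of_le_of_card_ge hR₁
            by_contra hlt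
            push Not at hlt
            have : Nat.card S₁ * Nat.card R₁ < Nat.card S * Nat.card R := by nlinarith
            omega
          · apply h
            apply Subgroup.eq_of_le_of_card_ge hS₁
            by_contra hlt
            push Not at hlt
            have : Nat.card S₁ * Nat.card R₁ < Nat.card S * Nat.card R := by nlinarith
            omega
        exact c.comm_bot_of_proper (R₁ ⊔ S₁) (sup_le (hR₁.trans hRH) (hS₁.trans hSH))
          (Cfsg.Agent.H1.le_normalizer_sup A R₁ S₁ hAR₁ hAS₁) hne₁ R₁ S₁ le_sup_left le_sup_right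
          hS₁R₁ hcop₁ (Or.inl (solvable_of_pgroup s hs.out S₁ (hSp.to_le hS₁))) r hr.out hqr
          (hRp.to_le hR₁)
      hne := hne }
  exact hc.false

/-- `A`-invariant Sylow subgroups of `H` are normal. -/
theorem sylow_normal (hH : H ≠ ⊥) (s : ℕ) [hs : Fact s.Prime] (Ps : Sylow s H)
    (hAS : A ≤ Subgroup.normalizer ((((Ps : Subgroup H).map H.subtype : Subgroup X)) : Set X)) :
    H ≤ Subgroup.normalizer ((((Ps : Subgroup H).map H.subtype : Subgroup X)) : Set X) := by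
  haveI := c.hHs
  have hDlt : ⁅H, H⁆ < H := Cfsg.Agent.H1.commutator_lt_of_isSolvable H hH
  have hHD : H ≤ Subgroup.normalizer ((⁅H, H⁆ : Subgroup X) : Set X) :=
    fun g hg => normalizer_commutator H H g (Subgroup.le_normalizer hg) (Subgroup.le_normalizer hg)
  have hAD : A ≤ Subgroup.normalizer ((⁅H, H⁆ : Subgroup X) : Set X) :=
    fun g hg => normalizer_commutator H H g (c.hAH hg) (c.hAH hg)
  obtain ⟨k, hk⟩ := c.nilp_of_normal ⁅H, H⁆ hDlt.le hHD hAD hDlt.ne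
  have hkey := c.key hH
  have hle := le_sylow_of_normalizes s H Ps
  have hDS : ⁅H, H⁆ ≤
      Subgroup.normalizer ((((Ps : Subgroup H).map H.subtype : Subgroup X)) : Set X) := by
    have h1 : ∀ r : Nat.Primes,
        ((Classical.arbitrary (Sylow (r : ℕ) ↥⁅H, H⁆)) : Subgroup ↥⁅H, H⁆) ≤
        (Subgroup.normalizer
          ((((Ps : Subgroup H).map H.subtype : Subgroup X)) : Set X)).subgroupOf ⁅H, H⁆ := by
      intro r
      haveI : Fact (r : ℕ).Prime := ⟨r.2⟩
      intro x hx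
      rw [Subgroup.mem_subgroupOf]
      have hx' : (x : X) ∈ ((Classical.arbitrary (Sylow (r : ℕ) ↥⁅H, H⁆)) :
          Subgroup ↥⁅H, H⁆).map (⁅H, H⁆ : Subgroup X).subtype := ⟨x, hx, rfl⟩
      by_cases hrs : (r : ℕ) = s
      · have hDn := nilpotent_sylow_normal ⁅H, H⁆ k hk (r : ℕ) (Classical.arbitrary _)
        have hHR := fun g hg => sylow_normalizer (r : ℕ) ⁅H, H⁆ (Classical.arbitrary _) hDn g
          (hHD hg)
        have hRp : IsPGroup s ↥(((Classical.arbitrary (Sylow (r : ℕ) ↥⁅H, H⁆)) :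
            Subgroup ↥⁅H, H⁆).map (⁅H, H⁆ : Subgroup X).subtype) :=
          hrs ▸ (Classical.arbitrary (Sylow (r : ℕ) ↥⁅H, H⁆)).isPGroup'.map _
        have h2 := Cfsg.Agent.H1.normal_pgroup_le_sylow_map s H _
          ((Subgroup.map_subtype_le _).trans hDlt.le) hRp (fun g hg => hHR g hg) Ps
        exact Subgroup.le_normalizer (h2 hx')
      · have h2 := hkey (r : ℕ) s hrs (Classical.arbitrary _) Ps hAS
        have h3 := Subgroup.commutator_eq_bot_iff_le_centralizer.mp h2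
        exact Subgroup.centralizer_le_normalizer _ (h3 hx')
    have h2 := Cfsg.Agent.H1.iSup_sylow_eq_top (G := ↥⁅H, H⁆)
      (fun r => Classical.arbitrary (Sylow (r : ℕ) ↥⁅H, H⁆))
    intro d hd
    have h3 : (⟨d, hd⟩ : ↥⁅H, H⁆) ∈ (⨆ r : Nat.Primes,
        ((Classical.arbitrary (Sylow (r : ℕ) ↥⁅H, H⁆)) : Subgroup ↥⁅H, H⁆)) := by
      rw [h2]; exact Subgroup.mem_top _
    have h4 := (iSup_le h1) h3
    exact Subgroup.mem_subgroupOf.mp h4
  obtain ⟨S, hS⟩ : ∃ S : Subgroup X, S = (Ps : Subgroup H).map H.subtype := ⟨_, rfl⟩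
  rw [← hS] at hDS hle ⊢
  have hSH : S ≤ H := hS ▸ Subgroup.map_subtype_le _
  have hSp : IsPGroup s S := hS ▸ Ps.isPGroup'.map _
  intro h hh
  apply mem_normalizer_of_conj
  intro t ht
  have hQ : IsPGroup s (S.map (MulAut.conj h).toMonoidHom) := hSp.map _
  have hQH : S.map (MulAut.conj h).toMonoidHom ≤ H := by
    rintro _ ⟨y, hy, rfl⟩
    exact H.mul_mem (H.mul_mem hh (hSH hy)) (H.inv_mem hh)
  have hQn : S.map (MulAut.conj h).toMonoidHom ≤ Subgroup.normalizer (S : Set X) := by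
    rintro _ ⟨y, hy, rfl⟩
    have h1 : h * y * h⁻¹ * y⁻¹ ∈ ⁅H, H⁆ := Subgroup.commutator_mem_commutator hh (hSH hy)
    have h2 := Subgroup.mul_mem _ (hDS h1) (Subgroup.le_normalizer hy)
    have e : h * y * h⁻¹ * y⁻¹ * y = h * y * h⁻¹ := by group
    rw [e] at h2; exact h2
  exact hle _ hQH hQ hQn ⟨t, ht, rfl⟩

/-- In the split situation, `H` is nilpotent. -/
theorem nilpotent : ∃ k, H.lowerCentralSeries k = ⊥ := by
  by_cases hH : H = ⊥
  · exact ⟨0, hH⟩
  haveI := c.hHs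
  have hnil : Group.IsNilpotent H := by
    apply ((Group.isNilpotent_of_finite_tfae (G := H)).out 3 0 rfl rfl).mp
    intro s hs P
    obtain ⟨P₀, hP₀⟩ := Cfsg.Agent.H1.coprime_exists_invariant_sylow A H c.hAH c.copAH
      (Or.inr c.hHs) s
    have hn := c.sylow_normal hH s P₀ hP₀
    have hnorm : (P₀ : Subgroup H).Normal := by
      constructor
      intro n hn' g
      have h1 := conj_mem_of_mem_normalizer (hn g.2) (Subgroup.mem_map_of_mem H.subtype hn')
      obtain ⟨y, hy, hy'⟩ := h1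
      have h2 : y = g * n * g⁻¹ := Subtype.ext (by simpa using hy')
      rw [← h2]; exact hy
    obtain ⟨g, hg⟩ := MulAction.exists_smul_eq H P₀ P
    rw [Sylow.smul_eq_of_normal] at hg
    rw [← hg]; exact hnorm
  exact (Subgroup.isNilpotent_iff_lowerCentralSeries H).mp hnil

end Split

end Cfsg.Agent.H58.Ward
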