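import Mathlib
import Cfsg.Agent.H58.WardRed

/-!
# Ward's theorem: the holomorph of a normal abelian subgroup

For `N ≤ X`, the normalizer of `N` maps into the holomorph `N ⋊ Aut N`; the image of a subgroup
`G` normalizing `N` is `G / C_G(N)`, acting faithfully on the copy of `N`.
-/

set_option autoImplicit false
set_option linter.style.haveILetI false
set_option linter.unusedVariables false
set_option linter.unusedSectionVars false

namespace Cfsg.Agent.H58.Ward

open Cfsg.Agent.H58.FrobAct Cfsg.Agent.H58.FrobQuot Cfsg.Agent.H58.FrobWielandt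
open scoped commutatorElement

universe u

variable {X : Type u} [Group X]

/-- `subgroupOf` commutes with the lower central series. -/
theorem subgroupOf_lcs (M Y : Subgroup X) (hY : Y ≤ M) (k : ℕ) :
    (Y.lowerCentralSeries k).subgroupOf M = (Y.subgroupOf M).lowerCentralSeries k := by
  have h1 : ((Y.subgroupOf M).lowerCentralSeries k).map M.subtype = Y.lowerCentralSeries k := by
    rw [Subgroup.map_lowerCentralSeries, Subgroup.subgroupOf_map_subtype, inf_eq_left.mpr hY]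
  rw [← h1]
  exact Subgroup.comap_map_eq_self_of_injective M.subtype_injective _

/-- Images of subgroups of `M` under a homomorphism commute with the lower central series. -/
theorem map_subgroupOf_lcs (M Y : Subgroup X) (hY : Y ≤ M) {Z : Type*} [Group Z] (f : ↥M →* Z)
    (k : ℕ) :
    ((Y.lowerCentralSeries k).subgroupOf M).map f =
      ((Y.subgroupOf M).map f).lowerCentralSeries k := by
  rw [subgroupOf_lcs M Y hY k, Subgroup.map_lowerCentralSeries]

/-- `V H` is solvable when `V`, `H` are and `H` normalizes `V`. -/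
theorem solvable_sup {V H : Subgroup X} (hn : H ≤ Subgroup.normalizer (V : Set X))
    (hV : Group.IsSolvable ↥V) (hH : Group.IsSolvable ↥H) : Group.IsSolvable ↥(V ⊔ H) := by
  have hN : (V.subgroupOf (V ⊔ H)).Normal :=
    (Subgroup.normal_subgroupOf_iff_le_normalizer le_sup_left).mpr
      (sup_le Subgroup.le_normalizer hn)
  have hNs : Group.IsSolvable ↥(V.subgroupOf (V ⊔ H)) :=
    Group.isSolvable_of_isSolvable_injective
      (f := (Subgroup.subgroupOfEquivOfLe (le_sup_left : V ≤ V ⊔ H)).toMonoidHom)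
      (Subgroup.subgroupOfEquivOfLe (le_sup_left : V ≤ V ⊔ H)).injective
  let φ : ↥H →* ↥(V ⊔ H) ⧸ V.subgroupOf (V ⊔ H) :=
    (QuotientGroup.mk' (V.subgroupOf (V ⊔ H))).comp (Subgroup.inclusion (le_sup_right : H ≤ V ⊔ H))
  have hφ : Function.Surjective φ := by
    intro q
    obtain ⟨⟨u, hu⟩, rfl⟩ := QuotientGroup.mk'_surjective _ q
    obtain ⟨x, hx, y, hy, rfl⟩ := mem_sup_of_norm hn hu
    refine ⟨⟨y, hy⟩, ?_⟩
    show QuotientGroup.mk' (V.subgroupOf (V ⊔ H)) (Subgroup.inclusion le_sup_right ⟨y, hy⟩) =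
      QuotientGroup.mk' (V.subgroupOf (V ⊔ H)) ⟨x * y, hu⟩
    rw [QuotientGroup.mk'_apply, QuotientGroup.mk'_apply, QuotientGroup.eq]
    rw [Subgroup.mem_subgroupOf]
    have : (((Subgroup.inclusion (le_sup_right : H ≤ V ⊔ H) ⟨y, hy⟩)⁻¹ *
        (⟨x * y, hu⟩ : ↥(V ⊔ H)) : ↥(V ⊔ H)) : X) = y⁻¹ * x * y⁻¹⁻¹ := by
      simp only [Subgroup.coe_mul, Subgroup.coe_inv, Subgroup.coe_inclusion]
      group
    rw [this]
    exact (Subgroup.mem_normalizer_iff.mp (hn (H.inv_mem hy)) x).mp hx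
  have hQs : Group.IsSolvable (↥(V ⊔ H) ⧸ V.subgroupOf (V ⊔ H)) :=
    Group.isSolvable_of_surjective hφ
  exact Group.isSolvable_of_ker_le_range (V.subgroupOf (V ⊔ H)).subtype
    (QuotientGroup.mk' (V.subgroupOf (V ⊔ H))) (by simp)

/-- Fixed points of `A` on a split extension `V H`. -/
theorem sup_fix [Finite X] (V H A : Subgroup X) (hVc : ∀ a ∈ V, ∀ b ∈ V, a * b = b * a)
    (hHV : H ≤ Subgroup.normalizer (V : Set X)) (hAV : A ≤ Subgroup.normalizer (V : Set X))
    (hAH : A ≤ Subgroup.normalizer (H : Set X))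
    (hfaith : H ⊓ Subgroup.centralizer (V : Set X) = ⊥)
    (hfV : V ⊓ Subgroup.centralizer (A : Set X) = ⊥)
    (hfH : H ⊓ Subgroup.centralizer (A : Set X) = ⊥) :
    (V ⊔ H) ⊓ Subgroup.centralizer (A : Set X) = ⊥ := by
  have hVcent : V ≤ Subgroup.centralizer (V : Set X) := by
    intro v hv
    rw [Subgroup.mem_centralizer_iff]
    intro w hw
    exact hVc w hw v hv
  rw [eq_bot_iff]
  intro x hx
  obtain ⟨v, hv, h, hh, rfl⟩ := mem_sup_of_norm hHV hx.1
  have hkey : ∀ a ∈ A, a * v * a⁻¹ = v ∧ a * h * a⁻¹ = h := by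
    intro a ha
    have h1 : a * (v * h) = (v * h) * a := (Subgroup.mem_centralizer_iff.mp hx.2) a ha
    have hv' : a * v * a⁻¹ ∈ V := conj_mem_of_mem_normalizer (hAV ha) hv
    have hh' : a * h * a⁻¹ ∈ H := conj_mem_of_mem_normalizer (hAH ha) hh
    have h2 : (a * v * a⁻¹) * (a * h * a⁻¹) = v * h := by
      calc (a * v * a⁻¹) * (a * h * a⁻¹) = a * (v * h) * a⁻¹ := by group
        _ = v * h := by rw [h1]; group
    have h3 : v⁻¹ * (a * v * a⁻¹) = h * (a * h * a⁻¹)⁻¹ := by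
      calc v⁻¹ * (a * v * a⁻¹) = v⁻¹ * ((a * v * a⁻¹) * (a * h * a⁻¹)) * (a * h * a⁻¹)⁻¹ := by
            group
        _ = h * (a * h * a⁻¹)⁻¹ := by rw [h2]; group
    have h4 : v⁻¹ * (a * v * a⁻¹) ∈ H ⊓ Subgroup.centralizer (V : Set X) := by
      refine Subgroup.mem_inf.mpr ⟨?_, hVcent (V.mul_mem (V.inv_mem hv) hv')⟩
      rw [h3]; exact H.mul_mem hh (H.inv_mem hh')
    rw [hfaith, Subgroup.mem_bot] at h4
    have h5 : a * v * a⁻¹ = v := by
      rw [inv_mul_eq_one] at h4; exact h4.symm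
    refine ⟨h5, ?_⟩
    rw [h5, inv_mul_cancel] at h3
    have h6 : h * (a * h * a⁻¹)⁻¹ = 1 := h3.symm
    rw [mul_inv_eq_one] at h6
    exact h6.symm
  have hv1 : v ∈ V ⊓ Subgroup.centralizer (A : Set X) := by
    refine Subgroup.mem_inf.mpr ⟨hv, ?_⟩
    rw [Subgroup.mem_centralizer_iff]
    intro a ha
    have h1 := (hkey a ha).1
    calc a * v = a * v * a⁻¹ * a := by group
      _ = v * a := by rw [h1]
  have hh1 : h ∈ H ⊓ Subgroup.centralizer (A : Set X) := by
    refine Subgroup.mem_inf.mpr ⟨hh, ?_⟩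
    rw [Subgroup.mem_centralizer_iff]
    intro a ha
    have h1 := (hkey a ha).2
    calc a * h = a * h * a⁻¹ * a := by group
      _ = h * a := by rw [h1]
  rw [hfV, Subgroup.mem_bot] at hv1
  rw [hfH, Subgroup.mem_bot] at hh1
  rw [hv1, hh1, mul_one]
  exact Subgroup.one_mem _

/-- The holomorph of `N`. -/
abbrev HolGrp (N : Subgroup X) : Type u := ↥N ⋊[MonoidHom.id (MulAut ↥N)] MulAut ↥N

instance holFinite [Finite X] (N : Subgroup X) : Finite (HolGrp N) :=
  Finite.of_equiv _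
    (SemidirectProduct.equivProd (N := ↥N) (G := MulAut ↥N) (φ := MonoidHom.id _)).symm

/-- The conjugation map of `N(N)` into the holomorph. -/
def holPsi (N : Subgroup X) : ↥(Subgroup.normalizer (N : Set X)) →* HolGrp N :=
  (SemidirectProduct.inr).comp (conjAut N (Subgroup.normalizer (N : Set X)) le_rfl)

/-- The copy of `N` in the holomorph. -/
def holV (N : Subgroup X) : Subgroup (HolGrp N) :=
  (SemidirectProduct.inl : ↥N →* HolGrp N).range

/-- Image of a subgroup in the holomorph. -/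
def img (N Y : Subgroup X) : Subgroup (HolGrp N) :=
  (Y.subgroupOf (Subgroup.normalizer (N : Set X))).map (holPsi N)

theorem mem_img {N Y : Subgroup X} (hY : Y ≤ Subgroup.normalizer (N : Set X)) (x : HolGrp N) :
    x ∈ img N Y ↔ ∃ y, ∃ hy : y ∈ Y, holPsi N ⟨y, hY hy⟩ = x := by
  constructor
  · rintro ⟨a, ha, rfl⟩
    exact ⟨a, Subgroup.mem_subgroupOf.mp ha, rfl⟩
  · rintro ⟨y, hy, rfl⟩
    exact ⟨⟨y, hY hy⟩, Subgroup.mem_subgroupOf.mpr hy, rfl⟩

theorem psi_mem_img {N Y : Subgroup X} (a : ↥(Subgroup.normalizer (N : Set X)))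
    (ha : (a : X) ∈ Y) : holPsi N a ∈ img N Y :=
  ⟨a, Subgroup.mem_subgroupOf.mpr ha, rfl⟩

theorem holPsi_eq_one_iff (N : Subgroup X) (g : ↥(Subgroup.normalizer (N : Set X))) :
    holPsi N g = 1 ↔ (g : X) ∈ Subgroup.centralizer (N : Set X) := by
  rw [← conjAut_eq_one_iff N (Subgroup.normalizer (N : Set X)) le_rfl g]
  constructor
  · intro h
    exact SemidirectProduct.inr_injective (h.trans (map_one _).symm)
  · intro h
    show SemidirectProduct.inr (conjAut N (Subgroup.normalizer (N : Set X)) le_rfl g) = 1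
    rw [h, map_one]

theorem holPsi_conj (N : Subgroup X) (g : ↥(Subgroup.normalizer (N : Set X))) (n : ↥N) :
    holPsi N g * SemidirectProduct.inl n * (holPsi N g)⁻¹ =
      SemidirectProduct.inl (conjAut N (Subgroup.normalizer (N : Set X)) le_rfl g n) := by
  have h := SemidirectProduct.inl_aut (φ := MonoidHom.id (MulAut ↥N))
    (conjAut N (Subgroup.normalizer (N : Set X)) le_rfl g) n
  rw [map_inv] at h
  exact h.symm

theorem holV_normal (N : Subgroup X) : (holV N).Normal := by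
  unfold holV
  rw [SemidirectProduct.range_inl_eq_ker_rightHom]
  infer_instance

theorem le_normalizer_holV (N : Subgroup X) (Y : Subgroup (HolGrp N)) :
    Y ≤ Subgroup.normalizer ((holV N : Subgroup (HolGrp N)) : Set (HolGrp N)) := by
  haveI := holV_normal N
  rw [Subgroup.normalizer_eq_top]
  exact le_top

theorem holV_comm (N : Subgroup X) (hN : ∀ a ∈ N, ∀ b ∈ N, a * b = b * a) :
    ∀ a ∈ holV N, ∀ b ∈ holV N, a * b = b * a := by
  rintro _ ⟨a, rfl⟩ _ ⟨b, rfl⟩
  rw [← map_mul, ← map_mul]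
  congr 1
  exact Subtype.ext (hN a a.2 b b.2)

theorem holV_exp (N : Subgroup X) (q : ℕ) (hN : ∀ a ∈ N, a ^ q = 1) :
    ∀ v ∈ holV N, v ^ q = 1 := by
  rintro _ ⟨a, rfl⟩
  rw [← map_pow]
  have h : a ^ q = 1 := Subtype.ext (by rw [Subgroup.coe_pow]; exact hN a a.2)
  rw [h, map_one]

theorem holV_ne_bot (N : Subgroup X) (hN : N ≠ ⊥) : holV N ≠ ⊥ := by
  intro h
  apply hN
  rw [eq_bot_iff]
  intro x hx
  have h1 : (SemidirectProduct.inl ⟨x, hx⟩ : HolGrp N) ∈ holV N := ⟨_, rfl⟩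
  rw [h, Subgroup.mem_bot] at h1
  have h2 : (⟨x, hx⟩ : N) = 1 := SemidirectProduct.inl_injective (h1.trans (map_one _).symm)
  exact Subgroup.mem_bot.mpr (congrArg Subtype.val h2)

theorem card_holV (N : Subgroup X) : Nat.card (holV N) = Nat.card N :=
  (Nat.card_congr (MonoidHom.ofInjective
    (SemidirectProduct.inl_injective (N := ↥N) (G := MulAut ↥N)
      (φ := MonoidHom.id _))).toEquiv).symm

theorem img_mono (N : Subgroup X) {Y Z : Subgroup X} (h : Y ≤ Z) : img N Y ≤ img N Z := by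
  rintro _ ⟨a, ha, rfl⟩
  exact ⟨a, Subgroup.mem_subgroupOf.mpr (h (Subgroup.mem_subgroupOf.mp ha)), rfl⟩

theorem img_normalizer [Finite X] {N Y Z : Subgroup X}
    (hY : Y ≤ Subgroup.normalizer (N : Set X))
    (hZ : Z ≤ Subgroup.normalizer (N : Set X)) (h : Y ≤ Subgroup.normalizer (Z : Set X)) :
    img N Y ≤ Subgroup.normalizer ((img N Z : Subgroup (HolGrp N)) : Set (HolGrp N)) := by
  intro y hy
  obtain ⟨y₀, hy₀, rfl⟩ := (mem_img hY _).mp hy
  apply mem_normalizer_of_conj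
  intro z hz
  obtain ⟨z₀, hz₀, rfl⟩ := (mem_img hZ _).mp hz
  rw [← map_mul, ← map_inv, ← map_mul]
  apply psi_mem_img
  exact conj_mem_of_mem_normalizer (h hy₀) hz₀

theorem img_solvable {N Y : Subgroup X} (hYs : Group.IsSolvable Y) :
    Group.IsSolvable (img N Y) := by
  have hg : Function.Surjective
      ((holPsi N).subgroupMap (Y.subgroupOf (Subgroup.normalizer (N : Set X)))) :=
    (holPsi N).subgroupMap_surjective _
  haveI : Group.IsSolvable ↥(Y.subgroupOf (Subgroup.normalizer (N : Set X))) := by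
    apply Group.isSolvable_of_isSolvable_injective
      (f := ((Subgroup.normalizer (N : Set X)).subtype.subgroupComap Y))
    intro a b hab
    have h1 : ((a : ↥(Subgroup.normalizer (N : Set X))) : X) = b :=
      congrArg (fun t : ↥Y => (t : X)) hab
    exact Subtype.ext (Subtype.ext h1)
  exact Group.isSolvable_of_surjective hg

theorem img_comm {N Y : Subgroup X} (hY : Y ≤ Subgroup.normalizer (N : Set X))
    (hc : ∀ a ∈ Y, ∀ b ∈ Y, a * b = b * a) : ∀ a ∈ img N Y, ∀ b ∈ img N Y, a * b = b * a := by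
  intro a ha b hb
  obtain ⟨a₀, ha₀, rfl⟩ := (mem_img hY _).mp ha
  obtain ⟨b₀, hb₀, rfl⟩ := (mem_img hY _).mp hb
  rw [← map_mul, ← map_mul]
  congr 1
  exact Subtype.ext (hc a₀ ha₀ b₀ hb₀)

theorem img_exp {N Y : Subgroup X} (hY : Y ≤ Subgroup.normalizer (N : Set X)) (p : ℕ)
    (he : ∀ a ∈ Y, a ^ p = 1) : ∀ a ∈ img N Y, a ^ p = 1 := by
  intro a ha
  obtain ⟨a₀, ha₀, rfl⟩ := (mem_img hY _).mp ha
  rw [← map_pow]
  have h : (⟨a₀, hY ha₀⟩ : ↥(Subgroup.normalizer (N : Set X))) ^ p = 1 :=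
    Subtype.ext (by rw [Subgroup.coe_pow]; exact he a₀ ha₀)
  rw [h, map_one]

theorem img_faithful (N Y : Subgroup X) :
    img N Y ⊓ Subgroup.centralizer ((holV N : Subgroup (HolGrp N)) : Set (HolGrp N)) = ⊥ := by
  rw [eq_bot_iff]
  intro x hx
  obtain ⟨hx1, hx2⟩ := Subgroup.mem_inf.mp hx
  obtain ⟨g, hg, rfl⟩ := hx1
  rw [Subgroup.mem_bot, holPsi_eq_one_iff, Subgroup.mem_centralizer_iff]
  intro n hn
  have h1 := (Subgroup.mem_centralizer_iff.mp hx2) (SemidirectProduct.inl ⟨n, hn⟩) ⟨_, rfl⟩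
  have h2 : holPsi N g * SemidirectProduct.inl ⟨n, hn⟩ * (holPsi N g)⁻¹ =
      SemidirectProduct.inl ⟨n, hn⟩ := by
    rw [← h1]; group
  rw [holPsi_conj] at h2
  have h3 := SemidirectProduct.inl_injective h2
  have h4 : (g : X) * n * (g : X)⁻¹ = n := congrArg Subtype.val h3
  calc n * (g : X) = (g * n * (g : X)⁻¹) * g := by rw [h4]
    _ = g * n := by group

theorem card_img [Finite X] {N Y : Subgroup X} (hY : Y ≤ Subgroup.normalizer (N : Set X)) :
    Nat.card (img N Y) * Nat.card ↥(Y ⊓ Subgroup.centralizer (N : Set X)) = Nat.card Y := by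
  obtain ⟨f, hf⟩ : ∃ f : ↥Y →* HolGrp N, f = (holPsi N).comp (Subgroup.inclusion hY) := ⟨_, rfl⟩
  have hrange : f.range = img N Y := by
    ext x
    rw [mem_img hY]
    constructor
    · rintro ⟨y, rfl⟩
      exact ⟨y.1, y.2, by rw [hf]; rfl⟩
    · rintro ⟨y, hy, rfl⟩
      exact ⟨⟨y, hy⟩, by rw [hf]; rfl⟩
  have hfy : ∀ y : Y, f y = holPsi N ⟨y, hY y.2⟩ := by
    intro y; rw [hf]; rfl
  have hker : Nat.card f.ker = Nat.card ↥(Y ⊓ Subgroup.centralizer (N : Set X)) := by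
    apply Nat.card_congr
    exact
      { toFun := fun y => ⟨y.1.1, Subgroup.mem_inf.mpr ⟨y.1.2,
          (holPsi_eq_one_iff N _).mp ((hfy y.1).symm.trans y.2)⟩⟩
        invFun := fun y => ⟨⟨y.1, (Subgroup.mem_inf.mp y.2).1⟩, by
          show f _ = 1
          rw [hfy]
          exact (holPsi_eq_one_iff N _).mpr (Subgroup.mem_inf.mp y.2).2⟩
        left_inv := fun y => rfl
        right_inv := fun y => rfl }
  rw [← hrange, ← hker, ← Subgroup.index_ker f]
  exact Subgroup.index_mul_card f.ker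

theorem img_eq_bot_iff {N Y : Subgroup X} (hY : Y ≤ Subgroup.normalizer (N : Set X)) :
    img N Y = ⊥ ↔ Y ≤ Subgroup.centralizer (N : Set X) := by
  constructor
  · intro h y hy
    have h1 : holPsi N ⟨y, hY hy⟩ ∈ img N Y := psi_mem_img _ hy
    rw [h, Subgroup.mem_bot, holPsi_eq_one_iff] at h1
    exact h1
  · intro h
    rw [eq_bot_iff]
    intro x hx
    obtain ⟨y, hy, rfl⟩ := (mem_img hY _).mp hx
    rw [Subgroup.mem_bot, holPsi_eq_one_iff]
    exact h hy

theorem img_lcs {N Y : Subgroup X} (hY : Y ≤ Subgroup.normalizer (N : Set X)) (k : ℕ) :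
    img N (Y.lowerCentralSeries k) = (img N Y).lowerCentralSeries k :=
  map_subgroupOf_lcs _ Y hY (holPsi N) k

theorem im_lcs {N Y : Subgroup X} (hY : Y ≤ Subgroup.normalizer (N : Set X)) (k : ℕ) :
    im N (Y.lowerCentralSeries k) = (im N Y).lowerCentralSeries k :=
  map_subgroupOf_lcs _ Y hY (secMk N) k

theorem im_eq_bot_iff {N Y : Subgroup X} (hY : Y ≤ Subgroup.normalizer (N : Set X)) :
    im N Y = ⊥ ↔ Y ≤ N := by
  constructor
  · intro h y hy
    have h1 : secMk N ⟨y, hY hy⟩ ∈ im N Y := mk_mem_im _ hy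
    rw [h, Subgroup.mem_bot, secMk_eq_one_iff] at h1
    exact h1
  · intro h
    rw [eq_bot_iff]
    intro x hx
    obtain ⟨y, hy, rfl⟩ := (mem_im hY _).mp hx
    rw [Subgroup.mem_bot, secMk_eq_one_iff]
    exact h hy

/-- `C_V(A) = 1` in the holomorph. -/
theorem holV_fix {N A : Subgroup X} (hA : A ≤ Subgroup.normalizer (N : Set X))
    (h : N ⊓ Subgroup.centralizer (A : Set X) = ⊥) :
    holV N ⊓ Subgroup.centralizer ((img N A : Subgroup (HolGrp N)) : Set (HolGrp N)) = ⊥ := by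
  rw [eq_bot_iff]
  intro x hx
  obtain ⟨hx1, hx2⟩ := Subgroup.mem_inf.mp hx
  obtain ⟨n, rfl⟩ := hx1
  have h1 : (n : X) ∈ N ⊓ Subgroup.centralizer (A : Set X) := by
    refine Subgroup.mem_inf.mpr ⟨n.2, ?_⟩
    rw [Subgroup.mem_centralizer_iff]
    intro a ha
    have h2 := (Subgroup.mem_centralizer_iff.mp hx2) (holPsi N ⟨a, hA ha⟩) (psi_mem_img _ ha)
    have h3 : holPsi N ⟨a, hA ha⟩ * SemidirectProduct.inl n * (holPsi N ⟨a, hA ha⟩)⁻¹ =
        SemidirectProduct.inl n := by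
      rw [h2]; group
    rw [holPsi_conj] at h3
    have h4 := SemidirectProduct.inl_injective h3
    have h5 : a * (n : X) * a⁻¹ = n := congrArg Subtype.val h4
    calc a * (n : X) = a * (n : X) * a⁻¹ * a := by group
      _ = n * a := by rw [h5]
  rw [h, Subgroup.mem_bot] at h1
  have h6 : n = 1 := Subtype.ext h1
  rw [h6, map_one]
  exact Subgroup.one_mem _

/-- `C_{G/C_G(N)}(A) = 1` in the holomorph. -/
theorem img_fix [Finite X] {N G A : Subgroup X} (hG : G ≤ Subgroup.normalizer (N : Set X))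
    (hA : A ≤ Subgroup.normalizer (N : Set X)) (hAG : A ≤ Subgroup.normalizer (G : Set X))
    (hcop : (Nat.card A).Coprime (Nat.card G))
    (hsolv : Group.IsSolvable A ∨ Group.IsSolvable G)
    (hfix : G ⊓ Subgroup.centralizer (A : Set X) = ⊥) :
    img N G ⊓ Subgroup.centralizer ((img N A : Subgroup (HolGrp N)) : Set (HolGrp N)) = ⊥ := by
  rw [eq_bot_iff]
  intro x hx
  obtain ⟨hx1, hx2⟩ := Subgroup.mem_inf.mp hx
  obtain ⟨g, hg, rfl⟩ := (mem_img hG _).mp hx1
  obtain ⟨K, hK⟩ : ∃ K : Subgroup X, K = G ⊓ Subgroup.centralizer (N : Set X) := ⟨_, rfl⟩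
  have hKG : K ≤ G := hK ▸ inf_le_left
  have hGK : G ≤ Subgroup.normalizer (K : Set X) := by
    intro y hy; rw [hK]
    exact normalizer_inf_centralizer G N y (Subgroup.le_normalizer hy) (hG hy)
  have hAK : A ≤ Subgroup.normalizer (K : Set X) := by
    intro y hy; rw [hK]
    exact normalizer_inf_centralizer G N y (hAG hy) (hA hy)
  have hfix' : ∀ a ∈ A, a * g * a⁻¹ * g⁻¹ ∈ K := by
    intro a ha
    have h1 := (Subgroup.mem_centralizer_iff.mp hx2) (holPsi N ⟨a, hA ha⟩) (psi_mem_img _ ha)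
    have hag : a * g * a⁻¹ ∈ G := conj_mem_of_mem_normalizer (hAG ha) hg
    rw [hK]
    refine Subgroup.mem_inf.mpr ⟨G.mul_mem hag (G.inv_mem hg), ?_⟩
    have h2 : holPsi N (⟨a, hA ha⟩ * ⟨g, hG hg⟩ * ⟨a, hA ha⟩⁻¹ * ⟨g, hG hg⟩⁻¹) = 1 := by
      rw [map_mul, map_mul, map_mul, map_inv, map_inv, h1]
      group
    exact (holPsi_eq_one_iff N _).mp h2
  obtain ⟨c, hc, hcK⟩ := Cfsg.Agent.H1.coprime_fixed_points_quotient A G hcop hsolv K hKG hGK hAK
    g hg hfix'
  rw [hfix, Subgroup.mem_bot] at hc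
  rw [hc, mul_one] at hcK
  have h3 : g ∈ K := by
    have := K.inv_mem hcK
    rwa [inv_inv] at this
  rw [Subgroup.mem_bot, holPsi_eq_one_iff]
  exact (hK ▸ h3 : g ∈ G ⊓ Subgroup.centralizer (N : Set X)).2

/-- Irreducibility transfers to the holomorph. -/
theorem holV_irr [Finite X] {N G A : Subgroup X} (hG : G ≤ Subgroup.normalizer (N : Set X))
    (hA : A ≤ Subgroup.normalizer (N : Set X))
    (hmin : ∀ N' : Subgroup X, N' ≤ N → G ≤ Subgroup.normalizer (N' : Set X) →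
      A ≤ Subgroup.normalizer (N' : Set X) → N' = ⊥ ∨ N' = N)
    (V₁ : Subgroup (HolGrp N)) (hV₁ : V₁ ≤ holV N)
    (hGV₁ : img N G ≤ Subgroup.normalizer (V₁ : Set (HolGrp N)))
    (hAV₁ : img N A ≤ Subgroup.normalizer (V₁ : Set (HolGrp N))) :
    V₁ = ⊥ ∨ V₁ = holV N := by
  obtain ⟨N₁, hN₁⟩ : ∃ N₁ : Subgroup X,
      N₁ = (V₁.comap (SemidirectProduct.inl : ↥N →* HolGrp N)).map N.subtype := ⟨_, rfl⟩
  have hN₁N : N₁ ≤ N := hN₁ ▸ Subgroup.map_subtype_le _
  have hmem : ∀ n : ↥N, (n : X) ∈ N₁ ↔ (SemidirectProduct.inl n : HolGrp N) ∈ V₁ := by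
    intro n
    rw [hN₁]
    constructor
    · rintro ⟨n', hn', h⟩
      have : n' = n := Subtype.ext h
      rw [← this]; exact hn'
    · intro h
      exact ⟨n, h, rfl⟩
  have hnorm : ∀ (Y : Subgroup X) (hY : Y ≤ Subgroup.normalizer (N : Set X)),
      img N Y ≤ Subgroup.normalizer (V₁ : Set (HolGrp N)) →
      Y ≤ Subgroup.normalizer (N₁ : Set X) := by
    intro Y hY hYV g hg
    apply mem_normalizer_of_conj
    intro x hx
    have hxN : x ∈ N := hN₁N hx
    have h1 : (SemidirectProduct.inl ⟨x, hxN⟩ : HolGrp N) ∈ V₁ := (hmem ⟨x, hxN⟩).mp hx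
    have h2 := conj_mem_of_mem_normalizer (hYV (psi_mem_img ⟨g, hY hg⟩ hg)) h1
    rw [holPsi_conj] at h2
    exact (hmem _).mpr h2
  rcases hmin N₁ hN₁N (hnorm G hG hGV₁) (hnorm A hA hAV₁) with h | h
  · left
    rw [eq_bot_iff]
    intro v hv
    obtain ⟨n, rfl⟩ := hV₁ hv
    have h1 : (n : X) ∈ N₁ := (hmem n).mpr hv
    rw [h, Subgroup.mem_bot] at h1
    have h2 : n = 1 := Subtype.ext h1
    rw [h2, map_one]
    exact Subgroup.one_mem _
  · right
    apply le_antisymm hV₁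
    rintro _ ⟨n, rfl⟩
    exact (hmem n).mp (h ▸ n.2)

end Cfsg.Agent.H58.Ward
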