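import Mathlib
import Cfsg.Agent.H58.WardHol

/-!
# Ward's theorem: the induction

A finite solvable group with a fixed-point-free elementary abelian group of automorphisms of
order dividing `p²` has a nilpotent term in its lower central series (Fitting height at most 2).
Internal form: `G`, `A` subgroups of an ambient finite group, `A ≤ N(G)`, `C_G(A) = 1`.
-/

set_option autoImplicit false
set_option linter.style.haveILetI false
set_option linter.unusedVariables false
set_option linter.unusedSectionVars false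

namespace Cfsg.Agent.H58.Ward

open Cfsg.Agent.H58.FrobAct Cfsg.Agent.H58.FrobQuot Cfsg.Agent.H58.FrobWielandt
open scoped commutatorElement

universe u

variable {X : Type u} [Group X]

/-- Ward data. -/
structure WD (p : ℕ) (G A : Subgroup X) : Prop where
  hp : p.Prime
  hAG : A ≤ Subgroup.normalizer (G : Set X)
  hGs : Group.IsSolvable G
  comm : ∀ a ∈ A, ∀ b ∈ A, a * b = b * a
  exp : ∀ a ∈ A, a ^ p = 1
  card : Nat.card A ∣ p ^ 2
  hfix : G ⊓ Subgroup.centralizer (A : Set X) = ⊥

/-- Fitting height at most two: some term of the lower central series is nilpotent. -/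
def Meta2 (G : Subgroup X) : Prop :=
  ∃ k m, (G.lowerCentralSeries k).lowerCentralSeries m = ⊥

theorem solvable_of_le {K L : Subgroup X} (h : K ≤ L) (hL : Group.IsSolvable L) :
    Group.IsSolvable K := by
  haveI := hL
  exact Group.isSolvable_of_isSolvable_injective (f := Subgroup.inclusion h)
    (Subgroup.inclusion_injective h)

theorem WD.isPGroup {p : ℕ} {G A : Subgroup X} (h : WD p G A) : IsPGroup p A := by
  obtain ⟨j, hj, hj'⟩ := (Nat.dvd_prime_pow h.hp).mp h.card
  exact IsPGroup.of_card hj'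

theorem WD.cop [Finite X] {p : ℕ} {G A : Subgroup X} (h : WD p G A) :
    (Nat.card A).Coprime (Nat.card G) :=
  coprime_of_fpf p h.hp G A h.isPGroup h.hAG h.hfix

/-- The case where `A` is cyclic: Thompson's theorem. -/
theorem meta2_of_not_sq [Finite X] {p : ℕ} {G A : Subgroup X} (h : WD p G A)
    (hcard : Nat.card A ≠ p ^ 2) : Meta2 G := by
  haveI : Fact p.Prime := ⟨h.hp⟩
  have hcyc : IsCyclic A := by
    obtain ⟨j, hj, hj'⟩ := (Nat.dvd_prime_pow h.hp).mp h.card
    interval_cases j
    · rw [pow_zero] at hj'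
      exact @isCyclic_of_subsingleton _ _ (Finite.card_le_one_iff_subsingleton.mp hj'.le)
    · rw [pow_one] at hj'
      exact isCyclic_of_prime_card hj'
    · exact absurd hj' hcard
  obtain ⟨g, hg⟩ := hcyc.exists_generator
  have hfx : ∀ x ∈ G, (g : X) * x = x * g → x = 1 := by
    intro x hx hgx
    have h1 : x ∈ G ⊓ Subgroup.centralizer (A : Set X) := by
      refine Subgroup.mem_inf.mpr ⟨hx, ?_⟩
      rw [Subgroup.mem_centralizer_iff]
      intro a ha
      obtain ⟨k, hk⟩ := Subgroup.mem_zpowers_iff.mp (hg ⟨a, ha⟩)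
      have h2 : a = (g : X) ^ k := by
        have := congrArg Subtype.val hk
        simpa using this.symm
      rw [h2]
      have h3 : Commute (g : X) x := hgx
      exact (h3.zpow_left k).eq
    rw [h.hfix] at h1
    exact Subgroup.mem_bot.mp h1
  obtain ⟨m, hm⟩ := thompson_int G (g : X) p h.hp (h.exp g g.2) (h.hAG g.2) hfx
  exact ⟨0, m, hm⟩

/-- A minimal nontrivial subgroup of `G` normalized by `G` and `A`. -/
theorem exists_min [Finite X] (G A : Subgroup X) (hG : G ≠ ⊥)
    (hAG : A ≤ Subgroup.normalizer (G : Set X)) :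
    ∃ N : Subgroup X, N ≤ G ∧ N ≠ ⊥ ∧ G ≤ Subgroup.normalizer (N : Set X) ∧
      A ≤ Subgroup.normalizer (N : Set X) ∧
      ∀ N' : Subgroup X, N' ≤ N → G ≤ Subgroup.normalizer (N' : Set X) →
        A ≤ Subgroup.normalizer (N' : Set X) → N' = ⊥ ∨ N' = N := by
  have key : ∀ n : ℕ, ∀ N : Subgroup X, Nat.card N = n → N ≤ G → N ≠ ⊥ →
      G ≤ Subgroup.normalizer (N : Set X) → A ≤ Subgroup.normalizer (N : Set X) →
      ∃ N : Subgroup X, N ≤ G ∧ N ≠ ⊥ ∧ G ≤ Subgroup.normalizer (N : Set X) ∧
        A ≤ Subgroup.normalizer (N : Set X) ∧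
        ∀ N' : Subgroup X, N' ≤ N → G ≤ Subgroup.normalizer (N' : Set X) →
          A ≤ Subgroup.normalizer (N' : Set X) → N' = ⊥ ∨ N' = N := by
    intro n
    induction n using Nat.strong_induction_on with
    | _ n ih =>
      intro N hcard hNG hN hGN hAN
      by_cases hmin : ∀ N' : Subgroup X, N' ≤ N → G ≤ Subgroup.normalizer (N' : Set X) →
          A ≤ Subgroup.normalizer (N' : Set X) → N' = ⊥ ∨ N' = N
      · exact ⟨N, hNG, hN, hGN, hAN, hmin⟩
      · push Not at hmin
        obtain ⟨N', hN'N, hGN', hAN', hne1, hne2⟩ := hmin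
        have hlt : Nat.card N' < Nat.card N :=
          Cfsg.Agent.H1.card_lt_card_of_lt (lt_of_le_of_ne hN'N hne2)
        exact ih (Nat.card N') (hcard ▸ hlt) N' rfl (hN'N.trans hNG) hne1 hGN' hAN'
  exact key _ G rfl le_rfl hG Subgroup.le_normalizer hAG

theorem min_abelian [Finite X] (G A N : Subgroup X) (hGs : Group.IsSolvable G) (hNG : N ≤ G)
    (hN : N ≠ ⊥) (hGN : G ≤ Subgroup.normalizer (N : Set X))
    (hAN : A ≤ Subgroup.normalizer (N : Set X))
    (hmin : ∀ N' : Subgroup X, N' ≤ N → G ≤ Subgroup.normalizer (N' : Set X) →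
      A ≤ Subgroup.normalizer (N' : Set X) → N' = ⊥ ∨ N' = N) :
    ∀ a ∈ N, ∀ b ∈ N, a * b = b * a := by
  haveI : Group.IsSolvable N := solvable_of_le hNG hGs
  have hlt := Cfsg.Agent.H1.commutator_lt_of_isSolvable N hN
  rcases hmin ⁅N, N⁆ hlt.le (fun g hg => normalizer_commutator N N g (hGN hg) (hGN hg))
    (fun g hg => normalizer_commutator N N g (hAN hg) (hAN hg)) with h | h
  · have h2 : N ≤ Subgroup.centralizer (N : Set X) :=
      Subgroup.commutator_eq_bot_iff_le_centralizer.mp h
    intro a ha b hb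
    exact ((Subgroup.mem_centralizer_iff.mp (h2 ha)) b hb).symm
  · exact absurd h hlt.ne

theorem min_exp [Finite X] (G A N : Subgroup X) (hNc : ∀ a ∈ N, ∀ b ∈ N, a * b = b * a)
    (hN : N ≠ ⊥) (hGN : G ≤ Subgroup.normalizer (N : Set X))
    (hAN : A ≤ Subgroup.normalizer (N : Set X))
    (hmin : ∀ N' : Subgroup X, N' ≤ N → G ≤ Subgroup.normalizer (N' : Set X) →
      A ≤ Subgroup.normalizer (N' : Set X) → N' = ⊥ ∨ N' = N) :
    ∃ q : ℕ, q.Prime ∧ ∀ x ∈ N, x ^ q = 1 := by
  have hcard : Nat.card N ≠ 1 := fun h => hN (Subgroup.eq_bot_of_card_eq N h)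
  obtain ⟨q, hq, hqd⟩ := Nat.exists_prime_and_dvd hcard
  haveI : Fact q.Prime := ⟨hq⟩
  refine ⟨q, hq, ?_⟩
  obtain ⟨Ω, hΩ⟩ : ∃ Ω : Subgroup X, ∀ x, x ∈ Ω ↔ x ∈ N ∧ x ^ q = 1 := by
    refine ⟨
      { carrier := {x | x ∈ N ∧ x ^ q = 1}
        one_mem' := ⟨N.one_mem, one_pow q⟩
        mul_mem' := by
          rintro a b ⟨ha, ha'⟩ ⟨hb, hb'⟩
          refine ⟨N.mul_mem ha hb, ?_⟩
          have hc : Commute a b := hNc a ha b hb
          rw [hc.mul_pow, ha', hb', one_mul]
        inv_mem' := by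
          rintro a ⟨ha, ha'⟩
          exact ⟨N.inv_mem ha, by rw [inv_pow, ha', inv_one]⟩ }, fun x => Iff.rfl⟩
  have hΩN : Ω ≤ N := fun x hx => ((hΩ x).mp hx).1
  have hnorm : ∀ g, g ∈ Subgroup.normalizer (N : Set X) →
      g ∈ Subgroup.normalizer (Ω : Set X) := by
    intro g hg
    apply mem_normalizer_of_conj
    intro x hx
    obtain ⟨hx1, hx2⟩ := (hΩ x).mp hx
    refine (hΩ _).mpr ⟨conj_mem_of_mem_normalizer hg hx1, ?_⟩
    rw [conj_pow, hx2]; group
  rcases hmin Ω hΩN (fun g hg => hnorm g (hGN hg)) (fun g hg => hnorm g (hAN hg)) with h | h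
  · exfalso
    obtain ⟨x, hx⟩ := exists_prime_orderOf_dvd_card' (G := N) q hqd
    have h1 : (x : X) ∈ Ω := by
      refine (hΩ _).mpr ⟨x.2, ?_⟩
      rw [← Subgroup.coe_pow, ← hx, pow_orderOf_eq_one]; rfl
    rw [h, Subgroup.mem_bot] at h1
    have h2 : x = 1 := Subtype.ext h1
    rw [h2, orderOf_one] at hx
    exact hq.one_lt.ne hx
  · intro x hx
    have h1 : x ∈ Ω := h ▸ hx
    exact ((hΩ x).mp h1).2

/-- Ward data passes to the quotient by an invariant normal subgroup. -/
theorem quot_step [Finite X] {p : ℕ} {G A N : Subgroup X} (h : WD p G A) (hNG : N ≤ G)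
    (hGN : G ≤ Subgroup.normalizer (N : Set X)) (hAN : A ≤ Subgroup.normalizer (N : Set X)) :
    WD p (im N G) (im N A) :=
  { hp := h.hp
    hAG := im_normalizer hAN hGN h.hAG
    hGs := im_solvable h.hGs
    comm := by
      intro a ha b hb
      obtain ⟨a₀, ha₀, rfl⟩ := (mem_im hAN _).mp ha
      obtain ⟨b₀, hb₀, rfl⟩ := (mem_im hAN _).mp hb
      rw [← map_mul, ← map_mul]
      congr 1
      exact Subtype.ext (h.comm a₀ ha₀ b₀ hb₀)
    exp := by
      intro a ha
      obtain ⟨a₀, ha₀, rfl⟩ := (mem_im hAN _).mp ha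
      rw [← map_pow]
      have h1 : (⟨a₀, hAN ha₀⟩ : ↥(Subgroup.normalizer (N : Set X))) ^ p = 1 :=
        Subtype.ext (by rw [Subgroup.coe_pow]; exact h.exp a₀ ha₀)
      rw [h1, map_one]
    card := (card_im_dvd hAN).trans h.card
    hfix := by
      rw [im_inf_centralizer hNG hGN hAN h.cop (Or.inr h.hGs), h.hfix]
      exact (im_eq_bot_iff bot_le).mpr bot_le }

/-- Some term of the lower central series of `G` centralizes the minimal normal subgroup `N`. -/
theorem cent_step [Finite X] {p q : ℕ} {G A N : Subgroup X} (h : WD p G A) (hEA : EA p A)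
    (hq : q.Prime) (hNG : N ≤ G) (hN : N ≠ ⊥) (hGN : G ≤ Subgroup.normalizer (N : Set X))
    (hAN : A ≤ Subgroup.normalizer (N : Set X)) (hNc : ∀ a ∈ N, ∀ b ∈ N, a * b = b * a)
    (hNe : ∀ x ∈ N, x ^ q = 1)
    (hmin : ∀ N' : Subgroup X, N' ≤ N → G ≤ Subgroup.normalizer (N' : Set X) →
      A ≤ Subgroup.normalizer (N' : Set X) → N' = ⊥ ∨ N' = N)
    (ih : ∀ m < Nat.card G, ∀ (Y : Type u) [Group Y] [Finite Y] (p' : ℕ) (G' A' : Subgroup Y),
      Nat.card G' = m → WD p' G' A' → Meta2 G') :
    ∃ k, G.lowerCentralSeries k ≤ Subgroup.centralizer (N : Set X) := by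
  by_cases hcase : ∃ a ∈ A, a ≠ 1 ∧ a ∈ Subgroup.centralizer (N : Set X)
  · obtain ⟨a, ha, ha1, haN⟩ := hcase
    obtain ⟨B, hB⟩ : ∃ B : Subgroup X, B = Subgroup.zpowers a := ⟨_, rfl⟩
    have hBA : B ≤ A := hB ▸ Subgroup.zpowers_le.mpr ha
    have hBN : B ≤ Subgroup.centralizer (N : Set X) := hB ▸ Subgroup.zpowers_le.mpr haN
    have hBG : B ≤ Subgroup.normalizer (G : Set X) := hBA.trans h.hAG
    have hcop : (Nat.card B).Coprime (Nat.card G) := cop_of_le h.cop hBA le_rfl
    obtain ⟨m, hm⟩ := cent_nilpotent hEA G h.hAG h.hfix a ha ha1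
    have hL : ⁅G, B⁆ ≤ Subgroup.centralizer (N : Set X) := by
      have h1 : ⁅⁅B, N⁆, G⁆ = ⊥ := by
        rw [Subgroup.commutator_eq_bot_iff_le_centralizer.mpr hBN, Subgroup.commutator_bot_left]
      have h2 : ⁅⁅N, G⁆, B⁆ = ⊥ := by
        rw [Subgroup.commutator_eq_bot_iff_le_centralizer]
        exact (Cfsg.Agent.H1.commutator_le_of_le_normalizer G N hGN).trans
          (Subgroup.le_centralizer_iff.mp hBN)
      exact Subgroup.commutator_eq_bot_iff_le_centralizer.mp
        (Subgroup.commutator_commutator_eq_bot_of_rotate h1 h2)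
    have hLG : ⁅G, B⁆ ≤ G := Cfsg.Agent.H1.commutator_le_of_le_normalizer B G hBG
    have himg : img N G ≤ img N (G ⊓ Subgroup.centralizer {a}) := by
      intro x hx
      obtain ⟨g, hg, rfl⟩ := (mem_img hGN _).mp hx
      obtain ⟨c, hc, y, hy, hgy⟩ := Cfsg.Agent.H1.exists_centralizer_mul_commutator B G hBG hcop
        (Or.inr h.hGs) g hg
      have hcG : c ∈ G := (Subgroup.mem_inf.mp hc).1
      have hyG : y ∈ G := hLG hy
      have h1 : (⟨g, hGN hg⟩ : ↥(Subgroup.normalizer (N : Set X))) =
          ⟨c, hGN hcG⟩ * ⟨y, hGN hyG⟩ := Subtype.ext hgy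
      have h2 : holPsi N ⟨y, hGN hyG⟩ = 1 := (holPsi_eq_one_iff N _).mpr (hL hy)
      rw [h1, map_mul, h2, mul_one]
      apply psi_mem_img
      refine Subgroup.mem_inf.mpr ⟨hcG, ?_⟩
      rw [← centralizer_zpowers, ← hB]
      exact (Subgroup.mem_inf.mp hc).2
    refine ⟨m, ?_⟩
    have h3 : (img N G).lowerCentralSeries m = ⊥ := by
      rw [eq_bot_iff]
      refine (lcs_mono himg m).trans ?_
      rw [← img_lcs (inf_le_left.trans hGN) m, hm]
      exact le_of_eq ((img_eq_bot_iff bot_le).mpr bot_le)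
    rw [← img_lcs hGN m] at h3
    exact (img_eq_bot_iff ((lcs_le G m).trans hGN)).mp h3
  · push Not at hcase
    have hAinj : A ⊓ Subgroup.centralizer (N : Set X) = ⊥ := by
      rw [eq_bot_iff]
      intro x hx
      by_contra hx1
      exact hcase x hx.1 (fun h1 => hx1 (Subgroup.mem_bot.mpr h1)) hx.2
    have hcardA : Nat.card (img N A) = p ^ 2 := by
      have h1 := card_img (N := N) hAN
      rw [hAinj, Subgroup.card_bot, mul_one] at h1
      rw [h1]; exact hEA.card
    have hfN : N ⊓ Subgroup.centralizer (A : Set X) = ⊥ := by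
      rw [eq_bot_iff, ← h.hfix]; exact inf_le_inf_right _ hNG
    have hVc := holV_comm N hNc
    have hfV := holV_fix hAN hfN
    have hfH := img_fix hGN hAN h.hAG h.cop (Or.inr h.hGs) h.hfix
    have hEA' : EA p (img N A) := ⟨h.hp, img_comm hAN h.comm, img_exp hAN p h.exp, hcardA⟩
    have hsplit : Split p q (holV N) (img N G) (img N A) :=
      { hq := hq
        hA := hEA'
        hVc := hVc
        hVe := holV_exp N q hNe
        hVne := holV_ne_bot N hN
        hHV := le_normalizer_holV N _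
        hAV := le_normalizer_holV N _
        hAH := img_normalizer hAN hGN h.hAG
        hfaith := img_faithful N G
        hHs := img_solvable h.hGs
        hfV := hfV
        hfH := hfH
        hirr := holV_irr hGN hAN hmin
        hsub := by
          intro H₁ hH₁ hAH₁ hne
          have hfaith₁ : H₁ ⊓ Subgroup.centralizer ((holV N : Subgroup (HolGrp N)) :
              Set (HolGrp N)) = ⊥ := by
            rw [eq_bot_iff, ← img_faithful N G]; exact inf_le_inf_right _ hH₁
          have hdisj : H₁ ⊓ holV N = ⊥ := by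
            rw [eq_bot_iff, ← hfaith₁]
            intro x hx
            refine Subgroup.mem_inf.mpr ⟨hx.1, ?_⟩
            rw [Subgroup.mem_centralizer_iff]
            intro v hv
            exact hVc v hv x hx.2
          have hc1 : Nat.card ↥(H₁ ⊔ holV N) = Nat.card H₁ * Nat.card (holV N) :=
            Cfsg.Agent.H1.card_sup_of_le_normalizer H₁ (holV N) (le_normalizer_holV N H₁) hdisj
          have hc2 : Nat.card H₁ < Nat.card (img N G) :=
            Cfsg.Agent.H1.card_lt_card_of_lt (lt_of_le_of_ne hH₁ hne)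
          have hc3 := card_img (N := N) hGN
          have hc4 : Nat.card N ≤ Nat.card ↥(G ⊓ Subgroup.centralizer (N : Set X)) := by
            apply Subgroup.card_le_of_le
            intro x hx
            refine Subgroup.mem_inf.mpr ⟨hNG hx, ?_⟩
            rw [Subgroup.mem_centralizer_iff]
            intro y hy
            exact hNc y hy x hx
          have hc5 : 0 < Nat.card N := Nat.card_pos
          have hlt : Nat.card ↥(holV N ⊔ H₁) < Nat.card G := by
            rw [sup_comm, hc1, card_holV, ← hc3]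
            calc Nat.card H₁ * Nat.card N < Nat.card (img N G) * Nat.card N :=
                  Nat.mul_lt_mul_of_pos_right hc2 hc5
              _ ≤ Nat.card (img N G) * Nat.card ↥(G ⊓ Subgroup.centralizer (N : Set X)) :=
                  Nat.mul_le_mul_left _ hc4
          have hwd : WD p (holV N ⊔ H₁) (img N A) :=
            { hp := h.hp
              hAG := Cfsg.Agent.H1.le_normalizer_sup (img N A) (holV N) H₁
                (le_normalizer_holV N _) hAH₁
              hGs := solvable_sup (le_normalizer_holV N H₁) (solvable_of_comm (holV N) hVc)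
                (solvable_of_le hH₁ (img_solvable h.hGs))
              comm := hEA'.comm
              exp := hEA'.exp
              card := by rw [hcardA]
              hfix := sup_fix (holV N) H₁ (img N A) hVc (le_normalizer_holV N H₁)
                (le_normalizer_holV N _) hAH₁ hfaith₁ hfV
                (by rw [eq_bot_iff, ← hfH]; exact inf_le_inf_right _ hH₁) }
          exact ih _ hlt (HolGrp N) p (holV N ⊔ H₁) (img N A) rfl hwd }
    obtain ⟨k, hk⟩ := hsplit.nilpotent
    refine ⟨k, ?_⟩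
    rw [← img_lcs hGN k] at hk
    exact (img_eq_bot_iff ((lcs_le G k).trans hGN)).mp hk

/-- Ward's theorem, internal form. -/
theorem ward_int : ∀ (n : ℕ) (X : Type u) [Group X] [Finite X] (p : ℕ) (G A : Subgroup X),
    Nat.card G = n → WD p G A → Meta2 G := by
  intro n
  induction n using Nat.strong_induction_on with
  | _ n ih =>
    intro X _ _ p G A hn h
    by_cases hcard : Nat.card A = p ^ 2
    swap
    · exact meta2_of_not_sq h hcard
    by_cases hG : G = ⊥
    · exact ⟨0, 0, hG⟩
    have hEA : EA p A := ⟨h.hp, h.comm, h.exp, hcard⟩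
    obtain ⟨N, hNG, hN, hGN, hAN, hmin⟩ := exists_min G A hG h.hAG
    have hNc := min_abelian G A N h.hGs hNG hN hGN hAN hmin
    obtain ⟨q, hq, hNe⟩ := min_exp G A N hNc hN hGN hAN hmin
    have hcardN : 1 < Nat.card N := by
      have h1 : Nat.card N ≠ 1 := fun h' => hN (Subgroup.eq_bot_of_card_eq N h')
      have h2 : 0 < Nat.card N := Nat.card_pos
      omega
    have hlt : Nat.card (im N G) < n := by
      have h1 := card_im_of_le hGN hNG
      have h2 : 0 < Nat.card (im N G) := Nat.card_pos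
      rw [← hn, ← h1]
      nlinarith
    obtain ⟨k, m, hkm⟩ := ih _ hlt (SecGrp N) p (im N G) (im N A) rfl (quot_step h hNG hGN hAN)
    have h1 : (G.lowerCentralSeries k).lowerCentralSeries m ≤ N := by
      rw [← im_lcs hGN k, ← im_lcs ((lcs_le G k).trans hGN) m] at hkm
      exact (im_eq_bot_iff (((lcs_le _ m).trans (lcs_le G k)).trans hGN)).mp hkm
    obtain ⟨k', hk'⟩ := cent_step h hEA hq hNG hN hGN hAN hNc hNe hmin
      (fun m hm Y _ _ p' G' A' hc hw => ih m (hn ▸ hm) Y p' G' A' hc hw)
    refine ⟨max k k', m + 1, ?_⟩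
    have h2 : G.lowerCentralSeries (max k k') ≤ G.lowerCentralSeries k :=
      lcs_anti G (le_max_left _ _)
    have h3 : G.lowerCentralSeries (max k k') ≤ Subgroup.centralizer (N : Set X) :=
      (lcs_anti G (le_max_right _ _)).trans hk'
    have h4 : ⁅N, Subgroup.centralizer (N : Set X)⁆ = ⊥ := by
      rw [Subgroup.commutator_comm]
      exact Subgroup.commutator_eq_bot_iff_le_centralizer.mpr le_rfl
    rw [Subgroup.lowerCentralSeries_succ, eq_bot_iff, ← h4]
    exact Subgroup.commutator_mono ((lcs_mono h2 m).trans h1) h3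

end Cfsg.Agent.H58.Ward
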