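import Mathlib
import Cfsg.Agent.H58.FzDefs
import Cfsg.Agent.H58.WardInd

/-!
# Basic facts about the minimal configuration `FCfg`
-/

set_option autoImplicit false
set_option linter.style.haveILetI false
set_option linter.unusedVariables false
set_option linter.unusedSectionVars false

namespace Cfsg.Agent.H58.Fz

open Cfsg.Agent.H58.FrobAct Cfsg.Agent.H58.FrobQuot Cfsg.Agent.H58.FrobWielandt
open Cfsg.Agent.H58.Ward
open scoped commutatorElement

universe u

variable {X : Type u} [Group X]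

/-- `x` normalizes `⟨y⟩` when `x y x⁻¹ = y ^ k`. -/
theorem mem_normalizer_zpowers [Finite X] (y x : X) (k : ℕ) (hxy : x * y * x⁻¹ = y ^ k) :
    x ∈ Subgroup.normalizer ((Subgroup.zpowers y : Subgroup X) : Set X) := by
  apply mem_normalizer_of_conj
  intro h hh
  obtain ⟨n, rfl⟩ := Subgroup.mem_zpowers_iff.mp hh
  have e : x * y ^ n * x⁻¹ = (x * y * x⁻¹) ^ n := by
    rw [conj_zpow]
  rw [e, hxy]
  exact Subgroup.zpow_mem _ (Subgroup.pow_mem _ (Subgroup.mem_zpowers y) k) n

/-- `closure {y, x}` normalizes `⟨y⟩` when `x y x⁻¹ = y ^ k`. -/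
theorem closure_le_normalizer_zpowers [Finite X] (y x : X) (k : ℕ) (hxy : x * y * x⁻¹ = y ^ k) :
    Subgroup.closure ({y, x} : Set X) ≤
      Subgroup.normalizer ((Subgroup.zpowers y : Subgroup X) : Set X) := by
  rw [Subgroup.closure_le]
  intro g hg
  rcases hg with rfl | hg
  · exact Subgroup.le_normalizer (Subgroup.mem_zpowers g)
  · rw [Set.mem_singleton_iff] at hg
    subst hg
    exact mem_normalizer_zpowers y g k hxy

/-- A subgroup containing `y` and `x` in its centralizer centralizes `closure {y, x}`. -/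
theorem mem_centralizer_closure (y x g : X) (hy : y * g = g * y) (hx : x * g = g * x) :
    g ∈ Subgroup.centralizer ((Subgroup.closure ({y, x} : Set X) : Subgroup X) : Set X) := by
  have h1 : Subgroup.closure ({y, x} : Set X) ≤ Subgroup.centralizer ({g} : Set X) := by
    rw [Subgroup.closure_le]
    intro a ha
    rw [SetLike.mem_coe, Subgroup.mem_centralizer_iff]
    intro b hb
    rw [Set.mem_singleton_iff] at hb
    subst hb
    rcases ha with rfl | ha
    · exact hy.symm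
    · rw [Set.mem_singleton_iff] at ha
      subst ha
      exact hx.symm
  rw [Subgroup.mem_centralizer_iff]
  intro a ha
  exact ((Subgroup.mem_centralizer_iff.mp (h1 ha)) g rfl).symm

namespace FCfg

variable [Finite X] {p q k v r s : ℕ} {V R S A : Subgroup X} {y x : X}
  (c : FCfg p q k v r s V R S A y x)
include c

theorem hyA : y ∈ A := by
  rw [c.hA]; exact Subgroup.subset_closure (by simp)

theorem hxA : x ∈ A := by
  rw [c.hA]; exact Subgroup.subset_closure (by simp)

theorem orderOf_y : orderOf y = q := by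
  haveI : Fact q.Prime := ⟨c.hq⟩
  exact orderOf_eq_prime c.hy c.hy1

theorem hx1 : x ≠ 1 := by
  intro h
  have h1 := c.hxy
  rw [h, one_mul, inv_one, mul_one] at h1
  have h2 : y ^ k = y ^ 1 := by rw [pow_one]; exact h1.symm
  rw [pow_eq_pow_iff_modEq, c.orderOf_y] at h2
  exact c.hk h2

theorem orderOf_x : orderOf x = p := by
  haveI : Fact p.Prime := ⟨c.hp⟩
  exact orderOf_eq_prime c.hx c.hx1

theorem q_dvd : q ∣ Nat.card A := by
  have h1 : orderOf (⟨y, c.hyA⟩ : A) ∣ Nat.card A := orderOf_dvd_natCard _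
  rwa [Subgroup.orderOf_mk, c.orderOf_y] at h1

theorem p_dvd : p ∣ Nat.card A := by
  have h1 : orderOf (⟨x, c.hxA⟩ : A) ∣ Nat.card A := orderOf_dvd_natCard _
  rwa [Subgroup.orderOf_mk, c.orderOf_x] at h1

theorem copqV : (Nat.card V).Coprime q := (Nat.Coprime.coprime_dvd_left c.q_dvd c.hcopV).symm
theorem copqR : (Nat.card R).Coprime q := (Nat.Coprime.coprime_dvd_left c.q_dvd c.hcopR).symm
theorem copqS : (Nat.card S).Coprime q := (Nat.Coprime.coprime_dvd_left c.q_dvd c.hcopS).symm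
theorem coppV : (Nat.card V).Coprime p := (Nat.Coprime.coprime_dvd_left c.p_dvd c.hcopV).symm
theorem coppR : (Nat.card R).Coprime p := (Nat.Coprime.coprime_dvd_left c.p_dvd c.hcopR).symm
theorem coppS : (Nat.card S).Coprime p := (Nat.Coprime.coprime_dvd_left c.p_dvd c.hcopS).symm

theorem hVv : IsPGroup v V :=
  fun w => ⟨1, Subtype.ext (by rw [pow_one, Subgroup.coe_pow]; exact c.hVe w w.2)⟩

theorem copRV : (Nat.card R).Coprime (Nat.card V) := by
  haveI : Fact r.Prime := ⟨c.hr⟩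
  haveI : Fact v.Prime := ⟨c.hv⟩
  exact IsPGroup.coprime_card_of_ne r v (Ne.symm c.hvr) R V c.hR c.hVv

theorem copSR : (Nat.card S).Coprime (Nat.card R) := by
  haveI : Fact r.Prime := ⟨c.hr⟩
  haveI : Fact s.Prime := ⟨c.hs⟩
  exact IsPGroup.coprime_card_of_ne s r (Ne.symm c.hrs) S R c.hS c.hR

theorem copSV (hsv : s ≠ v) : (Nat.card S).Coprime (Nat.card V) := by
  haveI : Fact s.Prime := ⟨c.hs⟩
  haveI : Fact v.Prime := ⟨c.hv⟩
  exact IsPGroup.coprime_card_of_ne s v hsv S V c.hS c.hVv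

theorem solvR : Group.IsSolvable R := solvable_of_pgroup r c.hr R c.hR

theorem solvS : Group.IsSolvable S := solvable_of_pgroup s c.hs S c.hS

theorem solvV : Group.IsSolvable V := solvable_of_comm V c.hVc

theorem hRne : R ≠ ⊥ := by
  intro h
  apply c.hne
  rw [h, Subgroup.commutator_bot_left]

theorem hSne : S ≠ ⊥ := by
  intro h
  apply c.hne
  rw [h, Subgroup.commutator_bot_right]

theorem faith (Y : Subgroup X) (hY : Y ≤ R ⊔ S)
    (hYV : Y ≤ Subgroup.centralizer (V : Set X)) : Y = ⊥ := by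
  rw [eq_bot_iff, ← c.hfaith]
  exact le_inf hY hYV

theorem hVne : V ≠ ⊥ := by
  intro h
  apply c.hRne
  apply c.faith R le_sup_left
  rw [h]
  intro g hg
  rw [Subgroup.mem_centralizer_iff]
  intro w hw
  rw [Subgroup.coe_bot, Set.mem_singleton_iff] at hw
  subst hw; simp

/-- `A` normalizes `⟨y⟩`. -/
theorem hAzy : A ≤ Subgroup.normalizer ((Subgroup.zpowers y : Subgroup X) : Set X) := by
  rw [c.hA]; exact closure_le_normalizer_zpowers y x k c.hxy

/-- `A` normalizes `C_Y(y)` for every `A`-invariant `Y`. -/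
theorem hA_inf_cy (Y : Subgroup X) (hAY : A ≤ Subgroup.normalizer (Y : Set X)) :
    A ≤ Subgroup.normalizer ((Y ⊓ Subgroup.centralizer {y} : Subgroup X) : Set X) := by
  intro g hg
  have h1 := normalizer_inf_centralizer Y (Subgroup.zpowers y) g (hAY hg) (c.hAzy hg)
  rwa [centralizer_zpowers] at h1

/-- Elements commuting with `y` and `x` centralize `A`. -/
theorem mem_cA (g : X) (hy : y * g = g * y) (hx : x * g = g * x) :
    g ∈ Subgroup.centralizer (A : Set X) := by
  rw [c.hA]; exact mem_centralizer_closure y x g hy hx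

theorem R_eq : ⁅R, S⁆ = R := by
  by_contra hne'
  have hle : ⁅R, S⁆ ≤ R := Cfsg.Agent.H1.commutator_le_of_le_normalizer S R c.hSR
  have h1 := c.hmin ⁅R, S⁆ S hle le_rfl
    (fun g hg => normalizer_commutator R S g (c.hAR hg) (c.hAS hg)) c.hAS
    (Subgroup.normalizer_commutator_ge_right R S) (Or.inl hne')
  rw [Cfsg.Agent.H1.coprime_commutator_commutator S R c.hSR c.copSR (Or.inl c.solvS)] at h1
  exact c.hne h1

/-- Proper `A`- and `S`-invariant subgroups of `R` are centralized by `S`. -/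
theorem proper_le_D (R₁ : Subgroup X) (hR₁ : R₁ ≤ R)
    (hA₁ : A ≤ Subgroup.normalizer (R₁ : Set X)) (hS₁ : S ≤ Subgroup.normalizer (R₁ : Set X))
    (hne : R₁ ≠ R) : R₁ ≤ R ⊓ Subgroup.centralizer (S : Set X) := by
  have h1 := c.hmin R₁ S hR₁ le_rfl hA₁ c.hAS hS₁ (Or.inl hne)
  exact le_inf hR₁ (Subgroup.commutator_eq_bot_iff_le_centralizer.mp h1)

/-- Proper `A`-invariant subgroups of `S` centralize `R`. -/
theorem proper_le_S0 (S₁ : Subgroup X) (hS₁ : S₁ ≤ S)
    (hA₁ : A ≤ Subgroup.normalizer (S₁ : Set X)) (hne : S₁ ≠ S) :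
    S₁ ≤ S ⊓ Subgroup.centralizer (R : Set X) := by
  have h1 := c.hmin R S₁ le_rfl hS₁ c.hAR hA₁ (hS₁.trans c.hSR) (Or.inr hne)
  exact le_inf hS₁ (Subgroup.le_centralizer_iff.mp
    (Subgroup.commutator_eq_bot_iff_le_centralizer.mp h1))

theorem RR_le : ⁅R, R⁆ ≤ R ⊓ Subgroup.centralizer (S : Set X) := by
  haveI := c.solvR
  have hlt : ⁅R, R⁆ < R := Cfsg.Agent.H1.commutator_lt_of_isSolvable R c.hRne
  exact c.proper_le_D ⁅R, R⁆ hlt.le
    (fun g hg => normalizer_commutator R R g (c.hAR hg) (c.hAR hg))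
    (fun g hg => normalizer_commutator R R g (c.hSR hg) (c.hSR hg)) hlt.ne

theorem SS_le : ⁅S, S⁆ ≤ S ⊓ Subgroup.centralizer (R : Set X) := by
  haveI := c.solvS
  have hlt : ⁅S, S⁆ < S := Cfsg.Agent.H1.commutator_lt_of_isSolvable S c.hSne
  exact c.proper_le_S0 ⁅S, S⁆ hlt.le
    (fun g hg => normalizer_commutator S S g (c.hAS hg) (c.hAS hg)) hlt.ne

/-- `D = C_R(S)` is central in `R`. -/
theorem D_le_cent :
    R ⊓ Subgroup.centralizer (S : Set X) ≤ Subgroup.centralizer (R : Set X) := by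
  obtain ⟨C, hC⟩ : ∃ C : Subgroup X, C = R ⊓ Subgroup.centralizer (S : Set X) := ⟨_, rfl⟩
  rw [← hC]
  have hCR : C ≤ R := hC ▸ inf_le_left
  have hCS : C ≤ Subgroup.centralizer (S : Set X) := hC ▸ inf_le_right
  have h1 : ⁅⁅C, S⁆, R⁆ = ⊥ := by
    rw [Subgroup.commutator_eq_bot_iff_le_centralizer.mpr hCS, Subgroup.commutator_bot_left]
  have h2 : ⁅⁅R, C⁆, S⁆ = ⊥ := by
    rw [Subgroup.commutator_eq_bot_iff_le_centralizer]
    exact (Subgroup.commutator_mono le_rfl hCR).trans (c.RR_le.trans inf_le_right)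
  have h3 : ⁅⁅S, R⁆, C⁆ = ⊥ := Subgroup.commutator_commutator_eq_bot_of_rotate h2 h1
  rw [Subgroup.commutator_comm S R, c.R_eq, Subgroup.commutator_comm] at h3
  exact Subgroup.commutator_eq_bot_iff_le_centralizer.mp h3

/-- `D = C_R(S)` is a proper subgroup of `R`. -/
theorem D_ne : R ⊓ Subgroup.centralizer (S : Set X) ≠ R := by
  intro h
  apply c.hne
  exact Subgroup.commutator_eq_bot_iff_le_centralizer.mpr (inf_eq_left.mp h)

/-- `S₀ = C_S(R)` is a proper subgroup of `S`. -/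
theorem S0_ne : S ⊓ Subgroup.centralizer (R : Set X) ≠ S := by
  intro h
  apply c.hne
  rw [Subgroup.commutator_comm]
  exact Subgroup.commutator_eq_bot_iff_le_centralizer.mpr (inf_eq_left.mp h)

/-- If `R` is abelian then `C_R(S) = 1`. -/
theorem D_bot_of_comm (hRc : ∀ a ∈ R, ∀ b ∈ R, a * b = b * a) :
    R ⊓ Subgroup.centralizer (S : Set X) = ⊥ := by
  have h1 := centralizer_inf_commutator_eq_bot R S hRc c.hSR c.copSR
  rw [c.R_eq] at h1
  rw [eq_bot_iff, ← h1]
  exact le_inf le_rfl inf_le_left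

/-- Nontrivial subgroups of `R ⊔ S` normalized by `R`, `S`, `A` have no fixed points on `V`. -/
theorem CV_bot (N : Subgroup X) (hN : N ≤ R ⊔ S) (hNne : N ≠ ⊥)
    (hRN : R ≤ Subgroup.normalizer (N : Set X)) (hSN : S ≤ Subgroup.normalizer (N : Set X))
    (hAN : A ≤ Subgroup.normalizer (N : Set X)) :
    V ⊓ Subgroup.centralizer (N : Set X) = ⊥ := by
  rcases c.hirr (V ⊓ Subgroup.centralizer (N : Set X)) inf_le_left
    (fun g hg => normalizer_inf_centralizer V N g (c.hRV hg) (hRN hg))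
    (fun g hg => normalizer_inf_centralizer V N g (c.hSV hg) (hSN hg))
    (fun g hg => normalizer_inf_centralizer V N g (c.hAV hg) (hAN hg)) with h | h
  · exact h
  · exfalso
    have h1 : V ≤ Subgroup.centralizer (N : Set X) := inf_eq_left.mp h
    exact hNne (c.faith N hN (Subgroup.le_centralizer_iff.mp h1))

theorem CVR : V ⊓ Subgroup.centralizer (R : Set X) = ⊥ :=
  c.CV_bot R le_sup_left c.hRne Subgroup.le_normalizer c.hSR c.hAR

/-- `C_S(y) ≤ C_S(R)` or `y` centralizes `S`. -/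
theorem dichotomy : S ⊓ Subgroup.centralizer {y} ≤ Subgroup.centralizer (R : Set X) ∨
    S ≤ Subgroup.centralizer {y} := by
  by_cases h : S ⊓ Subgroup.centralizer {y} = S
  · exact Or.inr (inf_eq_left.mp h)
  · exact Or.inl ((c.proper_le_S0 _ inf_le_left (c.hA_inf_cy S c.hAS) h).trans inf_le_right)

/-- If `y` centralizes `S` then `C_R(y) ≤ C_R(S)`. -/
theorem Ry_le_D (hSy : S ≤ Subgroup.centralizer {y}) :
    R ⊓ Subgroup.centralizer {y} ≤ R ⊓ Subgroup.centralizer (S : Set X) := by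
  have h := c.hRS
  rw [inf_eq_left.mpr hSy] at h
  exact le_inf inf_le_left h

/-- If `s = v` then `C_S(R) = 1`. -/
theorem S0_bot_of_eq (hsv : s = v) : S ⊓ Subgroup.centralizer (R : Set X) = ⊥ := by
  by_contra hne
  have hS0S : S ≤ Subgroup.normalizer
      ((S ⊓ Subgroup.centralizer (R : Set X) : Subgroup X) : Set X) :=
    fun g hg => normalizer_inf_centralizer S R g (Subgroup.le_normalizer hg) (c.hSR hg)
  have hS0A : A ≤ Subgroup.normalizer
      ((S ⊓ Subgroup.centralizer (R : Set X) : Subgroup X) : Set X) :=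
    fun g hg => normalizer_inf_centralizer S R g (c.hAS hg) (c.hAR hg)
  have hS0R : R ≤ Subgroup.normalizer
      ((S ⊓ Subgroup.centralizer (R : Set X) : Subgroup X) : Set X) := by
    intro g hg
    apply mem_normalizer_of_comm
    intro z hz
    exact (Subgroup.mem_centralizer_iff.mp hz.2) g hg
  have h1 := c.CV_bot _ (inf_le_left.trans le_sup_right) hne hS0R hS0S hS0A
  have hS0v : IsPGroup v ↥(S ⊓ Subgroup.centralizer (R : Set X)) := by
    rw [← hsv]; exact c.hS.to_le inf_le_left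
  exact c.hVne (eq_bot_of_pgroup_fixed v c.hv V _ c.hVv hS0v (inf_le_left.trans c.hSV) h1)

/-- If `s = v` then `S` is abelian. -/
theorem S_comm_of_eq (hsv : s = v) : ∀ a ∈ S, ∀ b ∈ S, a * b = b * a := by
  have h1 := c.SS_le
  rw [c.S0_bot_of_eq hsv, le_bot_iff] at h1
  have h2 : S ≤ Subgroup.centralizer (S : Set X) :=
    Subgroup.commutator_eq_bot_iff_le_centralizer.mp h1
  intro a ha b hb
  exact ((Subgroup.mem_centralizer_iff.mp (h2 ha)) b hb).symm

/-- If `s = v` then `S` has exponent `s`. -/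
theorem S_exp_of_eq (hsv : s = v) : ∀ a ∈ S, a ^ s = 1 := by
  obtain ⟨q', hq', hexp⟩ := min_exp S A S (c.S_comm_of_eq hsv) c.hSne Subgroup.le_normalizer c.hAS
    (by
      intro S' hS' _ hA'
      by_cases h : S' = S
      · exact Or.inr h
      · left
        have := c.proper_le_S0 S' hS' hA' h
        rwa [c.S0_bot_of_eq hsv, le_bot_iff] at this)
  obtain ⟨g', hg'⟩ := (Subgroup.ne_bot_iff_exists_ne_one (H := S)).mp c.hSne
  obtain ⟨g, hg, hg1⟩ : ∃ g ∈ S, g ≠ 1 := ⟨g'.1, g'.2, fun h => hg' (Subtype.ext h)⟩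
  haveI : Fact q'.Prime := ⟨hq'⟩
  have h1 : orderOf g = q' := orderOf_eq_prime (hexp g hg) hg1
  obtain ⟨n, hn⟩ := (c.hS.to_le le_rfl : IsPGroup s S) ⟨g, hg⟩
  have h2 : g ^ s ^ n = 1 := by
    have := congrArg Subtype.val hn
    simpa using this
  have h3 : q' ∣ s ^ n := by rw [← h1]; exact orderOf_dvd_of_pow_eq_one h2
  have h4 : q' = s := (Nat.prime_dvd_prime_iff_eq hq' c.hs).mp (hq'.dvd_of_dvd_pow h3)
  rw [← h4]; exact hexp

/-- If `R` is abelian then it has exponent `r`. -/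
theorem R_exp_of_comm (hRc : ∀ a ∈ R, ∀ b ∈ R, a * b = b * a) : ∀ a ∈ R, a ^ r = 1 := by
  obtain ⟨q', hq', hexp⟩ := min_exp S A R hRc c.hRne c.hSR c.hAR
    (by
      intro R' hR' hS' hA'
      by_cases h : R' = R
      · exact Or.inr h
      · left
        have := c.proper_le_D R' hR' hA' hS' h
        rwa [c.D_bot_of_comm hRc, le_bot_iff] at this)
  obtain ⟨g', hg'⟩ := (Subgroup.ne_bot_iff_exists_ne_one (H := R)).mp c.hRne
  obtain ⟨g, hg, hg1⟩ : ∃ g ∈ R, g ≠ 1 := ⟨g'.1, g'.2, fun h => hg' (Subtype.ext h)⟩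
  haveI : Fact q'.Prime := ⟨hq'⟩
  have h1 : orderOf g = q' := orderOf_eq_prime (hexp g hg) hg1
  obtain ⟨n, hn⟩ := (c.hR.to_le le_rfl : IsPGroup r R) ⟨g, hg⟩
  have h2 : g ^ r ^ n = 1 := by
    have := congrArg Subtype.val hn
    simpa using this
  have h3 : q' ∣ r ^ n := by rw [← h1]; exact orderOf_dvd_of_pow_eq_one h2
  have h4 : q' = r := (Nat.prime_dvd_prime_iff_eq hq' c.hr).mp (hq'.dvd_of_dvd_pow h3)
  rw [← h4]; exact hexp

end FCfg

end Cfsg.Agent.H58.Fz
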