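import Mathlib
import Cfsg.Agent.H29.BG117Defs
import Cfsg.Agent.H57.BG129Defs

set_option autoImplicit false

/-!
# Bender–Glauberman Corollary 12.7 (S1419): the statement and its pieces as `Prop`s (helper58)

Setting `Nab M E A p`: `M` maximal, `E` a complement of `M_σ` in `M`, `p ∈ τ₂(M)`, the Sylow
`p`-subgroups of `G` are nonabelian, `A ≤ E` elementary abelian of order `p²`.
-/

namespace Cfsg.Agent.H58.BG12

open Cfsg Subgroup Cfsg.Agent.H58.BG10

universe u

variable {G : Type u} [Group G]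

/-- The hypotheses of B&G Corollary 12.7. -/
structure Nab (M E A : Subgroup G) (p : ℕ) : Prop where
  coatom : IsCoatom M
  compl : IsComplIn E (sigmaCore M) M
  tau : p ∈ tau2 M
  nab : ∀ S : Sylow p G, ¬ IsMulCommutative (S : Subgroup G)
  le : A ≤ E
  elem : IsElementaryAbelian p A
  card : Nat.card A = p ^ 2

/-- S1419 (B&G Corollary 12.7). -/
def St1419 (G : Type u) [Group G] : Prop :=
  ∀ (M : Subgroup G), IsCoatom M → ∀ E : Subgroup G, IsComplIn E (sigmaCore M) M →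
    ∀ (p : ℕ) [Fact p.Prime], p ∈ tau2 M →
    (∀ S : Sylow p G, ¬ IsMulCommutative (S : Subgroup G)) →
    ∀ (A : Subgroup G), (A ≤ E ∧ IsElementaryAbelian p A ∧ Nat.card A = p ^ 2) →
    tau2 M = {p} ∧
      (Nat.card ↥(A ⊓ centralizer (sigmaCore M : Set G)) = p ∧
        fittingOf M = sigmaCore M ⊔ (A ⊓ centralizer (sigmaCore M : Set G))) ∧
      ∀ X : Subgroup G, X ≤ E → Nat.card X = p →
        X ≠ A ⊓ centralizer (sigmaCore M : Set G) →
        sigmaCore M ⊓ centralizer (X : Set G) = ⊥ ∧ ¬ centralizer (X : Set G) ≤ M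

/-- (X) A Sylow `p`-subgroup `S ≥ A` of `G` and an element `x ∈ S ∖ M` normalizing `A`;
`S ∩ M` centralizes `A`, its elements of order dividing `p` lie in `A`, and `S` contains every
normal `p`-subgroup of `M`. -/
def StNabX (G : Type u) [Group G] : Prop :=
  ∀ (M E A : Subgroup G) (p : ℕ) [Fact p.Prime], Nab M E A p →
    ∃ (S : Sylow p G) (x : G), A ≤ (S : Subgroup G) ∧ x ∈ (S : Subgroup G) ∧ x ∉ M ∧
      x ∈ normalizer (A : Set G) ∧
      (∀ u ∈ (S : Subgroup G), u ∈ M → u ∈ centralizer (A : Set G) ∧ (u ^ p = 1 → u ∈ A)) ∧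
      ∀ R : Subgroup G, R ≤ M → IsPGroup p R → M ≤ normalizer (R : Set G) →
        R ≤ (S : Subgroup G)

/-- (LINES) A `p`-element `x` normalizing but not centralizing an elementary abelian group `A`
of order `p²` fixes exactly one subgroup `Z₁` of order `p` of `A` (and centralizes it), and
`⟨x⟩` permutes the other `p` subgroups of order `p` transitively. -/
def StLines (G : Type u) [Group G] : Prop :=
  ∀ (p : ℕ) [Fact p.Prime] (S A : Subgroup G) (x : G), IsPGroup p S → A ≤ S → x ∈ S →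
    IsElementaryAbelian p A → Nat.card A = p ^ 2 → x ∈ normalizer (A : Set G) →
    x ∉ centralizer (A : Set G) →
    ∃ Z₁ : Subgroup G, Z₁ ≤ A ∧ Nat.card Z₁ = p ∧ (∀ u ∈ Z₁, x * u = u * x) ∧
      ∀ X Y : Subgroup G, X ≤ A → Y ≤ A → Nat.card X = p → Nat.card Y = p → X ≠ Z₁ →
        Y ≠ Z₁ → ∃ i : ℕ, i < p ∧ Y = X.map (MulAut.conj (x ^ i)).toMonoidHom

/-- (LINE) `A₀ = C_A(M_σ)` has order `p`, and every other subgroup `X` of order `p` of `E`
has `C_{M_σ}(X) = 1` and `C_G(X) ⊄ M`. -/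
def StNabLine (G : Type u) [Group G] : Prop :=
  ∀ (M E A : Subgroup G) (p : ℕ) [Fact p.Prime], Nab M E A p →
    Nat.card ↥(A ⊓ centralizer (sigmaCore M : Set G)) = p ∧
      ∀ X : Subgroup G, X ≤ E → Nat.card X = p →
        X ≠ A ⊓ centralizer (sigmaCore M : Set G) →
        sigmaCore M ⊓ centralizer (X : Set G) = ⊥ ∧ ¬ centralizer (X : Set G) ≤ M

/-- (TAU) `τ₂(M) = {p}`. -/
def StNabTau (G : Type u) [Group G] : Prop :=
  ∀ (M E A : Subgroup G) (p : ℕ) [Fact p.Prime], Nab M E A p → tau2 M = {p}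

/-- (PW) In a nonabelian Sylow `p`-subgroup `S` of `G` with a maximal elementary abelian
subgroup `A` of order `p²`: the `p`-th power of every `u ∈ C_S(A)` with `u^(p²) = 1` is
central in `S`. -/
def StPW (G : Type u) [Group G] : Prop :=
  ∀ (p : ℕ) [Fact p.Prime] (S : Sylow p G), ¬ IsMulCommutative (S : Subgroup G) →
    ∀ A : Subgroup G, A ≤ (S : Subgroup G) → IsElementaryAbelian p A → Nat.card A = p ^ 2 →
    (∀ B : Subgroup G, IsElementaryAbelian p B → A ≤ B → B = A) →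
    ∀ u ∈ (S : Subgroup G), u ∈ centralizer (A : Set G) → u ^ (p ^ 2) = 1 →
    ∀ s ∈ (S : Subgroup G), s * u ^ p = u ^ p * s

/-- (OP) Every normal `p`-subgroup of `M` lies in `A₀ = C_A(M_σ)`. -/
def StNabOp (G : Type u) [Group G] : Prop :=
  ∀ (M E A : Subgroup G) (p : ℕ) [Fact p.Prime], Nab M E A p → ∀ R : Subgroup G, R ≤ M →
    IsPGroup p R → M ≤ normalizer (R : Set G) →
    R ≤ A ⊓ centralizer (sigmaCore M : Set G)

/-- (OR) For a prime `q ∉ σ(M) ∪ {p}`, `M` has no nontrivial normal `q`-subgroup. -/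
def StNabOr (G : Type u) [Group G] : Prop :=
  ∀ (M E A : Subgroup G) (p : ℕ) [Fact p.Prime], Nab M E A p → ∀ q : ℕ, q.Prime →
    q ∉ sigma M → q ≠ p → ∀ R : Subgroup G, R ≤ M → IsPGroup q R →
    M ≤ normalizer (R : Set G) → R = ⊥

/-- (NORM) `A₀ = C_A(M_σ)` is normal in `M`. -/
def StNabNorm (G : Type u) [Group G] : Prop :=
  ∀ (M E A : Subgroup G) (p : ℕ) [Fact p.Prime], Nab M E A p →
    M ≤ normalizer ((A ⊓ centralizer (sigmaCore M : Set G) : Subgroup G) : Set G)

/-- (FIT) `F(M) = M_σ A₀`. -/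
def StNabFit (G : Type u) [Group G] : Prop :=
  ∀ (M E A : Subgroup G) (p : ℕ) [Fact p.Prime], Nab M E A p →
    fittingOf M = sigmaCore M ⊔ (A ⊓ centralizer (sigmaCore M : Set G))

/-- Assembly of S1419. -/
theorem st1419_of_parts (hLine : StNabLine G) (hTau : StNabTau G) (hFit : StNabFit G) :
    St1419 G := by
  intro M hM E hE p _ hp hS A hA
  have hN : Nab M E A p := ⟨hM, hE, hp, hS, hA.1, hA.2.1, hA.2.2⟩
  exact ⟨hTau M E A p hN, ⟨(hLine M E A p hN).1, hFit M E A p hN⟩, (hLine M E A p hN).2⟩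

end Cfsg.Agent.H58.BG12
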