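import Mathlib
import Cfsg.Agent.H58.BG127Defs
import Cfsg.Agent.H57.BG126
import Cfsg.Agent.H70.BG10D
import Cfsg.Agent.H27.Rad

set_option autoImplicit false
set_option linter.style.haveILetI false

/-!
# Bender–Glauberman Corollary 12.7, `F(M) = M_σ A₀` (helper58)
-/

namespace Cfsg.Agent.H58.BG12

open Cfsg Subgroup Cfsg.Agent.H58.BG10 Cfsg.Agent.H57.BG12

universe u

variable {G : Type u} [Group G]

/-- B&G Corollary 12.7(b): `F(M) = M_σ A₀`. -/
theorem nabFit [Finite G] (h17 : St1417 G) (hOp : StNabOp G) (hOr : StNabOr G)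
    (hNorm : StNabNorm G) : StNabFit G := by
  intro M E A p _ hN
  have hp : p.Prime := Fact.out
  have hM := hN.coatom
  have hE := hN.compl
  have hAM : A ≤ M := hN.le.trans hE.1
  have hnil : Group.IsNilpotent (sigmaCore M) := (h17 M hM p hN.tau A ⟨hAM, hN.elem, hN.card⟩).1
  set A₀ : Subgroup G := A ⊓ centralizer (sigmaCore M : Set G) with hA₀
  have hA₀M : A₀ ≤ M := inf_le_left.trans hAM
  apply le_antisymm
  · -- `F(M) ≤ M_σ A₀`
    show (fittingSubgroup ↥M).map M.subtype ≤ sigmaCore M ⊔ A₀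
    rw [Cfsg.Agent.H27.fitting_eq_pCoreJoin, Cfsg.Agent.H27.pCoreJoin, Subgroup.map_iSup]
    apply iSup_le
    rintro ⟨q, hq⟩
    have hqP : q.Prime := Nat.prime_of_mem_primeFactors hq
    haveI : Fact q.Prime := ⟨hqP⟩
    have hRM : (pCore q ↥M).map M.subtype ≤ M := Subgroup.map_subtype_le _
    have hRq : IsPGroup q ((pCore q ↥M).map M.subtype) :=
      (Cfsg.Agent.H60.isPGroup_pCore q).map _
    have hRn : M ≤ normalizer (((pCore q ↥M).map M.subtype : Subgroup G) : Set G) :=
      Cfsg.Agent.H70.BG10.le_normalizer_map_subtype M (pCore q ↥M)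
    by_cases hqσ : q ∈ sigma M
    · refine le_trans ?_ le_sup_left
      show (pCore q ↥M).map M.subtype ≤ (piCore (sigma M) ↥M).map M.subtype
      apply Subgroup.map_mono
      apply le_sSup
      refine ⟨inferInstance, ?_⟩
      intro r hr hrd
      obtain ⟨k, hk⟩ := IsPGroup.iff_card.mp (Cfsg.Agent.H60.isPGroup_pCore (G := ↥M) q)
      rw [hk] at hrd
      have : r = q := (Nat.prime_dvd_prime_iff_eq hr hqP).mp (hr.dvd_of_dvd_pow hrd)
      rw [this]; exact hqσ
    · by_cases hqp : q = p
      · subst hqp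
        exact (hOp M E A q hN _ hRM hRq hRn).trans le_sup_right
      · rw [hOr M E A p hN q hqP hqσ hqp _ hRM hRq hRn]
        exact bot_le
  · -- `M_σ A₀ ≤ F(M)`
    show sigmaCore M ⊔ A₀ ≤ (fittingSubgroup ↥M).map M.subtype
    apply sup_le
    · show (piCore (sigma M) ↥M).map M.subtype ≤ (fittingSubgroup ↥M).map M.subtype
      apply Subgroup.map_mono
      apply le_sSup
      refine ⟨inferInstance, ?_⟩
      haveI h' : Group.IsNilpotent ↥((piCore (sigma M) ↥M).map M.subtype) := hnil
      exact Group.nilpotent_of_mulEquiv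
        ((piCore (sigma M) ↥M).equivMapOfInjective M.subtype M.subtype_injective).symm
    · have hnorm : (A₀.subgroupOf M).Normal :=
        (Subgroup.normal_subgroupOf_iff_le_normalizer hA₀M).mpr (hNorm M E A p hN)
      have hpg : IsPGroup p ↥(A₀.subgroupOf M) := by
        have h1 : IsPGroup p ↥A₀ := (isPGroup_of_elementary hN.elem).to_le inf_le_left
        exact h1.comap_of_injective M.subtype M.subtype_injective
      have hle : A₀.subgroupOf M ≤ fittingSubgroup ↥M :=
        le_sSup ⟨hnorm, hpg.isNilpotent⟩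
      have h2 : (A₀.subgroupOf M).map M.subtype = A₀ := by
        rw [Subgroup.subgroupOf_map_subtype, inf_eq_left.mpr hA₀M]
      rw [← h2]
      exact Subgroup.map_mono hle

end Cfsg.Agent.H58.BG12
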