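import Mathlib
import Cfsg.Agent.H58.BG127Defs
import Cfsg.Agent.H58.BG10FG
import Cfsg.Agent.H57.BG126
import Cfsg.Agent.H92.BG123
import Cfsg.Agent.H70.BG10D
import Cfsg.Agent.Lib.Helper30.Trans
import Cfsg.Agent.H63.Sig

set_option autoImplicit false
set_option linter.style.haveILetI false

/-!
# Bender–Glauberman Corollary 12.7, `τ₂(M) = {p}` (helper58)
-/

namespace Cfsg.Agent.H58.BG12

open Cfsg Subgroup Cfsg.Agent.H58.BG10 Cfsg.Agent.H57.BG12 Cfsg.Agent.H29.BG117
open scoped Pointwise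

universe u

variable {G : Type u} [Group G]

/-- An elementary abelian subgroup of order exactly `q²` in a subgroup of `q`-rank 2. -/
theorem exists_elementary_sq [Finite G] {M : Subgroup G} {q : ℕ} (hq : q.Prime)
    (h2 : PRankLE q 2 ↥M) (h1 : ¬ PRankLE q 1 ↥M) :
    ∃ B : Subgroup G, B ≤ M ∧ IsElementaryAbelian q B ∧ Nat.card B = q ^ 2 := by
  haveI : Fact q.Prime := ⟨hq⟩
  have h1' : ∃ A' : Subgroup ↥M, IsMulCommutative A' ∧ (∀ a ∈ A', a ^ q = 1) ∧
      q ^ 1 < Nat.card A' := by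
    by_contra hne
    apply h1
    intro A hA hAp
    by_contra hc
    exact hne ⟨A, hA, hAp, not_le.mp hc⟩
  obtain ⟨A', hA'c, hA'p, hA'card⟩ := h1'
  have hle := h2 A' hA'c hA'p
  have hpg : IsPGroup q ↥A' := by
    intro a
    refine ⟨1, ?_⟩
    apply Subtype.ext
    rw [pow_one]
    exact hA'p a.1 a.2
  obtain ⟨n, hn⟩ := IsPGroup.iff_card.mp hpg
  have hn2 : n = 2 := by
    rw [hn] at hA'card hle
    have ha : 1 < n := (Nat.pow_lt_pow_iff_right hq.one_lt).mp hA'card
    have hb : n ≤ 2 := (Nat.pow_le_pow_iff_right hq.one_lt).mp hle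
    omega
  subst hn2
  refine ⟨A'.map M.subtype, Subgroup.map_subtype_le A', ⟨⟨⟨fun x y => ?_⟩⟩, ?_⟩, ?_⟩
  · obtain ⟨x, hx⟩ := x
    obtain ⟨y, hy⟩ := y
    obtain ⟨x', hx', rfl⟩ := hx
    obtain ⟨y', hy', rfl⟩ := hy
    apply Subtype.ext
    have := hA'c.is_comm.comm ⟨x', hx'⟩ ⟨y', hy'⟩
    have h2 : x' * y' = y' * x' := congrArg Subtype.val this
    show M.subtype x' * M.subtype y' = M.subtype y' * M.subtype x'
    rw [← map_mul, ← map_mul, h2]
  · rintro _ ⟨a, ha, rfl⟩
    rw [← map_pow, hA'p a ha, map_one]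
  · rw [Subgroup.card_map_of_injective M.subtype_injective, hn]

/-- A conjugate of an elementary abelian subgroup is elementary abelian. -/
theorem elementary_map_conj {q : ℕ} {B : Subgroup G} (hB : IsElementaryAbelian q B) (g : G) :
    IsElementaryAbelian q (B.map (MulAut.conj g).toMonoidHom) := by
  refine ⟨⟨⟨fun x y => ?_⟩⟩, ?_⟩
  · obtain ⟨x, hx⟩ := x
    obtain ⟨y, hy⟩ := y
    obtain ⟨x', hx', rfl⟩ := hx
    obtain ⟨y', hy', rfl⟩ := hy
    apply Subtype.ext
    have := hB.1.is_comm.comm ⟨x', hx'⟩ ⟨y', hy'⟩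
    have h2 : x' * y' = y' * x' := congrArg Subtype.val this
    show (MulAut.conj g).toMonoidHom x' * (MulAut.conj g).toMonoidHom y' =
      (MulAut.conj g).toMonoidHom y' * (MulAut.conj g).toMonoidHom x'
    rw [← map_mul, ← map_mul, h2]
  · rintro _ ⟨a, ha, rfl⟩
    rw [← map_pow, hB.2 a ha, map_one]

/-- A subgroup of `L` of `p'`-index in `L`, where `L` has `p'`-index: there is a Sylow
`p`-subgroup of `G` inside `L`, normal in `L` if `L` is nilpotent. -/
theorem exists_sylow_le_nilpotent [Finite G] {p : ℕ} [Fact p.Prime] {L : Subgroup G}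
    (hL : Group.IsNilpotent L) (hidx : ¬ p ∣ L.index) :
    ∃ S : Sylow p G, (S : Subgroup G) ≤ L ∧ L ≤ normalizer ((S : Subgroup G) : Set G) := by
  obtain ⟨P⟩ : Nonempty (Sylow p L) := inferInstance
  haveI := hL
  have hPn : (P : Subgroup L).Normal := inferInstance
  have hpg : IsPGroup p ((P : Subgroup L).map L.subtype) := P.isPGroup'.map _
  have hi : ¬ p ∣ ((P : Subgroup L).map L.subtype).index := by
    rw [Subgroup.index_map_subtype]
    intro h
    rcases (Nat.Prime.dvd_mul Fact.out).mp h with h | h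
    · exact P.not_dvd_index h
    · exact hidx h
  refine ⟨hpg.toSylow hi, ?_, ?_⟩
  · rw [IsPGroup.toSylow_coe]
    exact Subgroup.map_subtype_le _
  · rw [IsPGroup.toSylow_coe]
    exact Cfsg.Agent.H70.BG10.le_normalizer_map_subtype L (P : Subgroup L)

/-- B&G Corollary 12.7(a): `τ₂(M) = {p}`. -/
theorem nabTau [Finite G] (hG : IsMinSimpleOddOrder G) (h96 : St1403 G) (h16 : St1416 G)
    (h17 : St1417 G) (h18 : St1418 G) (h14 : St1414 G) (h350 : St1350 G) (h1408 : St1408 G)
    (hconj : StSigConj G) : StNabTau G := by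
  intro M E A p _ hN
  have hp : p.Prime := Fact.out
  obtain ⟨hM, hE, hpτ, hnab, hAE, hAel, hAcard⟩ := hN
  have hEM : E ≤ M := hE.1
  have hAM : A ≤ M := hAE.trans hEM
  have hpσ : p ∉ sigma M := hpτ.2.1
  have hp2 : PRankLE p 2 ↥M := hpτ.2.2.1
  have hp1 : ¬ PRankLE p 1 ↥M := hpτ.2.2.2
  ext r
  rw [Set.mem_singleton_iff]
  constructor
  swap
  · rintro rfl; exact hpτ
  intro hr
  by_contra hrp
  obtain ⟨hrP, hrσ, hr2, hr1⟩ := hr
  haveI : Fact r.Prime := ⟨hrP⟩
  obtain ⟨B₀, hB₀M, hB₀el, hB₀card⟩ := exists_elementary_sq hrP hr2 hr1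
  have hB₀pr : ∀ q : ℕ, q.Prime → q ∣ Nat.card B₀ → q ∉ sigma M := by
    intro q hq hqd
    rw [hB₀card] at hqd
    have : q = r := (Nat.prime_dvd_prime_iff_eq hq hrP).mp (hq.dvd_of_dvd_pow hqd)
    rw [this]; exact hrσ
  obtain ⟨g, hgM, hgE⟩ := hconj M hM E hE B₀ hB₀M hB₀pr
  set B := B₀.map (MulAut.conj g).toMonoidHom with hBdef
  have hBel : IsElementaryAbelian r B := elementary_map_conj hB₀el g
  have hBcard : Nat.card B = r ^ 2 := by
    rw [hBdef, Subgroup.card_map_of_injective (MulAut.conj g).injective, hB₀card]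
  have hBM : B ≤ M := hgE.trans hEM
  have h18A := h18 M hM E hE p hpτ A ⟨hAE, hAel, hAcard⟩
  have h18B := h18 M hM E hE r ⟨hrP, hrσ, hr2, hr1⟩ B ⟨hgE, hBel, hBcard⟩
  have hEA : E ≤ normalizer (A : Set G) := h18A.1.1
  have hEB : E ≤ normalizer (B : Set G) := h18B.1.1
  have hABbot : A ⊓ B = ⊥ := (Subgroup.disjoint_of_coprime_natCard (by
    rw [hAcard, hBcard]
    exact Nat.Coprime.pow 2 2 ((Nat.coprime_primes hp hrP).mpr (Ne.symm hrp)))).eq_bot
  have hAB : ∀ a ∈ A, ∀ b ∈ B, a * b = b * a := by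
    intro a ha b hb
    have h1 : a * b * a⁻¹ * b⁻¹ ∈ A ⊓ B := by
      refine ⟨?_, ?_⟩
      · have hbN := hEA (hgE hb)
        have : b * a⁻¹ * b⁻¹ ∈ A :=
          (Subgroup.mem_normalizer_iff.mp hbN a⁻¹).mp (A.inv_mem ha)
        have h2 : a * b * a⁻¹ * b⁻¹ = a * (b * a⁻¹ * b⁻¹) := by group
        rw [h2]; exact A.mul_mem ha this
      · have haN := hEB (hAE ha)
        have : a * b * a⁻¹ ∈ B := (Subgroup.mem_normalizer_iff.mp haN b).mp hb
        exact B.mul_mem this (B.inv_mem hb)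
    rw [hABbot, Subgroup.mem_bot] at h1
    have h3 : a * b * a⁻¹ * b⁻¹ * (b * a) = b * a := by rw [h1, one_mul]
    rw [← h3]; group
  have hAmax := (h1408 M hM p hpσ hp2 hp1).2 A hAM hAel hAcard
  have hnotideal_p : ¬ IsIdealPrime p G := (h1408 M hM p hpσ hp2 hp1).1
  have hnotideal_r : ¬ IsIdealPrime r G := (h1408 M hM r hrσ hr2 hr1).1
  obtain ⟨S, hAS⟩ := (isPGroup_of_elementary hAel).exists_le_sylow
  set Z : Subgroup G := closure {u : G | u ∈ (S : Subgroup G) ∧
    (∀ s ∈ (S : Subgroup G), s * u = u * s) ∧ u ^ p = 1} with hZdef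
  have hZA : Z ≤ A := by
    rw [hZdef, Subgroup.closure_le]
    rintro u ⟨huS, huc, hup⟩
    have hucA : ∀ b ∈ A, u * b = b * u := fun b hb => (huc b (hAS hb)).symm
    have h1 := Cfsg.Agent.H70.BG10.sup_zpowers_elementary hAel hucA hup
    have h2 := hAmax _ h1 le_sup_left
    have h3 : u ∈ A ⊔ zpowers u := (le_sup_right : zpowers u ≤ A ⊔ zpowers u) (mem_zpowers u)
    rw [h2] at h3; exact h3
  have hZbot : Z ≠ ⊥ := by
    have hScard : 1 < Nat.card (S : Subgroup G) := by
      have h1 : Nat.card A ≤ Nat.card (S : Subgroup G) := Subgroup.card_le_of_le hAS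
      rw [hAcard] at h1
      have := Nat.one_lt_pow (n := 2) (by norm_num) hp.one_lt
      omega
    haveI : Nontrivial (S : Subgroup G) := (Finite.one_lt_card_iff_nontrivial).mp hScard
    haveI hc : Nontrivial (center (S : Subgroup G)) := IsPGroup.center_nontrivial S.isPGroup'
    have hcp : IsPGroup p (center (S : Subgroup G)) := S.isPGroup'.to_subgroup _
    obtain ⟨n, hn⟩ := IsPGroup.iff_card.mp hcp
    have hn0 : n ≠ 0 := by
      rintro rfl
      rw [pow_zero] at hn
      have := (Finite.one_lt_card_iff_nontrivial).mpr hc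
      omega
    have hdvd : p ∣ Nat.card (center (S : Subgroup G)) := by rw [hn]; exact dvd_pow_self p hn0
    obtain ⟨c, hco⟩ := exists_prime_orderOf_dvd_card' p hdvd
    have hcS : ((c : (S : Subgroup G)) : G) ∈ (S : Subgroup G) := (c : (S : Subgroup G)).2
    have hcen : ∀ s ∈ (S : Subgroup G), s * ((c : (S : Subgroup G)) : G) =
        ((c : (S : Subgroup G)) : G) * s := by
      intro s hs
      have := Subgroup.mem_center_iff.mp c.2 ⟨s, hs⟩
      exact congrArg Subtype.val this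
    have hcp' : ((c : (S : Subgroup G)) : G) ^ p = 1 := by
      have h1 : c ^ p = 1 := by
        have h0 : c ^ orderOf c = 1 := pow_orderOf_eq_one c
        rw [hco] at h0; exact h0
      have h2 : ((c ^ p : center (S : Subgroup G)) : (S : Subgroup G)) = 1 := by rw [h1]; rfl
      have h3 : (((c ^ p : center (S : Subgroup G)) : (S : Subgroup G)) : G) = 1 := by
        rw [h2]; rfl
      simpa using h3
    have hc1 : ((c : (S : Subgroup G)) : G) ≠ 1 := by
      intro h
      have h1 : c = 1 := by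
        apply Subtype.ext; apply Subtype.ext; exact h
      rw [h1, orderOf_one] at hco
      exact hp.one_lt.ne hco
    intro hZ
    have hmem : ((c : (S : Subgroup G)) : G) ∈ Z := by
      rw [hZdef]; exact Subgroup.subset_closure ⟨hcS, hcen, hcp'⟩
    rw [hZ, Subgroup.mem_bot] at hmem
    exact hc1 hmem
  have hZtop : Z ≠ ⊤ := fun h => hM.1 (top_le_iff.mp (h ▸ hZA.trans hAM))
  have hNZ : normalizer (Z : Set G) ≠ ⊤ :=
    Cfsg.Agent.Lib.Helper30.minSimple_normalizer_ne_top hG hZbot hZtop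
  obtain ⟨H, hH, hNH⟩ := exists_coatom_ge hNZ
  have hNS : normalizer ((S : Subgroup G) : Set G) ≤ normalizer (Z : Set G) := by
    have key : ∀ n ∈ normalizer ((S : Subgroup G) : Set G), ∀ z ∈ Z, n * z * n⁻¹ ∈ Z := by
      intro n hn z hz
      rw [hZdef] at hz ⊢
      induction hz using Subgroup.closure_induction with
      | mem u hu =>
        obtain ⟨huS, huc, hup⟩ := hu
        apply Subgroup.subset_closure
        refine ⟨(Subgroup.mem_normalizer_iff.mp hn u).mp huS, ?_, ?_⟩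
        · intro s hs
          have hs' : n⁻¹ * s * n ∈ (S : Subgroup G) := by
            refine (Subgroup.mem_normalizer_iff.mp hn (n⁻¹ * s * n)).mpr ?_
            have : n * (n⁻¹ * s * n) * n⁻¹ = s := by group
            rw [this]; exact hs
          have h1 := huc _ hs'
          calc s * (n * u * n⁻¹) = n * (n⁻¹ * s * n * u) * n⁻¹ := by group
            _ = n * (u * (n⁻¹ * s * n)) * n⁻¹ := by rw [h1]
            _ = n * u * n⁻¹ * s := by group
        · rw [conj_pow, hup]; group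
      | one => simp
      | mul x y hx hy ihx ihy =>
        have : n * (x * y) * n⁻¹ = (n * x * n⁻¹) * (n * y * n⁻¹) := by group
        rw [this]; exact Subgroup.mul_mem _ ihx ihy
      | inv x hx ih =>
        have : n * x⁻¹ * n⁻¹ = (n * x * n⁻¹)⁻¹ := by group
        rw [this]; exact Subgroup.inv_mem _ ih
    intro n hn
    rw [Subgroup.mem_normalizer_iff]
    intro z
    constructor
    · exact key n hn z
    · intro hz
      have hn' : n⁻¹ ∈ normalizer ((S : Subgroup G) : Set G) := Subgroup.inv_mem _ hn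
      have := key n⁻¹ hn' _ hz
      have h2 : n⁻¹ * (n * z * n⁻¹) * n⁻¹⁻¹ = z := by group
      rwa [h2] at this
  have hSH : (S : Subgroup G) ≤ H := (Subgroup.le_normalizer.trans hNS).trans hNH
  have hAH : A ≤ H := hAS.trans hSH
  have hBH : B ≤ H := by
    intro b hb
    apply hNH
    have hcomm : ∀ z ∈ Z, b * z * b⁻¹ = z := by
      intro z hz
      have := hAB z (hZA hz) b hb
      rw [← this]; group
    rw [Subgroup.mem_normalizer_iff]
    intro z
    constructor
    · intro hz; rw [hcomm z hz]; exact hz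
    · intro hz
      have hw := hcomm _ hz
      have e1 : b⁻¹ * (b * (b * z * b⁻¹) * b⁻¹) * b = b * z * b⁻¹ := by group
      have e2 : b⁻¹ * (b * z * b⁻¹) * b = z := by group
      have h4 : b * z * b⁻¹ = z := by
        have h5 : b⁻¹ * (b * (b * z * b⁻¹) * b⁻¹) * b = b⁻¹ * (b * z * b⁻¹) * b := by rw [hw]
        rw [e1, e2] at h5; exact h5
      rw [← h4]; exact hz
  have hpH : p ∈ sigma H := by
    refine ⟨hp, ?_, S.subtype hSH, ?_⟩
    · have h1 : Nat.card A ∣ Nat.card H := Subgroup.card_dvd_of_le hAH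
      rw [hAcard] at h1
      exact (dvd_pow_self p (by norm_num)).trans h1
    · have : ((S.subtype hSH : Sylow p H) : Subgroup H).map H.subtype = (S : Subgroup G) := by
        rw [Sylow.coe_subtype, Subgroup.subgroupOf_map_subtype, inf_eq_left.mpr hSH]
      rw [this]
      exact hNS.trans hNH
  by_cases hrH : r ∈ sigma H
  · obtain ⟨-, -, -, ⟨L, hLhall, hLnil⟩, -⟩ := h14 H hH
    have hidx : ∀ q : ℕ, q.Prime → q ∈ sigma H → ¬ IsIdealPrime q G → ¬ q ∣ L.index := by
      intro q hq hqσ hqi hd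
      rw [← Subgroup.relIndex_mul_index hLhall.1] at hd
      rcases (Nat.Prime.dvd_mul hq).mp hd with h | h
      · exact hLhall.2.2 q hq ⟨hq, fun hb => hqi hb.2⟩ h
      · exact (h350 H hH).2.1.2 q hq hqσ h
    obtain ⟨SL, hSL, hSLn⟩ :=
      exists_sylow_le_nilpotent (p := p) hLnil (hidx p hp hpH hnotideal_p)
    obtain ⟨RL, hRL, hRLn⟩ :=
      exists_sylow_le_nilpotent (p := r) hLnil (hidx r hrP hrH hnotideal_r)
    have hcomm : ∀ s ∈ (SL : Subgroup G), ∀ t ∈ (RL : Subgroup G), s * t = t * s := by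
      intro s hs t ht
      have h1 : s * t * s⁻¹ * t⁻¹ ∈ (SL : Subgroup G) ⊓ (RL : Subgroup G) := by
        refine ⟨?_, ?_⟩
        · have htN := hSLn (hRL ht)
          have : t * s⁻¹ * t⁻¹ ∈ (SL : Subgroup G) :=
            (Subgroup.mem_normalizer_iff.mp htN s⁻¹).mp (Subgroup.inv_mem _ hs)
          have h2 : s * t * s⁻¹ * t⁻¹ = s * (t * s⁻¹ * t⁻¹) := by group
          rw [h2]; exact Subgroup.mul_mem _ hs this
        · have hsN := hRLn (hSL hs)
          have : s * t * s⁻¹ ∈ (RL : Subgroup G) :=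
            (Subgroup.mem_normalizer_iff.mp hsN t).mp ht
          exact Subgroup.mul_mem _ this (Subgroup.inv_mem _ ht)
      have hbot : (SL : Subgroup G) ⊓ (RL : Subgroup G) = ⊥ :=
        (IsPGroup.disjoint_of_ne p r (Ne.symm hrp) _ _ SL.isPGroup' RL.isPGroup').eq_bot
      rw [hbot, Subgroup.mem_bot] at h1
      have h3 : s * t * s⁻¹ * t⁻¹ * (t * s) = t * s := by rw [h1, one_mul]
      rw [← h3]; group
    obtain ⟨Q, hBQ⟩ := (isPGroup_of_elementary hBel).exists_le_sylow
    obtain ⟨k, hk⟩ := MulAction.exists_smul_eq G RL Q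
    have hS'C : ((k • SL : Sylow p G) : Subgroup G) ≤ centralizer (B : Set G) := by
      intro s hs
      rw [Sylow.coe_subgroup_smul] at hs
      rw [Subgroup.mem_centralizer_iff]
      intro b hb
      have hbQ : b ∈ ((k • RL : Sylow r G) : Subgroup G) := by rw [hk]; exact hBQ hb
      rw [Sylow.coe_subgroup_smul] at hbQ
      have hs' := Cfsg.Agent.H63.Sig.mem_cj.mp hs
      have hb' := Cfsg.Agent.H63.Sig.mem_cj.mp hbQ
      have h1 := hcomm _ hs' _ hb'
      have h2 : b * s = k * ((k⁻¹ * b * k) * (k⁻¹ * s * k)) * k⁻¹ := by group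
      have h3 : s * b = k * ((k⁻¹ * s * k) * (k⁻¹ * b * k)) * k⁻¹ := by group
      rw [h2, h3, h1]
    have hS'M : ((k • SL : Sylow p G) : Subgroup G) ≤ M :=
      hS'C.trans (h16 M hM r B ⟨hBM, hBel, hBcard⟩).1
    obtain ⟨P', hP'⟩ := exists_sylow_map_ge (k • SL : Sylow p G).isPGroup' hS'M
    have hP'comm := ((h17 M hM p hpτ A ⟨hAM, hAel, hAcard⟩).2.1 P').1
    apply hnab (k • SL)
    refine ⟨⟨fun x y => ?_⟩⟩
    obtain ⟨x, hx⟩ := x
    obtain ⟨y, hy⟩ := y
    obtain ⟨x', hx', hxe⟩ := hP' hx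
    obtain ⟨y', hy', hye⟩ := hP' hy
    apply Subtype.ext
    have := hP'comm.is_comm.comm ⟨x', hx'⟩ ⟨y', hy'⟩
    have h2 : x' * y' = y' * x' := congrArg Subtype.val this
    show x * y = y * x
    rw [← hxe, ← hye, ← map_mul, ← map_mul, h2]
  · have hr2H : PRankLE r 2 ↥H := by
      by_contra h
      exact hrH (alpha_subset_sigma hG h96 hH ⟨hrP, h⟩)
    have hr1H : ¬ PRankLE r 1 ↥H :=
      Cfsg.Agent.H31.BG8.not_pRankLE_of_le hBH hBel (by
        rw [hBcard]; exact Nat.pow_lt_pow_right hrP.one_lt (by norm_num))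
    have h17H := (h17 H hH r ⟨hrP, hrH, hr2H, hr1H⟩ B ⟨hBH, hBel, hBcard⟩).2.2.2.1
    have hAσ : A ≤ sigmaCore H :=
      Cfsg.Agent.H92.BG12.le_sigmaCore_of_mem h350 hH hpH (isPGroup_of_elementary hAel) hAH
    have hAC : A ≤ centralizer (B : Set G) := by
      intro a ha
      rw [Subgroup.mem_centralizer_iff]
      intro b hb
      exact (hAB a ha b hb).symm
    have hAbot : A ≤ ⊥ := h17H ▸ le_inf hAσ hAC
    have h1 : Nat.card A = 1 := by rw [le_bot_iff.mp hAbot]; exact Subgroup.card_bot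
    rw [hAcard] at h1
    have := Nat.one_lt_pow (n := 2) (by norm_num) hp.one_lt
    omega

end Cfsg.Agent.H58.BG12
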