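import Mathlib
import Cfsg.Agent.H58.BG127Defs
import Cfsg.Agent.H58.BG127Tau
import Cfsg.Agent.H58.BG127Fit
import Cfsg.Agent.H58.BG10All2
import Cfsg.Agent.H76.BG10x
import Cfsg.Agent.H57.BG129Main
import Cfsg.Agent.H92.BG12Sig
import Cfsg.Agent.H28.BG127Lines
import Cfsg.Agent.H67.BG127NORM
import Cfsg.Agent.H67.BG127OR
import Cfsg.Agent.H67.BG127X
import Cfsg.Agent.H3.BG127PW
import Cfsg.Agent.Helper55.BG127Line
import Cfsg.Agent.Helper55.BG127Op

set_option autoImplicit false

/-!
# Bender–Glauberman Corollary 12.7 (S1419) from S1416 and S1417 (helper58)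

Assembly of the S1419 team project: pieces by helper28 (LINES), helper67 (NORM, OR, X),
helper55 (LINE, OP), helper3 (PW), helper58 (TAU, FIT).
-/

namespace Cfsg.Agent.H58.BG12

open Cfsg Subgroup Cfsg.Agent.H58.BG10 Cfsg.Agent.H57.BG12 Cfsg.Agent.H29.BG117

universe u

variable {G : Type u} [Group G] [Finite G]

/-- S1419 (B&G Corollary 12.7) from S1416 and S1417. -/
theorem st1419_of (hG : IsMinSimpleOddOrder G) (h16 : St1416 G) (h17 : St1417 G) :
    St1419 G := by
  have h50 : St1350 G := st1350 hG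
  have h03 : St1403 G := st1403 hG
  have h05 : St1405 G := st1405 hG
  have h08 : St1408 G := st1408 hG
  have h09 : St1409 G := st1409 hG
  have h12 : St1412 G := st1412 hG
  have h14 : St1414 G := Cfsg.Agent.H76.BG10.bg108 hG (stSigComm hG) h05 (st1410 hG)
  have h18 : St1418 G := bg126 hG h16 h17
  have hconj : StSigConj G := Cfsg.Agent.H57.BG12Hall.sigConj hG h50
  have hne : StSigNe G := Cfsg.Agent.H92.BG12.sigNe hG h05 h50
  have hL : StLines G := Cfsg.Agent.H28.BG127.lines
  have hNorm : StNabNorm G := Cfsg.Agent.H67.BG12.nabNorm hG h18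
  have hTau : StNabTau G := nabTau hG h03 h16 h17 h18 h14 h50 h08 hconj
  have hX : StNabX G := Cfsg.Agent.H67.BG12.nabX hG h17
  have hPW : StPW G := Cfsg.Agent.H3.BG12.pw hG h12
  have hLine : StNabLine G := Cfsg.Agent.Helper55.BG12.nabLine hG h16 h17 h18 h50 hne hX hL
  have hOp : StNabOp G := Cfsg.Agent.Helper55.BG12.nabOp h18 h50 h08 hne hX hPW
  have hOr : StNabOr G := Cfsg.Agent.H67.BG12.nabOr hG h03 h09 hTau
  have hFit : StNabFit G := nabFit h17 hOp hOr hNorm
  exact st1419_of_parts hLine hTau hFit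

end Cfsg.Agent.H58.BG12
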