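import Mathlib
import Cfsg.Agent.H58.JzLt
import Cfsg.Agent.H61.JkBasic
import Cfsg.Agent.H52.SrAsm
import Cfsg.Agent.H40.SrDEC
import Cfsg.Agent.S2948
import Cfsg.Agent.S2951
import Cfsg.Agent.S2952
import Cfsg.Agent.H64.JyDefs

/-!
# S2953 (team project JY): the clauses for `P = K ⊔ T` from a `Base` configuration

`Base S M T K L` (hypotheses of S2951).  With `P := K ⊔ T`:
`C_G(O₂(P)) ≤ O₂(P)`, `T` Sylow in `P`, `|P : O₂(P)| = 6`, `P/O₂(P)` non-abelian,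
`[Ω₁Z(T), P] ≠ 1`, and `L` is the unique maximal 2-local over `P`, with `T` Sylow in it.
-/

set_option autoImplicit false
open Cfsg

namespace Cfsg.Agent.H58.Jy

open Cfsg.Agent.H64.Jz
open scoped commutatorElement

universe u

variable {G : Type u} [Group G] [Finite G]

/-- `L` is the unique maximal 2-local over `K ⊔ T`, and `T` is Sylow in it. -/
theorem good_L (S : Sylow 2 G) (M T K L : Subgroup G) (hB : Base S M T K L) :
    IsMaximalTwoLocal L ∧ K ⊔ T ≤ L ∧ IsSylowTwoIn T L ∧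
      ∀ L' : Subgroup G, IsMaximalTwoLocal L' → K ⊔ T ≤ L' → L' = L := by
  obtain ⟨hsub, hSyl⟩ := Cfsg.Agent.H61.Jk.base_facts S M T K L hB
  obtain ⟨hZN, hO, hM, hMJ, hT, hTS, hK, hLmax, hKJL⟩ := hB
  obtain ⟨hchar, hsolv, hZ⟩ := hZN
  refine ⟨hLmax, sup_le (le_sup_left.trans hKJL) hSyl.1, hSyl, ?_⟩
  intro L' hL' hPL'
  obtain ⟨L₀, hL₀max, hL₀, huniq, -, -⟩ :=
    Cfsg.Agent.S2950.result hchar hsolv hZ hO S M hM hMJ T hT K hK
  have hJT : thompsonSubgroupOf 2 T ≤ T := Cfsg.Agent.H14.thompsonSubgroupOf_le 2 T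
  have h1 : K ⊔ thompsonSubgroupOf 2 T ≤ L' := (sup_le_sup_left hJT K).trans hPL'
  rw [huniq L' hL' h1, huniq L hLmax hKJL]

/-- `T` is Sylow in `K ⊔ T`. -/
theorem good_syl (S : Sylow 2 G) (M T K L : Subgroup G) (hB : Base S M T K L) :
    IsSylowTwoIn T (K ⊔ T) := by
  obtain ⟨hLmax, hPL, hSyl, -⟩ := good_L S M T K L hB
  refine ⟨le_sup_right, hSyl.2.1, ?_⟩
  have h1 := Subgroup.relIndex_mul_relIndex T (K ⊔ T) L le_sup_right hPL
  have h2 : Odd (T.relIndex (K ⊔ T) * (K ⊔ T).relIndex L) := by rw [h1]; exact hSyl.2.2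
  exact (Nat.odd_mul.mp h2).1

/-- `C_G(O₂(P)) ≤ O₂(P)`. -/
theorem good_cent (S : Sylow 2 G) (M T K L : Subgroup G) (hB : Base S M T K L) :
    Subgroup.centralizer (pCoreOf 2 (K ⊔ T) : Set G) ≤ pCoreOf 2 (K ⊔ T) := by
  obtain ⟨hLmax, hPL, hSyl, -⟩ := good_L S M T K L hB
  have hchar : IsCharacteristicTwoType G := hB.1.1
  have hQT : pCoreOf 2 L ≤ T := Cfsg.Agent.Helper55.J48.pCoreOf_le_of_sylowIn hSyl
  have hQP : pCoreOf 2 L ≤ pCoreOf 2 (K ⊔ T) := by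
    apply Cfsg.Agent.H31.X.H54.le_pCoreOf (hQT.trans le_sup_right)
    · exact hPL.trans (Cfsg.Agent.H31.X.H54.le_normalizer_pCoreOf L)
    · exact Cfsg.Agent.Helper55.Uq.pCoreOf_isPGroup L
  intro x hx
  have hx' : x ∈ Subgroup.centralizer (pCoreOf 2 L : Set G) :=
    Subgroup.centralizer_le (by exact_mod_cast hQP) hx
  exact hQP (Cfsg.Agent.Helper55.J48.centralizer_pCoreOf_le hchar hLmax.1 hx')

/-- `T` is not normal in `K ⊔ T`. -/
theorem not_norm (S : Sylow 2 G) (M T K L : Subgroup G) (hB : Base S M T K L) :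
    ¬ K ⊔ T ≤ Subgroup.normalizer (T : Set G) := by
  intro h
  obtain ⟨hZN, hO, hM, hMJ, hT, hTS, hK, hLmax, hKJL⟩ := hB
  have hJ : IsJComponent T K := hK.1.1
  have hT2 : IsPGroup 2 ↥T := hT.1.1
  have hKN : K ≤ Subgroup.normalizer (thompsonSubgroupOf 2 T : Set G) := fun k hk =>
    Cfsg.Agent.Helper55.ThJ.normalizer_le T (h (Subgroup.mem_sup_left hk))
  have hcomm : ⁅K, thompsonSubgroupOf 2 T⁆ ≤ thompsonSubgroupOf 2 T := by
    rw [Subgroup.commutator_le]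
    intro k hk j hj
    have h1 : k * j * k⁻¹ ∈ thompsonSubgroupOf 2 T :=
      (Subgroup.mem_normalizer_iff.mp (hKN hk) j).mp hj
    have h2 : ⁅k, j⁆ = (k * j * k⁻¹) * j⁻¹ := by rw [commutatorElement_def]
    rw [h2]
    exact Subgroup.mul_mem _ h1 (Subgroup.inv_mem _ hj)
  have hKT : K ≤ T :=
    (le_of_eq hJ.2.1.symm).trans (hcomm.trans (Cfsg.Agent.H14.thompsonSubgroupOf_le 2 T))
  have hcl : Subgroup.closure {g : G | g ∈ K ∧ Odd (orderOf g)} = ⊥ := by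
    rw [Subgroup.closure_eq_bot_iff]
    rintro g ⟨hgK, hodd⟩
    have hgT : g ∈ T := hKT hgK
    obtain ⟨k, hk⟩ := hT2 ⟨g, hgT⟩
    have hk' : g ^ 2 ^ k = 1 := by
      have := congrArg Subtype.val hk
      simpa using this
    have hdvd : orderOf g ∣ 2 ^ k := orderOf_dvd_of_pow_eq_one hk'
    have hcop : Nat.Coprime (orderOf g) (2 ^ k) :=
      Nat.Coprime.pow_right k (Nat.coprime_two_right.mpr hodd)
    have h1 : orderOf g = 1 := Nat.Coprime.eq_one_of_dvd hcop hdvd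
    exact Set.mem_singleton_iff.mpr (orderOf_eq_one_iff.mp h1)
  have hK1 : K = ⊥ := by rw [← hJ.1]; exact hcl
  have h3 := hJ.2.2.1
  rw [hK1] at h3
  simp at h3

/-- `|K ⊔ T : T| = 3`. -/
theorem relIndex_three (S : Sylow 2 G) (M T K L : Subgroup G) (hB : Base S M T K L) :
    T.relIndex (K ⊔ T) = 3 := by
  obtain ⟨hsub, hSyl⟩ := Cfsg.Agent.H61.Jk.base_facts S M T K L hB
  obtain ⟨hZN, hO, hM, hMJ, hT, hTS, hK, hLmax, hKJL⟩ := hB
  obtain ⟨hchar, hsolv, hZ⟩ := hZN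
  have hJ : IsJComponent T K := hK.1.1
  have hT2 : IsPGroup 2 ↥T := hT.1.1
  have hKL : K ≤ L := le_sup_left.trans hKJL
  have hOK : pCoreOf 2 K ≤ K := by
    unfold pCoreOf
    exact Subgroup.map_subtype_le _
  have hOT : pCoreOf 2 K ≤ T :=
    (Cfsg.Agent.H54.Uq.o2sn K L hKL hsub).trans
      (Cfsg.Agent.Helper55.J48.pCoreOf_le_of_sylowIn hSyl)
  have hKP : K ≤ K ⊔ T := le_sup_left
  have hTP : T ≤ K ⊔ T := le_sup_right
  have hnK : (K.subgroupOf (K ⊔ T)).Normal :=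
    Cfsg.Agent.S2952.result hchar hsolv hZ hO S M hM hMJ T hT K hK
  have hsup : K.subgroupOf (K ⊔ T) ⊔ T.subgroupOf (K ⊔ T) = ⊤ := by
    rw [← Subgroup.subgroupOf_sup hKP hTP, Subgroup.subgroupOf_self]
  have hT0 : IsPGroup 2 (T.subgroupOf (K ⊔ T)) := hT2.comap_subtype
  exact Cfsg.Agent.H59.PushKill.index_eq_three (K.subgroupOf (K ⊔ T)) (T.subgroupOf (K ⊔ T))
    ((pCoreOf 2 K).subgroupOf (K ⊔ T)) hsup hT0 (fun x hx => hOK hx) (fun x hx => hOT hx)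
    (by rw [Subgroup.relIndex_subgroupOf hKP]; exact hJ.2.2.1)

/-- `|T : O₂(K ⊔ T)| = 2`. -/
theorem relIndex_two (S : Sylow 2 G) (M T K L : Subgroup G) (hB : Base S M T K L) :
    pCoreOf 2 (K ⊔ T) ≤ T ∧ (pCoreOf 2 (K ⊔ T)).relIndex T = 2 := by
  have hsylP := good_syl S M T K L hB
  have hnn := not_norm S M T K L hB
  obtain ⟨hsub, hSyl⟩ := Cfsg.Agent.H61.Jk.base_facts S M T K L hB
  obtain ⟨hZN, hO, hM, hMJ, hT, hTS, hK, hLmax, hKJL⟩ := hB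
  obtain ⟨hchar, hsolv, hZ⟩ := hZN
  have hJ : IsJComponent T K := hK.1.1
  have hT2 : IsPGroup 2 ↥T := hT.1.1
  have hKL : K ≤ L := le_sup_left.trans hKJL
  have hOK : pCoreOf 2 K ≤ K := by
    unfold pCoreOf
    exact Subgroup.map_subtype_le _
  have hOT : pCoreOf 2 K ≤ T :=
    (Cfsg.Agent.H54.Uq.o2sn K L hKL hsub).trans
      (Cfsg.Agent.Helper55.J48.pCoreOf_le_of_sylowIn hSyl)
  have hKP : K ≤ K ⊔ T := le_sup_left
  have hTP : T ≤ K ⊔ T := le_sup_right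
  have hnK : (K.subgroupOf (K ⊔ T)).Normal :=
    Cfsg.Agent.S2952.result hchar hsolv hZ hO S M hM hMJ T hT K hK
  have hPNK : K ⊔ T ≤ Subgroup.normalizer (K : Set G) :=
    (Subgroup.normal_subgroupOf_iff_le_normalizer hKP).mp hnK
  have hTK : T ≤ Subgroup.normalizer (K : Set G) := hTP.trans hPNK
  obtain ⟨Q', hQ'T, hQ'N, hQ'2, -⟩ :=
    Cfsg.Agent.H59.PushKill.pstruct K T (pCoreOf 2 K) hT2 hTK hOK hOT hJ.2.2.1 hJ.1
  have hQT : pCoreOf 2 (K ⊔ T) ≤ T := Cfsg.Agent.Helper55.J48.pCoreOf_le_of_sylowIn hsylP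
  have hQ'Q : Q' ≤ pCoreOf 2 (K ⊔ T) :=
    Cfsg.Agent.H31.X.H54.le_pCoreOf (hQ'T.trans hTP) hQ'N (hT2.to_le hQ'T)
  refine ⟨hQT, ?_⟩
  have hdvd : (pCoreOf 2 (K ⊔ T)).relIndex T ∣ Q'.relIndex T :=
    Subgroup.relIndex_dvd_of_le_left T hQ'Q
  have hpos : 0 < Q'.relIndex T :=
    Nat.pos_of_ne_zero (Subgroup.index_ne_zero_of_finite (H := Q'.subgroupOf T))
  have hle : (pCoreOf 2 (K ⊔ T)).relIndex T ≤ 2 := (Nat.le_of_dvd hpos hdvd).trans hQ'2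
  have hne1 : (pCoreOf 2 (K ⊔ T)).relIndex T ≠ 1 := by
    intro h1
    have hTQ : T ≤ pCoreOf 2 (K ⊔ T) := Subgroup.relIndex_eq_one.mp h1
    have hEq : pCoreOf 2 (K ⊔ T) = T := le_antisymm hQT hTQ
    apply hnn
    have := Cfsg.Agent.H31.X.H54.le_normalizer_pCoreOf (p := 2) (K ⊔ T)
    rw [hEq] at this
    exact this
  have hne0 : (pCoreOf 2 (K ⊔ T)).relIndex T ≠ 0 :=
    Subgroup.index_ne_zero_of_finite (H := (pCoreOf 2 (K ⊔ T)).subgroupOf T)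
  omega

/-- `|P : O₂(P)| = 6`. -/
theorem good_six (S : Sylow 2 G) (M T K L : Subgroup G) (hB : Base S M T K L) :
    (pCoreOf 2 (K ⊔ T)).relIndex (K ⊔ T) = 6 := by
  obtain ⟨hQT, h2⟩ := relIndex_two S M T K L hB
  have h3 := relIndex_three S M T K L hB
  have h := Subgroup.relIndex_mul_relIndex (pCoreOf 2 (K ⊔ T)) T (K ⊔ T) hQT le_sup_right
  rw [h2, h3] at h
  omega

/-- `P/O₂(P)` is not abelian. -/
theorem good_nonab (S : Sylow 2 G) (M T K L : Subgroup G) (hB : Base S M T K L) :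
    ¬ ⁅K ⊔ T, K ⊔ T⁆ ≤ pCoreOf 2 (K ⊔ T) := by
  intro h
  obtain ⟨hQT, -⟩ := relIndex_two S M T K L hB
  apply not_norm S M T K L hB
  have key : ∀ x ∈ K ⊔ T, ∀ t ∈ T, x * t * x⁻¹ ∈ T := by
    intro x hx t ht
    have h1 : ⁅x, t⁆ ∈ T :=
      hQT (h (Subgroup.commutator_mem_commutator hx (Subgroup.mem_sup_right ht)))
    have h2 : x * t * x⁻¹ = ⁅x, t⁆ * t := by rw [commutatorElement_def]; group
    rw [h2]
    exact Subgroup.mul_mem _ h1 ht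
  intro x hx
  rw [Subgroup.mem_normalizer_iff]
  intro t
  constructor
  · exact key x hx t
  · intro ht
    have := key x⁻¹ (Subgroup.inv_mem _ hx) _ ht
    simpa [mul_assoc] using this

/-- `[Ω₁Z(T), P] ≠ 1`. -/
theorem good_Z (S : Sylow 2 G) (M T K L : Subgroup G) (hB : Base S M T K L) :
    ⁅omegaCenterOf T, K ⊔ T⁆ ≠ ⊥ := by
  obtain ⟨hsub, hSyl⟩ := Cfsg.Agent.H61.Jk.base_facts S M T K L hB
  obtain ⟨hZN, hO, hM, hMJ, hT, hTS, hK, hLmax, hKJL⟩ := hB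
  obtain ⟨hchar, hsolv, hZ⟩ := hZN
  have hJ : IsJComponent T K := hK.1.1
  have hT2 : IsPGroup 2 ↥T := hT.1.1
  have hT1 : T ≠ ⊥ := hT.1.2.1
  have hKL : K ≤ L := le_sup_left.trans hKJL
  have hJT : thompsonSubgroupOf 2 T ≤ T := Cfsg.Agent.H14.thompsonSubgroupOf_le 2 T
  have hLM : ¬ L ≤ M := fun h => hK.2.1 (hKL.trans h)
  have h48 := Cfsg.Agent.S2948.result hchar hsolv hZ hO S M hM hMJ T hT L hLmax.1 hLM T hSyl hJT
  have hLT : L ∈ jOvergroups T := (h48.2.2.2 hSyl.1).1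
  have hVL : omegaCenterOf (pCoreOf 2 L) ≤ L := by
    intro x hx
    have h1 := (Cfsg.Agent.H63.Sn.mem_omegaCenterOf _ hx).1
    have h2 : pCoreOf 2 L ≤ L := by
      unfold pCoreOf
      exact Subgroup.map_subtype_le _
    exact h2 h1
  have hWC : wOf K ⊓ Subgroup.centralizer (K : Set G) = ⊥ :=
    (Cfsg.Agent.H52.Sr.comp1 Cfsg.Agent.H40.Sr.dec hchar hsolv hZ T hT2 hT1 L hLT hVL K hJ
      hKL).2.2.2
  obtain ⟨hne, hcl⟩ := Cfsg.Agent.S2951.result hchar hsolv hZ hO S M hM hMJ T hT hTS K hK L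
    hLmax hKJL (omegaCenterOf (S : Subgroup G)) (omegaCenterOf (thompsonSubgroupOf 2 T)) rfl rfl
  obtain ⟨⟨w, hw⟩, hw1⟩ := (Subgroup.ne_bot_iff_exists_ne_one).mp hne
  have hw1' : w ≠ 1 := fun h => hw1 (Subtype.ext h)
  have hwZ0 : w ∈ omegaCenterOf (thompsonSubgroupOf 2 T) := hw.1
  have hwW : w ∈ wOf K := hw.2
  obtain ⟨hwJ, hwCJ, hw2⟩ := Cfsg.Agent.H63.Sn.mem_omegaCenterOf _ hwZ0
  have hwT : w ∈ T := hJT hwJ
  have hwOT : w ∈ omegaCenterOf T := by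
    rcases hcl with ⟨hZZ, -⟩ | ⟨hZZ, -, -⟩ | ⟨hZZ, -, -⟩
    · have hwS : w ∈ omegaCenterOf (S : Subgroup G) := by rw [hZZ]; exact hwZ0
      obtain ⟨-, hwCS, -⟩ := Cfsg.Agent.H63.Sn.mem_omegaCenterOf _ hwS
      exact Cfsg.Agent.H63.Sn.omegaCenterOf_mem _ hwT
        (Subgroup.centralizer_le (by exact_mod_cast hTS) hwCS) hw2
    · have hwS : w ∈ omegaCenterOf (S : Subgroup G) := by rw [hZZ]; exact hwZ0
      obtain ⟨-, hwCS, -⟩ := Cfsg.Agent.H63.Sn.mem_omegaCenterOf _ hwS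
      exact Cfsg.Agent.H63.Sn.omegaCenterOf_mem _ hwT
        (Subgroup.centralizer_le (by exact_mod_cast hTS) hwCS) hw2
    · rw [hZZ]; exact hwZ0
  intro hbot
  apply hw1'
  have hwC : w ∈ Subgroup.centralizer (K : Set G) := by
    rw [Subgroup.mem_centralizer_iff]
    intro k hk
    have h1 : ⁅w, k⁆ ∈ ⁅omegaCenterOf T, K ⊔ T⁆ :=
      Subgroup.commutator_mem_commutator hwOT (Subgroup.mem_sup_left hk)
    rw [hbot, Subgroup.mem_bot] at h1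
    exact (commutatorElement_eq_one_iff_mul_comm.mp h1).symm
  have : w ∈ wOf K ⊓ Subgroup.centralizer (K : Set G) := ⟨hwW, hwC⟩
  rw [hWC] at this
  exact Subgroup.mem_bot.mp this

/-- JY-GOOD: all clauses for `P = K ⊔ T`. -/
theorem good (S : Sylow 2 G) (M T K L : Subgroup G) (hB : Base S M T K L) :
    Subgroup.centralizer (pCoreOf 2 (K ⊔ T) : Set G) ≤ pCoreOf 2 (K ⊔ T) ∧
    IsSylowTwoIn T (K ⊔ T) ∧ (pCoreOf 2 (K ⊔ T)).relIndex (K ⊔ T) = 6 ∧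
    ¬ ⁅K ⊔ T, K ⊔ T⁆ ≤ pCoreOf 2 (K ⊔ T) ∧ ⁅omegaCenterOf T, K ⊔ T⁆ ≠ ⊥ ∧
    ∃ L₀ : Subgroup G, IsMaximalTwoLocal L₀ ∧ K ⊔ T ≤ L₀ ∧ IsSylowTwoIn T L₀ ∧
      ∀ L' : Subgroup G, IsMaximalTwoLocal L' → K ⊔ T ≤ L' → L' = L₀ :=
  ⟨good_cent S M T K L hB, good_syl S M T K L hB, good_six S M T K L hB,
    good_nonab S M T K L hB, good_Z S M T K L hB, L, good_L S M T K L hB⟩

/-- JY-GOODA. -/
theorem goodA : Cfsg.Agent.H64.Jy.StGoodA.{u} := fun S M T K L hB =>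
  ⟨good_cent S M T K L hB, good_syl S M T K L hB, L, good_L S M T K L hB⟩

/-- JY-GOODB. -/
theorem goodB : Cfsg.Agent.H64.Jy.StGoodB.{u} := fun S M T K L hB =>
  ⟨good_six S M T K L hB, good_nonab S M T K L hB⟩

/-- JY-GOODC. -/
theorem goodC : Cfsg.Agent.H64.Jy.StGoodC.{u} := fun S M T K L hB => good_Z S M T K L hB

example : Cfsg.Agent.H64.Jy.StGoodA.{u} := goodA
example : Cfsg.Agent.H64.Jy.StGoodB.{u} := goodB
example : Cfsg.Agent.H64.Jy.StGoodC.{u} := goodC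

end Cfsg.Agent.H58.Jy

#print axioms Cfsg.Agent.H58.Jy.goodA
#print axioms Cfsg.Agent.H58.Jy.goodB
#print axioms Cfsg.Agent.H58.Jy.goodC
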