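import Mathlib
import Cfsg.Agent.H58.JyGood
import Cfsg.Agent.H52.JxDefs

/-!
# S2953 (JY-KILL2): the generic pieces JX-PF and JX-STAR
-/

set_option autoImplicit false
open Cfsg

namespace Cfsg.Agent.H58.Jx

open Cfsg.Agent.H64.Jz Cfsg.Agent.H64.Jy

universe u

/-- JX-PF. -/
theorem pf : Cfsg.Agent.H52.Jx.StPF.{u} := by
  intro G _ _ S M T K L hB
  exact ⟨(Cfsg.Agent.H58.Jy.relIndex_two S M T K L hB).1, hB.2.2.2.2.2.2.1.2.2,
    Cfsg.Agent.H31.X.H54.le_normalizer_pCoreOf (p := 2) (K ⊔ T)⟩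

/-- JX-STAR. -/
theorem star : Cfsg.Agent.H52.Jx.StStar.{u} := by
  intro G _ _ S M T K L hB hTS F hF1 hFT hPN hSN
  obtain ⟨hLmax, hPL, hSyl, huniq⟩ := Cfsg.Agent.H58.Jy.good_L S M T K L hB
  have hT2 : IsPGroup 2 ↥T := hSyl.2.1
  have hTleS : T ≤ (S : Subgroup G) := hB.2.2.2.2.2.1
  have hloc : IsTwoLocal (Subgroup.normalizer (F : Set G)) := ⟨F, hT2.to_le hFT, hF1, rfl⟩
  obtain ⟨L', hL'max, hL'⟩ := Cfsg.Agent.Helper55.Uq.exists_maximalTwoLocal hloc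
  have hLL' : L' = L := huniq L' hL'max (hPN.trans hL')
  have hNL : Subgroup.normalizer (F : Set G) ≤ L := by rw [← hLL']; exact hL'
  have hlt : T < (S : Subgroup G) := lt_of_le_of_ne hTleS hTS
  obtain ⟨x, hxS, hxN, hxT⟩ :=
    Cfsg.Agent.Helper55.exists_mem_normalizer_not_mem (p := 2) S.isPGroup' hlt
  have hxL : x ∈ L := hNL (hSN x hxS hxN)
  have hP2 : IsPGroup 2 ↥(T ⊔ Subgroup.zpowers x) :=
    S.isPGroup'.to_le (sup_le hTleS (Subgroup.zpowers_le.mpr hxS))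
  have hPL' : T ⊔ Subgroup.zpowers x ≤ L := sup_le hSyl.1 (Subgroup.zpowers_le.mpr hxL)
  have h3 := Cfsg.Agent.H58.Jz.sylow_max hSyl hP2 le_sup_left hPL'
  exact hxT (h3 (Subgroup.mem_sup_right (Subgroup.mem_zpowers x)))

example : Cfsg.Agent.H52.Jx.StPF.{u} := pf
example : Cfsg.Agent.H52.Jx.StStar.{u} := star

end Cfsg.Agent.H58.Jx

#print axioms Cfsg.Agent.H58.Jx.pf
#print axioms Cfsg.Agent.H58.Jx.star
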