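import Mathlib
import Cfsg.Agent.H58.JyGood
import Cfsg.Agent.H52.JxDefs
import Cfsg.Agent.H48.JyV

/-!
# S2953 (JY-KILL2): JX-VNE, `V ≠ 1` and `V ≤ T'`
-/

set_option autoImplicit false
open Cfsg

namespace Cfsg.Agent.H58.Jx

open Cfsg.Agent.H64.Jz Cfsg.Agent.H64.Jy

universe u

/-- A subgroup of order 4 does not contain five distinct elements. -/
theorem vneFive {G : Type u} [Group G] (W : Subgroup G) (hW : Nat.card ↥W = 4) (a b c d e : G)
    (ha : a ∈ W) (hb : b ∈ W) (hc : c ∈ W) (hd : d ∈ W) (he : e ∈ W)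
    (hab : a ≠ b) (hac : a ≠ c) (had : a ≠ d) (hae : a ≠ e) (hbc : b ≠ c) (hbd : b ≠ d)
    (hbe : b ≠ e) (hcd : c ≠ d) (hce : c ≠ e) (hde : d ≠ e) : False := by
  classical
  have hfin : Finite ↥W := Nat.finite_of_card_ne_zero (by rw [hW]; norm_num)
  have h5 : ({a, b, c, d, e} : Finset G).card = 5 := by
    rw [Finset.card_insert_of_notMem, Finset.card_insert_of_notMem,
      Finset.card_insert_of_notMem, Finset.card_insert_of_notMem, Finset.card_singleton]
    all_goals simp [*]
  have hsub : ((({a, b, c, d, e} : Finset G) : Set G)) ⊆ (W : Set G) := by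
    intro x hx
    simp only [Finset.coe_insert, Finset.coe_singleton, Set.mem_insert_iff,
      Set.mem_singleton_iff] at hx
    rcases hx with rfl | rfl | rfl | rfl | rfl <;> assumption
  have hfin' : (W : Set G).Finite := Set.toFinite _
  have h1 := Set.ncard_le_ncard hsub hfin'
  rw [Set.ncard_coe_finset, h5] at h1
  have h2 : (W : Set G).ncard = 4 := by
    rw [← Nat.card_coe_set_eq]; exact hW
  omega

/-- The elements of a four-group `{1, z, v, v z}`. -/
theorem vneCases {G : Type u} [Group G] (V : Subgroup G) (hV : Nat.card ↥V = 4) (z v : G)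
    (hz : z ∈ V) (hv : v ∈ V) (hz1 : z ≠ 1) (hv1 : v ≠ 1) (hvz : v ≠ z) (hz2 : z * z = 1) :
    ∀ u ∈ V, u = 1 ∨ u = z ∨ u = v ∨ u = v * z := by
  intro u hu
  by_contra hcon
  push Not at hcon
  obtain ⟨h1, h2, h3, h4⟩ := hcon
  have hzinv : z⁻¹ = z := inv_eq_of_mul_eq_one_left hz2
  have hvz1 : (1 : G) ≠ v * z := by
    intro h
    apply hvz
    have h' : v = z⁻¹ := eq_inv_of_mul_eq_one_left h.symm
    rw [h', hzinv]
  have hzvz : z ≠ v * z := by
    intro h
    apply hv1
    have : v * z = 1 * z := by rw [one_mul]; exact h.symm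
    exact mul_right_cancel this
  have hvvz : v ≠ v * z := by
    intro h
    apply hz1
    have : v * z = v * 1 := by rw [mul_one]; exact h.symm
    exact mul_left_cancel this
  exact vneFive V hV 1 z v (v * z) u V.one_mem hz hv (V.mul_mem hv hz) hu
    (fun h => hz1 h.symm) (fun h => hv1 h.symm) hvz1 (fun h => h1 h.symm)
    (fun h => hvz h.symm) hzvz (fun h => h2 h.symm) hvvz (fun h => h3 h.symm)
    (fun h => h4 h.symm)

/-- JX-VNE. -/
theorem vne : Cfsg.Agent.H52.Jx.StVne.{u} := by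
  intro G _ _ S M K L T' K' L' hR
  obtain ⟨hB, hNS, hB', hne⟩ := hR
  obtain ⟨hV4, hV2, hNV, ⟨z, hzV, hz1, hzS, hzQ', hZS, hfus⟩, hCu, hTI⟩ :=
    Cfsg.Agent.H48.Jy.vfacts S M K L T' K' L' hB hNS hB' hne
  obtain ⟨-, hSylS⟩ := Cfsg.Agent.H61.Jk.base_facts S M (S : Subgroup G) K L hB
  obtain ⟨hL'max, hP'L', hSylT', huniq'⟩ := Cfsg.Agent.H58.Jy.good_L S L T' K' L' hB'
  obtain ⟨hQ₁T', -⟩ := Cfsg.Agent.H58.Jy.relIndex_two S L T' K' L' hB'
  have hT'S : T' ≤ (S : Subgroup G) := hB'.2.2.2.2.2.1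
  have hQ₁ne : pCoreOf 2 (K' ⊔ T') ≠ ⊥ := hB'.2.2.2.2.2.2.1.2.2
  refine ⟨?_, ?_⟩
  · intro hbot
    have h4 := hV4
    rw [show Cfsg.Agent.H52.Jx.Vof L = omegaCenterOf (pCoreOf 2 L) from rfl] at hbot
    rw [hbot] at h4
    simp at h4
  · intro v hv
    have hv' : v ∈ omegaCenterOf (pCoreOf 2 L) := hv
    have hQL'T' : pCoreOf 2 L' ≤ T' := Cfsg.Agent.Helper55.J48.pCoreOf_le_of_sylowIn hSylT'
    by_cases hv1 : v = 1
    · rw [hv1]; exact T'.one_mem
    by_cases hvz : v = z
    · rw [hvz]; exact hQL'T' hzQ'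
    -- `v ∈ S`
    have hQLS : pCoreOf 2 L ≤ (S : Subgroup G) :=
      Cfsg.Agent.Helper55.J48.pCoreOf_le_of_sylowIn hSylS
    have hvS : v ∈ (S : Subgroup G) := hQLS (Cfsg.Agent.H63.Sn.mem_omegaCenterOf _ hv').1
    -- `z ∈ Q₁`
    have hQQ : pCoreOf 2 L' ≤ pCoreOf 2 (K' ⊔ T') := by
      apply Cfsg.Agent.H31.X.H54.le_pCoreOf (hQL'T'.trans le_sup_right)
      · exact hP'L'.trans (Cfsg.Agent.H31.X.H54.le_normalizer_pCoreOf L')
      · exact Cfsg.Agent.Helper55.Uq.pCoreOf_isPGroup L'
    have hzQ₁ : z ∈ pCoreOf 2 (K' ⊔ T') := hQQ hzQ'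
    have hz2 : z * z = 1 := hV2 z hzV
    have hvv : v * v = 1 := hV2 v hv'
    have hvinv : v⁻¹ = v := inv_eq_of_mul_eq_one_left hvv
    have hzC : z ∈ Subgroup.centralizer ((S : Subgroup G) : Set G) :=
      (Cfsg.Agent.H63.Sn.mem_omegaCenterOf _ hzS).2.1
    have hSNV : (S : Subgroup G) ≤ Subgroup.normalizer (omegaCenterOf (pCoreOf 2 L) : Set G) := by
      rw [hNV]; exact hSylS.1
    have hcases := vneCases (omegaCenterOf (pCoreOf 2 L)) hV4 z v hzV hv' hz1 hv1 hvz hz2
    -- `v` normalizes `Q₁`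
    have key : ∀ q ∈ pCoreOf 2 (K' ⊔ T'), v * q * v⁻¹ ∈ pCoreOf 2 (K' ⊔ T') := by
      intro q hq
      have hqS : q ∈ (S : Subgroup G) := hT'S (hQ₁T' hq)
      have hqv : q * v * q⁻¹ ∈ omegaCenterOf (pCoreOf 2 L) :=
        (Subgroup.mem_normalizer_iff.mp (hSNV hqS) v).mp hv'
      have hqz : q * z = z * q := Subgroup.mem_centralizer_iff.mp hzC q hqS
      rcases hcases _ hqv with h | h | h | h
      · exfalso
        apply hv1
        have : q * v = q := by
          have := congrArg (fun t => t * q) h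
          simpa using this
        simpa using this
      · exfalso
        apply hvz
        have h' : q * v = z * q := by
          have := congrArg (fun t => t * q) h
          simpa using this
        rw [← hqz] at h'
        exact mul_left_cancel h'
      · have h' : q * v = v * q := by
          have := congrArg (fun t => t * q) h
          simpa using this
        have : v * q * v⁻¹ = q := by rw [← h']; group
        rw [this]; exact hq
      · have h' : q * v = v * z * q := by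
          have := congrArg (fun t => t * q) h
          simpa using this
        have : v * q * v⁻¹ = z * q := by
          have e1 : v * (z * q) = q * v := by rw [← mul_assoc]; exact h'.symm
          calc v * q * v⁻¹ = v * q * v := by rw [hvinv]
            _ = v * (q * v) := by rw [mul_assoc]
            _ = v * (v * (z * q)) := by rw [e1]
            _ = (v * v) * (z * q) := by rw [mul_assoc]
            _ = z * q := by rw [hvv, one_mul]
        rw [this]; exact Subgroup.mul_mem _ hzQ₁ hq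
    have hvN : v ∈ Subgroup.normalizer (pCoreOf 2 (K' ⊔ T') : Set G) := by
      rw [Subgroup.mem_normalizer_iff]
      intro q
      constructor
      · exact key q
      · intro hq
        have := key _ hq
        have e : v * (v * q * v⁻¹) * v⁻¹ = q := by
          rw [hvinv]
          calc v * (v * q * v) * v = (v * v) * q * (v * v) := by group
            _ = q := by rw [hvv]; group
        rw [e] at this
        exact this
    -- `N_G(Q₁) ≤ L'`
    have hloc : IsTwoLocal (Subgroup.normalizer (pCoreOf 2 (K' ⊔ T') : Set G)) :=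
      ⟨pCoreOf 2 (K' ⊔ T'), Cfsg.Agent.Helper55.Uq.pCoreOf_isPGroup _, hQ₁ne, rfl⟩
    obtain ⟨L'', hL''max, hL''⟩ := Cfsg.Agent.Helper55.Uq.exists_maximalTwoLocal hloc
    have hP'N : K' ⊔ T' ≤ Subgroup.normalizer (pCoreOf 2 (K' ⊔ T') : Set G) :=
      Cfsg.Agent.H31.X.H54.le_normalizer_pCoreOf (p := 2) (K' ⊔ T')
    have hLL : L'' = L' := huniq' L'' hL''max (hP'N.trans hL'')
    have hvL' : v ∈ L' := by rw [← hLL]; exact hL'' hvN
    have hP2 : IsPGroup 2 ↥(T' ⊔ Subgroup.zpowers v) :=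
      S.isPGroup'.to_le (sup_le hT'S (Subgroup.zpowers_le.mpr hvS))
    have hPL' : T' ⊔ Subgroup.zpowers v ≤ L' := sup_le hSylT'.1 (Subgroup.zpowers_le.mpr hvL')
    have h3 := Cfsg.Agent.H58.Jz.sylow_max hSylT' hP2 le_sup_left hPL'
    exact h3 (Subgroup.mem_sup_right (Subgroup.mem_zpowers v))

example : Cfsg.Agent.H52.Jx.StVne.{u} := vne

end Cfsg.Agent.H58.Jx

#print axioms Cfsg.Agent.H58.Jx.vne
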