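import Mathlib
import Cfsg.Agent.H58.BG127Defs
import Cfsg.Agent.H58.BG127Tau
import Cfsg.Agent.H58.BG10FG
import Cfsg.Agent.H67.BG127OR
import Cfsg.Agent.H27.Rad
import Cfsg.Agent.H38.PiCore
import Cfsg.Agent.Helper55.PRankOne
import Cfsg.Agent.H70.BG10D
import Cfsg.Agent.H76.BG10x
import Cfsg.Agent.Lib.Helper30.Trans

set_option autoImplicit false
set_option linter.style.haveILetI false

/-!
# S1439: `O_{σ(M)'}(F(M))` is cyclic, a `τ₂(M)`-group, and `F(M) = F(M_σ) × O_{σ(M)'}(F(M))`
(helper58; paper proof by helper38, board post 4953)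
-/

namespace Cfsg.Agent.H58.BG12

open Cfsg Subgroup Cfsg.Agent.H58.BG10 Cfsg.Agent.H57.BG12 Cfsg.Agent.H29.BG117

universe u

variable {G : Type u} [Group G]

/-- S1439 as a `Prop`. -/
def St1439 (G : Type u) [Group G] : Prop :=
  ∀ (M : Subgroup G), IsCoatom M →
    IsCyclic ↥(piCoreOf {q | q.Prime ∧ q ∉ sigma M} (fittingOf M)) ∧
      (∀ p : ℕ, p.Prime →
        p ∣ Nat.card ↥(piCoreOf {q | q.Prime ∧ q ∉ sigma M} (fittingOf M)) → p ∈ tau2 M) ∧
      fittingOf M = fittingOf (sigmaCore M) ⊔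
        piCoreOf {q | q.Prime ∧ q ∉ sigma M} (fittingOf M)

/-- A nontrivial normal `q`-subgroup of a maximal subgroup `M`, `q ∉ σ(M)`, forces `q`-rank
at least 2 (B&G 10.6; the argument is helper67's, from `H67/BG127OR.lean`). -/
theorem not_pRankLE_one_of_normal [Finite G] (hG : IsMinSimpleOddOrder G) (h1409 : St1409 G)
    {M : Subgroup G} (hM : IsCoatom M) {q : ℕ} [Fact q.Prime] (hqσ : q ∉ sigma M)
    {R : Subgroup G} (hRM : R ≤ M) (hRq : IsPGroup q R) (hMR : M ≤ normalizer (R : Set G))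
    (hRne : R ≠ ⊥) : ¬ PRankLE q 1 M := by
  classical
  intro h1
  have hq : q.Prime := Fact.out
  haveI : Nontrivial R := (Subgroup.nontrivial_iff_ne_bot R).mpr hRne
  haveI : Nontrivial (Subgroup.center R) := hRq.center_nontrivial
  obtain ⟨z, hz⟩ := exists_ne (1 : Subgroup.center R)
  set Z : Subgroup G := R ⊓ centralizer (R : Set G) with hZ
  have hzZ : ((z : R) : G) ∈ Z := by
    refine Subgroup.mem_inf.mpr ⟨(z : R).2, ?_⟩
    rw [Subgroup.mem_centralizer_iff]
    intro r hr
    have := Subgroup.mem_center_iff.mp z.2 ⟨r, hr⟩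
    exact congrArg Subtype.val this
  have hz1 : ((z : R) : G) ≠ 1 := by
    intro h
    apply hz
    apply Subtype.ext
    apply Subtype.ext
    exact h
  have hZq : IsPGroup q Z := hRq.to_le inf_le_left
  have hZne : Z ≠ ⊥ := by
    intro h
    rw [h, Subgroup.mem_bot] at hzZ
    exact hz1 hzZ
  have hqZ : q ∣ Nat.card Z := by
    obtain ⟨n, hn⟩ := IsPGroup.iff_card.mp hZq
    rcases Nat.eq_zero_or_pos n with h0 | h0
    · rw [h0, pow_zero] at hn
      exact absurd ((Subgroup.card_eq_one).mp hn) hZne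
    · rw [hn]
      exact dvd_pow_self q h0.ne'
  obtain ⟨g, hg⟩ := exists_prime_orderOf_dvd_card' (G := Z) q hqZ
  set X : Subgroup G := Cfsg.Agent.H67.BG12.omegaZ q R with hX
  have hgX : (g : G) ∈ X := by
    refine ⟨g.2, ?_⟩
    have : g ^ q = 1 := by
      have h0 : g ^ orderOf g = 1 := pow_orderOf_eq_one g
      rw [hg] at h0; exact h0
    have h4 := congrArg Subtype.val this
    simpa using h4
  have hg1 : (g : G) ≠ 1 := by
    intro h
    have : g = 1 := Subtype.ext h
    rw [this, orderOf_one] at hg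
    exact hq.one_lt.ne hg
  have hXR : X ≤ R := fun u hu => (Subgroup.mem_inf.mp hu.1).1
  have hXM : X ≤ M := hXR.trans hRM
  have hXne : X ≠ ⊥ := by
    intro h
    rw [h, Subgroup.mem_bot] at hgX
    exact hg1 hgX
  have hXle : Nat.card X ≤ q := by
    have hcomm : IsMulCommutative (X.subgroupOf M) := by
      refine ⟨⟨fun a b => ?_⟩⟩
      apply Subtype.ext
      apply Subtype.ext
      have ha : ((a : M) : G) ∈ X := Subgroup.mem_subgroupOf.mp a.2
      have hb : ((b : M) : G) ∈ X := Subgroup.mem_subgroupOf.mp b.2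
      have := Subgroup.mem_centralizer_iff.mp (Subgroup.mem_inf.mp ha.1).2 _
        (Subgroup.mem_inf.mp hb.1).1
      exact this.symm
    have hexp : ∀ a ∈ X.subgroupOf M, a ^ q = 1 := by
      intro a ha
      apply Subtype.ext
      have ha' : (a : G) ∈ X := Subgroup.mem_subgroupOf.mp ha
      simpa using ha'.2
    have h5 := h1 (X.subgroupOf M) hcomm hexp
    rw [pow_one] at h5
    have h6 : Nat.card (X.subgroupOf M) = Nat.card X :=
      Nat.card_congr (Subgroup.subgroupOfEquivOfLe hXM).toEquiv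
    rw [h6] at h5
    exact h5
  have hXge : q ∣ Nat.card X := by
    have h7 : orderOf (⟨(g : G), hgX⟩ : X) = q := by
      rw [← hg, ← Subgroup.orderOf_coe (⟨(g : G), hgX⟩ : X), ← Subgroup.orderOf_coe g]
    rw [← h7]
    exact orderOf_dvd_natCard _
  have hXcard : Nat.card X = q := by
    have := Nat.le_of_dvd Nat.card_pos hXge
    omega
  have hMX : M ≤ normalizer (X : Set G) := by
    intro m hm
    rw [mem_normalizer_iff]
    intro u
    constructor
    · intro hu
      exact Cfsg.Agent.H67.BG12.conj_mem_omegaZ (hMR hm) hu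
    · intro h
      have h8 := Cfsg.Agent.H67.BG12.conj_mem_omegaZ (q := q) (hMR (M.inv_mem hm)) h
      have e2 : m⁻¹ * (m * u * m⁻¹) * m⁻¹⁻¹ = u := by group
      rwa [e2] at h8
  have hXtop : X ≠ ⊤ := fun h => hM.1 (top_le_iff.mp (h ▸ hXM))
  have hNtop : normalizer (X : Set G) ≠ ⊤ :=
    Cfsg.Agent.Lib.Helper30.minSimple_normalizer_ne_top hG hXne hXtop
  have hNX : normalizer (X : Set G) ≤ M := by
    by_contra hcon
    have hlt : M < normalizer (X : Set G) := lt_of_le_of_ne hMX (fun h => hcon (h ▸ le_refl _))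
    exact hNtop (hM.2 _ hlt)
  exact (h1409 M hM q hqσ X hXcard hNX).1.2 h1

/-- A normal `q`-subgroup of a maximal subgroup `M`, `q ∉ σ(M)`, is cyclic. -/
theorem isCyclic_of_normal_of_not_mem_sigma [Finite G] (hG : IsMinSimpleOddOrder G)
    (h96 : St1403 G) (h350 : St1350 G) (h1409 : St1409 G) (h17 : St1417 G) (hne : StSigNe G)
    {M : Subgroup G} (hM : IsCoatom M) {q : ℕ} [Fact q.Prime] (hqσ : q ∉ sigma M)
    {R : Subgroup G} (hRM : R ≤ M) (hRq : IsPGroup q R) (hMR : M ≤ normalizer (R : Set G)) :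
    IsCyclic ↥R := by
  have hq : q.Prime := Fact.out
  by_cases hRne : R = ⊥
  · subst hRne
    infer_instance
  by_contra hnc
  have h2M : PRankLE q 2 ↥M := by
    by_contra h
    exact hqσ (alpha_subset_sigma hG h96 hM ⟨hq, h⟩)
  have h1M : ¬ PRankLE q 1 ↥M := not_pRankLE_one_of_normal hG h1409 hM hqσ hRM hRq hMR hRne
  have hq2 : q ≠ 2 := by
    rintro rfl
    have h1 : 2 ∣ Nat.card R := by
      obtain ⟨n, hn⟩ := IsPGroup.iff_card.mp hRq
      rcases Nat.eq_zero_or_pos n with h0 | h0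
      · rw [h0, pow_zero] at hn
        exact absurd ((Subgroup.card_eq_one).mp hn) hRne
      · rw [hn]; exact dvd_pow_self 2 h0.ne'
    have h2 : 2 ∣ Nat.card G := h1.trans (Subgroup.card_subgroup_dvd_card R)
    exact (Nat.not_even_iff_odd.mpr hG.1) (even_iff_two_dvd.mpr h2)
  have h2R : PRankLE q 2 ↥R :=
    Cfsg.Agent.H76.BG10.pRankLE_of_injective (Subgroup.inclusion hRM)
      (Subgroup.inclusion_injective hRM) h2M
  have h1R : ¬ PRankLE q 1 ↥R := fun h =>
    hnc (Cfsg.Agent.Helper55.isCyclic_of_pRankLE_one hq2 hRq h)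
  obtain ⟨B, hBR, hBel, hBcard⟩ := exists_elementary_sq hq h2R h1R
  have hBM : B ≤ M := hBR.trans hRM
  have h17B := (h17 M hM q ⟨hq, hqσ, h2M, h1M⟩ B ⟨hBM, hBel, hBcard⟩).2.2.2.1
  have hbot : R ⊓ sigmaCore M = ⊥ := by
    apply (Subgroup.disjoint_of_coprime_natCard _).eq_bot
    obtain ⟨n, hn⟩ := IsPGroup.iff_card.mp hRq
    rw [hn]
    apply Nat.Coprime.pow_left
    rw [Nat.Prime.coprime_iff_not_dvd hq]
    intro hd
    exact hqσ ((h350 M hM).1.2.1 q hq hd)
  have hσM : sigmaCore M ≤ M := Subgroup.map_subtype_le _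
  have hcomm : ∀ b ∈ R, ∀ s ∈ sigmaCore M, b * s = s * b := by
    intro b hb s hs
    have h1 : b * s * b⁻¹ * s⁻¹ ∈ R ⊓ sigmaCore M := by
      refine ⟨?_, ?_⟩
      · have hsN := hMR (hσM hs)
        have : s * b⁻¹ * s⁻¹ ∈ R := (Subgroup.mem_normalizer_iff.mp hsN b⁻¹).mp (R.inv_mem hb)
        have h2 : b * s * b⁻¹ * s⁻¹ = b * (s * b⁻¹ * s⁻¹) := by group
        rw [h2]; exact R.mul_mem hb this
      · have hbN := le_normalizer_sigmaCore M (hRM hb)
        have : b * s * b⁻¹ ∈ sigmaCore M := (Subgroup.mem_normalizer_iff.mp hbN s).mp hs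
        exact (sigmaCore M).mul_mem this ((sigmaCore M).inv_mem hs)
    rw [hbot, Subgroup.mem_bot] at h1
    have h3 : b * s * b⁻¹ * s⁻¹ * (s * b) = s * b := by rw [h1, one_mul]
    rw [← h3]; group
  have hle : sigmaCore M ≤ sigmaCore M ⊓ centralizer (B : Set G) := by
    refine le_inf le_rfl ?_
    intro s hs
    rw [Subgroup.mem_centralizer_iff]
    intro b hb
    exact hcomm b (hBR hb) s hs
  rw [h17B] at hle
  exact hne M hM (le_bot_iff.mp hle)

/-- A `q`-subgroup of `F(M)` lies in `O_q(M)`. -/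
theorem le_pCore_of_le_fitting [Finite G] {M : Subgroup G} {q : ℕ} [Fact q.Prime]
    {Q : Subgroup G} (hQ : IsPGroup q Q) (hQF : Q ≤ fittingOf M) :
    Q ≤ (pCore q ↥M).map M.subtype := by
  have hNn : (fittingSubgroup ↥M).Normal := Subgroup.sSup_normal _ (fun _ h => h.1)
  have hNnil : Group.IsNilpotent ↥(fittingSubgroup ↥M) := Cfsg.Agent.H27.fitting_nilpotent
  intro x hx
  obtain ⟨x', hx'N, rfl⟩ := hQF hx
  -- the `q`-subgroup of `F(↥M)` corresponding to `Q`
  set Q₂ : Subgroup ↥(fittingSubgroup ↥M) :=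
    (Q.subgroupOf M).subgroupOf (fittingSubgroup ↥M) with hQ₂
  have hQ₂q : IsPGroup q ↥Q₂ := by
    have h1 : IsPGroup q ↥(Q.subgroupOf M) := hQ.comap_of_injective M.subtype M.subtype_injective
    exact h1.comap_of_injective (fittingSubgroup ↥M).subtype
      (fittingSubgroup ↥M).subtype_injective
  obtain ⟨S, hS⟩ := hQ₂q.exists_le_sylow
  have htfae := (Group.isNilpotent_of_finite_tfae (G := ↥(fittingSubgroup ↥M))).out 0 3
  have hSn : (S : Subgroup ↥(fittingSubgroup ↥M)).Normal := (htfae.1 hNnil) q inferInstance S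
  have hSc : (S : Subgroup ↥(fittingSubgroup ↥M)).Characteristic :=
    Sylow.characteristic_of_normal S hSn
  have hn : ((S : Subgroup ↥(fittingSubgroup ↥M)).map (fittingSubgroup ↥M).subtype).Normal :=
    ConjAct.normal_of_characteristic_of_normal
  have hle : (S : Subgroup ↥(fittingSubgroup ↥M)).map (fittingSubgroup ↥M).subtype ≤
      pCore q ↥M := Cfsg.Agent.H60.le_pCore hn (S.isPGroup'.map _)
  have hmem : (⟨x', hx'N⟩ : ↥(fittingSubgroup ↥M)) ∈ Q₂ := by
    rw [hQ₂, Subgroup.mem_subgroupOf, Subgroup.mem_subgroupOf]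
    exact hx
  exact ⟨x', hle ⟨⟨x', hx'N⟩, hS hmem, rfl⟩, rfl⟩

/-- Facts on `O_π(X)` as a subgroup of `G`. -/
theorem piCoreOf_le (π : Set ℕ) (X : Subgroup G) : piCoreOf π X ≤ X :=
  Subgroup.map_subtype_le _

theorem piNat_card_piCoreOf [Finite G] (π : Set ℕ) (X : Subgroup G) :
    Cfsg.Agent.H38.PiNat π (Nat.card ↥(piCoreOf π X)) := by
  have h1 : Nat.card ↥(piCoreOf π X) = Nat.card ↥(piCore π ↥X) :=
    Subgroup.card_map_of_injective X.subtype_injective
  rw [h1]
  exact Cfsg.Agent.H38.piNat_card_piCore π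

theorem le_piCoreOf {π : Set ℕ} {X Q : Subgroup G} (hQX : Q ≤ X)
    (hXQ : X ≤ normalizer (Q : Set G)) (hQ : Cfsg.Agent.H38.PiNat π (Nat.card ↥Q)) :
    Q ≤ piCoreOf π X := by
  have hnorm : (Q.subgroupOf X).Normal :=
    (Subgroup.normal_subgroupOf_iff_le_normalizer hQX).mpr hXQ
  have hcard : Nat.card ↥(Q.subgroupOf X) = Nat.card ↥Q :=
    Nat.card_congr (Subgroup.subgroupOfEquivOfLe hQX).toEquiv
  have hle : Q.subgroupOf X ≤ piCore π ↥X :=
    Cfsg.Agent.H38.le_piCore _ hnorm (by rw [hcard]; exact hQ)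
  have h2 : (Q.subgroupOf X).map X.subtype = Q := by
    rw [Subgroup.subgroupOf_map_subtype, inf_eq_left.mpr hQX]
  rw [← h2]
  exact Subgroup.map_mono hle

/-- S1439 from S1417 (B&G Theorem 12.5) and landed rows. -/
theorem st1439_of [Finite G] (hG : IsMinSimpleOddOrder G) (h96 : St1403 G) (h350 : St1350 G)
    (h1409 : St1409 G) (h17 : St1417 G) (hne : StSigNe G) : St1439 G := by
  intro M hM
  set π' : Set ℕ := {q | q.Prime ∧ q ∉ sigma M} with hπ'
  set F : Subgroup G := fittingOf M with hF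
  set Y : Subgroup G := piCoreOf π' F with hY
  have hNn : (fittingSubgroup ↥M).Normal := Subgroup.sSup_normal _ (fun _ h => h.1)
  have hFM : F ≤ M := Subgroup.map_subtype_le _
  have hYF : Y ≤ F := piCoreOf_le π' F
  have hYpi : Cfsg.Agent.H38.PiNat π' (Nat.card ↥Y) := piNat_card_piCoreOf π' F
  have hσM : sigmaCore M ≤ M := Subgroup.map_subtype_le _
  -- the subgroups `O_q(M)`
  have hRM : ∀ q : ℕ, (pCore q ↥M).map M.subtype ≤ M := fun q => Subgroup.map_subtype_le _
  have hRq : ∀ (q : ℕ) [Fact q.Prime], IsPGroup q ↥((pCore q ↥M).map M.subtype) :=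
    fun q _ => (Cfsg.Agent.H60.isPGroup_pCore q).map _
  have hRn : ∀ (q : ℕ) [Fact q.Prime],
      M ≤ normalizer (((pCore q ↥M).map M.subtype : Subgroup G) : Set G) :=
    fun q _ => Cfsg.Agent.H70.BG10.le_normalizer_map_subtype M (pCore q ↥M)
  have hRF : ∀ (q : ℕ) [Fact q.Prime], (pCore q ↥M).map M.subtype ≤ F :=
    fun q _ => Subgroup.map_mono (Cfsg.Agent.H27.pCore_le_fitting q)
  have hRpi : ∀ (q : ℕ) [Fact q.Prime], q ∉ sigma M →
      Cfsg.Agent.H38.PiNat π' (Nat.card ↥((pCore q ↥M).map M.subtype)) := by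
    intro q _ hqσ r hr hrd
    obtain ⟨k, hk⟩ := IsPGroup.iff_card.mp (hRq q)
    rw [hk] at hrd
    have : r = q := (Nat.prime_dvd_prime_iff_eq hr Fact.out).mp (hr.dvd_of_dvd_pow hrd)
    rw [this]; exact ⟨Fact.out, hqσ⟩
  have hRY : ∀ (q : ℕ) [Fact q.Prime], q ∉ sigma M → (pCore q ↥M).map M.subtype ≤ Y :=
    fun q _ hqσ => le_piCoreOf (hRF q) (hFM.trans (hRn q)) (hRpi q hqσ)
  have hRcyc : ∀ (q : ℕ) [Fact q.Prime], q ∉ sigma M →
      IsCyclic ↥((pCore q ↥M).map M.subtype) :=
    fun q _ hqσ => isCyclic_of_normal_of_not_mem_sigma hG h96 h350 h1409 h17 hne hM hqσ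
      (hRM q) (hRq q) (hRn q)
  refine ⟨?_, ?_, ?_⟩
  · -- `Y` is cyclic
    have hFnil : Group.IsNilpotent ↥F := by
      haveI : Group.IsNilpotent ↥(fittingSubgroup ↥M) := Cfsg.Agent.H27.fitting_nilpotent
      exact Group.nilpotent_of_mulEquiv
        ((fittingSubgroup ↥M).equivMapOfInjective M.subtype M.subtype_injective)
    have hYnil : Group.IsNilpotent ↥Y := by
      haveI := hFnil
      haveI : Group.IsNilpotent ↥(piCore π' ↥F) := inferInstance
      exact Group.nilpotent_of_mulEquiv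
        ((piCore π' ↥F).equivMapOfInjective F.subtype F.subtype_injective)
    have hYZ : IsZGroup ↥Y := by
      refine ⟨fun p hp P => ?_⟩
      haveI : Fact p.Prime := ⟨hp⟩
      by_cases hpσ : p ∈ sigma M
      · -- `P` is trivial
        obtain ⟨k, hk⟩ := IsPGroup.iff_card.mp P.isPGroup'
        have hk0 : k = 0 := by
          by_contra hk0
          have h1 : p ∣ Nat.card ↥(P : Subgroup ↥Y) := by rw [hk]; exact dvd_pow_self p hk0
          have h2 : p ∣ Nat.card ↥Y := h1.trans (Subgroup.card_subgroup_dvd_card _)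
          exact (hYpi p hp h2).2 hpσ
        rw [hk0, pow_zero] at hk
        haveI : Subsingleton ↥(P : Subgroup ↥Y) :=
          (Nat.card_eq_one_iff_unique.mp hk).1
        infer_instance
      · have hQq : IsPGroup p ↥((P : Subgroup ↥Y).map Y.subtype) := P.isPGroup'.map _
        have hQF : (P : Subgroup ↥Y).map Y.subtype ≤ F :=
          (Subgroup.map_subtype_le _).trans hYF
        have hQR := le_pCore_of_le_fitting hQq hQF
        haveI := hRcyc p hpσ
        haveI : IsCyclic ↥((P : Subgroup ↥Y).map Y.subtype) := Subgroup.isCyclic_of_le hQR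
        exact isCyclic_of_surjective _
          ((P : Subgroup ↥Y).equivMapOfInjective Y.subtype Y.subtype_injective).symm.surjective
    haveI := hYnil
    haveI := hYZ
    infer_instance
  · -- the primes of `Y` are in `τ₂(M)`
    intro p hp hpd
    haveI : Fact p.Prime := ⟨hp⟩
    have hpσ : p ∉ sigma M := (hYpi p hp hpd).2
    obtain ⟨y, hy⟩ := exists_prime_orderOf_dvd_card' (G := ↥Y) p hpd
    have hQq : IsPGroup p ↥(zpowers (y : G)) := by
      have h1 : orderOf (y : G) = p := by rw [Subgroup.orderOf_coe]; exact hy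
      apply IsPGroup.of_card (n := 1)
      rw [Nat.card_zpowers, h1, pow_one]
    have hQF : zpowers (y : G) ≤ F := by
      rw [Subgroup.zpowers_le]; exact hYF y.2
    have hQR := le_pCore_of_le_fitting hQq hQF
    have hRne : (pCore p ↥M).map M.subtype ≠ ⊥ := by
      intro h
      rw [h] at hQR
      have h1 : (y : G) = 1 := Subgroup.mem_bot.mp (hQR (Subgroup.mem_zpowers _))
      have h2 : y = 1 := Subtype.ext h1
      rw [h2, orderOf_one] at hy
      exact hp.one_lt.ne hy
    refine ⟨hp, hpσ, ?_, ?_⟩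
    · by_contra h
      exact hpσ (alpha_subset_sigma hG h96 hM ⟨hp, h⟩)
    · exact not_pRankLE_one_of_normal hG h1409 hM hpσ (hRM p) (hRq p) (hRn p) hRne
  · -- `F(M) = F(M_σ) Y`
    apply le_antisymm
    · show (fittingSubgroup ↥M).map M.subtype ≤ fittingOf (sigmaCore M) ⊔ Y
      rw [Cfsg.Agent.H27.fitting_eq_pCoreJoin, Cfsg.Agent.H27.pCoreJoin, Subgroup.map_iSup]
      apply iSup_le
      rintro ⟨q, hq⟩
      have hqP : q.Prime := Nat.prime_of_mem_primeFactors hq
      haveI : Fact q.Prime := ⟨hqP⟩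
      by_cases hqσ : q ∈ sigma M
      · refine le_trans ?_ le_sup_left
        have hRσ : (pCore q ↥M).map M.subtype ≤ sigmaCore M := by
          show (pCore q ↥M).map M.subtype ≤ (piCore (sigma M) ↥M).map M.subtype
          apply Subgroup.map_mono
          apply le_sSup
          refine ⟨inferInstance, ?_⟩
          intro r hr hrd
          obtain ⟨k, hk⟩ := IsPGroup.iff_card.mp (Cfsg.Agent.H60.isPGroup_pCore (G := ↥M) q)
          rw [hk] at hrd
          have : r = q := (Nat.prime_dvd_prime_iff_eq hr hqP).mp (hr.dvd_of_dvd_pow hrd)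
          rw [this]; exact hqσ
        have hnorm : (((pCore q ↥M).map M.subtype).subgroupOf (sigmaCore M)).Normal :=
          (Subgroup.normal_subgroupOf_iff_le_normalizer hRσ).mpr (hσM.trans (hRn q))
        have hpg : IsPGroup q ↥(((pCore q ↥M).map M.subtype).subgroupOf (sigmaCore M)) :=
          (hRq q).comap_of_injective (sigmaCore M).subtype (sigmaCore M).subtype_injective
        have hle : ((pCore q ↥M).map M.subtype).subgroupOf (sigmaCore M) ≤
            fittingSubgroup ↥(sigmaCore M) := le_sSup ⟨hnorm, hpg.isNilpotent⟩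
        have h2 : (((pCore q ↥M).map M.subtype).subgroupOf (sigmaCore M)).map
            (sigmaCore M).subtype = (pCore q ↥M).map M.subtype := by
          rw [Subgroup.subgroupOf_map_subtype, inf_eq_left.mpr hRσ]
        rw [← h2]
        exact Subgroup.map_mono hle
      · exact (hRY q hqσ).trans le_sup_right
    · apply sup_le _ hYF
      -- `F(M_σ) ≤ F(M)`
      set F₁ : Subgroup G := fittingOf (sigmaCore M) with hF₁
      have hF₁σ : F₁ ≤ sigmaCore M := Subgroup.map_subtype_le _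
      have hF₁M : F₁ ≤ M := hF₁σ.trans hσM
      have hMF₁ : M ≤ normalizer (F₁ : Set G) :=
        (le_normalizer_sigmaCore M).trans
          (Cfsg.Agent.H27.normalizer_le_normalizer_radIn Cfsg.Agent.H27.isoInv_nilpotent
            (sigmaCore M))
      have hF₁nil : Group.IsNilpotent ↥F₁ := by
        haveI : Group.IsNilpotent ↥(fittingSubgroup ↥(sigmaCore M)) :=
          Cfsg.Agent.H27.fitting_nilpotent
        exact Group.nilpotent_of_mulEquiv
          ((fittingSubgroup ↥(sigmaCore M)).equivMapOfInjective (sigmaCore M).subtype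
            (sigmaCore M).subtype_injective)
      have hnorm : (F₁.subgroupOf M).Normal :=
        (Subgroup.normal_subgroupOf_iff_le_normalizer hF₁M).mpr hMF₁
      have hnil : Group.IsNilpotent ↥(F₁.subgroupOf M) := by
        haveI := hF₁nil
        exact Group.nilpotent_of_mulEquiv (Subgroup.subgroupOfEquivOfLe hF₁M).symm
      have hle : F₁.subgroupOf M ≤ fittingSubgroup ↥M := le_sSup ⟨hnorm, hnil⟩
      have h2 : (F₁.subgroupOf M).map M.subtype = F₁ := by
        rw [Subgroup.subgroupOf_map_subtype, inf_eq_left.mpr hF₁M]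
      rw [← h2]
      exact Subgroup.map_mono hle

end Cfsg.Agent.H58.BG12
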