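import Mathlib
import Cfsg.Prelude.Def_Balance
import Cfsg.Agent.H60.Cores
import Cfsg.Agent.H71.Lift
import Cfsg.Agent.S0028

set_option autoImplicit false

/-!
# Solvable balance (helper58)

* `lift_centralizer` : centralizers of `p`-elements lift through quotients by normal `p'`-subgroups.
* `le_pPrimeCore_of_solvable` : in a finite solvable group `H`, a `p'`-subgroup `D` of `C_H(a)`
  normalized by `C_H(a)`, `a` a `p`-element, lies in `O_{p'}(H)`.
-/

namespace Cfsg.Agent.H58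

/-- A common element of a `p`-subgroup and of a subgroup of order prime to `p` is trivial. -/
theorem eq_one_of_mem_pgroup_of_mem_coprime {G : Type*} [Group G] [Finite G] {p : ℕ}
    [Fact p.Prime] {P N : Subgroup G} (hP : IsPGroup p ↥P) (hN : (Nat.card ↥N).Coprime p) {y : G}
    (hyP : y ∈ P) (hyN : y ∈ N) : y = 1 := by
  obtain ⟨k, hk⟩ := hP ⟨y, hyP⟩
  have h1 : y ^ p ^ k = 1 := by
    have := congrArg Subtype.val hk
    simpa using this
  have h2 : orderOf y ∣ p ^ k := orderOf_dvd_of_pow_eq_one h1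
  have h3 : orderOf y ∣ Nat.card ↥N := Subgroup.orderOf_dvd_natCard N hyN
  have h4 : orderOf y ∣ Nat.gcd (Nat.card ↥N) (p ^ k) := Nat.dvd_gcd h3 h2
  have h5 : Nat.gcd (Nat.card ↥N) (p ^ k) = 1 := Nat.Coprime.pow_right k hN
  rw [h5] at h4
  exact orderOf_eq_one_iff.mp (Nat.dvd_one.mp h4)

/-- Centralizers of `p`-elements lift through quotients by normal `p'`-subgroups. -/
theorem lift_centralizer {G : Type*} [Group G] [Finite G] {p : ℕ} [Fact p.Prime]
    (N : Subgroup G) [N.Normal] (hN : (Nat.card ↥N).Coprime p) (x g : G)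
    (hx : ∃ k : ℕ, orderOf x = p ^ k)
    (hg : (g : G ⧸ N) * (x : G ⧸ N) = (x : G ⧸ N) * (g : G ⧸ N)) :
    ∃ n ∈ N, (n⁻¹ * g) * x = x * (n⁻¹ * g) := by
  have hp : p.Prime := Fact.out
  have hN' : ¬ p ∣ Nat.card ↥N := fun h =>
    hp.one_lt.ne' (Nat.dvd_one.mp (by
      have := Nat.dvd_gcd h (dvd_refl p)
      rwa [hN] at this))
  have hgn : (g : G ⧸ N) ∈ Subgroup.normalizer
      ((Subgroup.zpowers (x : G ⧸ N) : Subgroup (G ⧸ N)) : Set (G ⧸ N)) := by
    have hcz : (g : G ⧸ N) ∈ Subgroup.centralizer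
        ((Subgroup.zpowers (x : G ⧸ N) : Subgroup (G ⧸ N)) : Set (G ⧸ N)) := by
      rw [Subgroup.mem_centralizer_iff]
      intro y hy
      obtain ⟨i, rfl⟩ := Subgroup.mem_zpowers_iff.mp hy
      have hc : Commute (x : G ⧸ N) (g : G ⧸ N) := hg.symm
      exact (hc.zpow_left i).eq
    exact Subgroup.centralizer_le_normalizer _ hcz
  obtain ⟨n, hn, hnorm⟩ := Cfsg.Agent.H71.lift_normalizer N hN' x g hx hgn
  refine ⟨n, hn, ?_⟩
  have h1 : (n⁻¹ * g) * x * (n⁻¹ * g)⁻¹ ∈ Subgroup.zpowers x :=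
    (Subgroup.mem_set_normalizer_iff.1 hnorm x).1 (Subgroup.mem_zpowers x)
  have h2 : (n⁻¹ * g) * x * (n⁻¹ * g)⁻¹ * x⁻¹ ∈ Subgroup.zpowers x :=
    Subgroup.mul_mem _ h1 (Subgroup.inv_mem _ (Subgroup.mem_zpowers x))
  have h3 : (n⁻¹ * g) * x * (n⁻¹ * g)⁻¹ * x⁻¹ ∈ N := by
    rw [← QuotientGroup.eq_one_iff]
    have hn1 : ((n : G) : G ⧸ N) = 1 := (QuotientGroup.eq_one_iff n).mpr hn
    simp only [QuotientGroup.mk_mul, QuotientGroup.mk_inv, hn1, inv_one, one_mul]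
    rw [hg]; group
  have h4 := eq_one_of_mem_pgroup_of_mem_coprime (Cfsg.Agent.H71.isPGroup_zpowers hx) hN h2 h3
  have h5 : (n⁻¹ * g) * x = ((n⁻¹ * g) * x * (n⁻¹ * g)⁻¹ * x⁻¹) * (x * (n⁻¹ * g)) := by group
  rw [h5, h4, one_mul]

/-- **Solvable balance**: in a finite solvable group `H`, a subgroup `D` of order prime to `p`
which centralizes a `p`-element `a` and is normalized by `C_H(a)` lies in `O_{p'}(H)`. -/
theorem le_pPrimeCore_of_solvable {H : Type*} [Group H] [Finite H] (hs : Group.IsSolvable H)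
    {p : ℕ} [Fact p.Prime] (a : H) (ha : ∃ k : ℕ, orderOf a = p ^ k) (D : Subgroup H)
    (hDp : (Nat.card ↥D).Coprime p) (hDa : D ≤ Subgroup.centralizer ({a} : Set H))
    (hDn : Subgroup.centralizer ({a} : Set H) ≤ Subgroup.normalizer (D : Set H)) :
    D ≤ Cfsg.pPrimeCore p H := by
  have hp : p.Prime := Fact.out
  have hNcop : (Nat.card ↥(Cfsg.pPrimeCore p H)).Coprime p := Cfsg.Agent.H60.card_pPrimeCore_coprime p
  have hsq : Group.IsSolvable (H ⧸ Cfsg.pPrimeCore p H) :=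
    Group.isSolvable_of_surjective (QuotientGroup.mk'_surjective (Cfsg.pPrimeCore p H))
  have hRp : IsPGroup p ↥(Cfsg.pCore p (H ⧸ Cfsg.pPrimeCore p H)) := Cfsg.Agent.H60.isPGroup_pCore p
  have hCR := Cfsg.Agent.H60.centralizer_pCore_le (p := p) hsq
    (Cfsg.Agent.H60.pPrimeCore_quotient_eq_bot p)
  have hRn : (Cfsg.pCore p (H ⧸ Cfsg.pPrimeCore p H)).Normal := inferInstance
  have hRtop : ∀ K : Subgroup (H ⧸ Cfsg.pPrimeCore p H),
      K ≤ Subgroup.normalizer ((Cfsg.pCore p (H ⧸ Cfsg.pPrimeCore p H) : Subgroup _) : Set _) := by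
    intro K
    rw [Subgroup.normalizer_eq_top]
    exact le_top
  -- the image of `a`
  have hak : ∃ k : ℕ, orderOf (QuotientGroup.mk' (Cfsg.pPrimeCore p H) a) = p ^ k := by
    obtain ⟨k, hk⟩ := ha
    have h1 : orderOf (QuotientGroup.mk' (Cfsg.pPrimeCore p H) a) ∣ p ^ k := by
      rw [← hk]; exact orderOf_map_dvd _ a
    obtain ⟨j, -, hj⟩ := (Nat.dvd_prime_pow hp).mp h1
    exact ⟨j, hj⟩
  have hPp := Cfsg.Agent.H71.isPGroup_zpowers hak
  have hQcop : (Nat.card ↥(D.map (QuotientGroup.mk' (Cfsg.pPrimeCore p H)))).Coprime p :=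
    Nat.Coprime.coprime_dvd_left (Subgroup.card_map_dvd D _) hDp
  have hPQ : Subgroup.zpowers (QuotientGroup.mk' (Cfsg.pPrimeCore p H) a) ≤
      Subgroup.centralizer ((D.map (QuotientGroup.mk' (Cfsg.pPrimeCore p H)) : Subgroup _) : Set _) := by
    rw [Subgroup.zpowers_le, Subgroup.mem_centralizer_iff]
    rintro y ⟨d, hd, rfl⟩
    have h1 : d * a = a * d := Subgroup.mem_centralizer_singleton_iff.mp (hDa hd)
    rw [← map_mul, ← map_mul, h1]
  have hC : Cfsg.pCore p (H ⧸ Cfsg.pPrimeCore p H) ⊓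
      Subgroup.centralizer ((Subgroup.zpowers (QuotientGroup.mk' (Cfsg.pPrimeCore p H) a) :
        Subgroup _) : Set _) ≤
      Subgroup.centralizer ((D.map (QuotientGroup.mk' (Cfsg.pPrimeCore p H)) : Subgroup _) : Set _) := by
    intro r hr
    have hrR := (Subgroup.mem_inf.mp hr).1
    have hrC := (Subgroup.mem_inf.mp hr).2
    obtain ⟨g, rfl⟩ := QuotientGroup.mk'_surjective (Cfsg.pPrimeCore p H) r
    have hga : (g : H ⧸ Cfsg.pPrimeCore p H) * (a : H ⧸ Cfsg.pPrimeCore p H) =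
        (a : H ⧸ Cfsg.pPrimeCore p H) * (g : H ⧸ Cfsg.pPrimeCore p H) :=
      ((Subgroup.mem_centralizer_iff.mp hrC) _ (Subgroup.mem_zpowers _)).symm
    obtain ⟨n, hn, hcomm⟩ := lift_centralizer (Cfsg.pPrimeCore p H) hNcop a g ha hga
    have hcC : n⁻¹ * g ∈ Subgroup.centralizer ({a} : Set H) :=
      Subgroup.mem_centralizer_singleton_iff.mpr hcomm
    have hcN := hDn hcC
    have hπ : QuotientGroup.mk' (Cfsg.pPrimeCore p H) (n⁻¹ * g) =
        QuotientGroup.mk' (Cfsg.pPrimeCore p H) g := by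
      have hn1 : QuotientGroup.mk' (Cfsg.pPrimeCore p H) n = 1 :=
        (QuotientGroup.eq_one_iff n).mpr hn
      rw [map_mul, map_inv, hn1, inv_one, one_mul]
    rw [Subgroup.mem_centralizer_iff]
    rintro y ⟨d, hd, rfl⟩
    have h1 : (n⁻¹ * g) * d * (n⁻¹ * g)⁻¹ ∈ D := (Subgroup.mem_normalizer_iff.mp hcN d).mp hd
    have h2 : QuotientGroup.mk' (Cfsg.pPrimeCore p H) ((n⁻¹ * g) * d * (n⁻¹ * g)⁻¹ * d⁻¹) ∈
        D.map (QuotientGroup.mk' (Cfsg.pPrimeCore p H)) :=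
      Subgroup.mem_map_of_mem _ (D.mul_mem h1 (D.inv_mem hd))
    have h3 : QuotientGroup.mk' (Cfsg.pPrimeCore p H) ((n⁻¹ * g) * d * (n⁻¹ * g)⁻¹ * d⁻¹) =
        QuotientGroup.mk' (Cfsg.pPrimeCore p H) g * (QuotientGroup.mk' (Cfsg.pPrimeCore p H) d *
          (QuotientGroup.mk' (Cfsg.pPrimeCore p H) g)⁻¹ *
          (QuotientGroup.mk' (Cfsg.pPrimeCore p H) d)⁻¹) := by
      rw [map_mul, map_mul, map_mul, map_inv, map_inv, hπ]; group
    have h4 : QuotientGroup.mk' (Cfsg.pPrimeCore p H) g * (QuotientGroup.mk' (Cfsg.pPrimeCore p H) d *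
          (QuotientGroup.mk' (Cfsg.pPrimeCore p H) g)⁻¹ *
          (QuotientGroup.mk' (Cfsg.pPrimeCore p H) d)⁻¹) ∈
        Cfsg.pCore p (H ⧸ Cfsg.pPrimeCore p H) :=
      Subgroup.mul_mem _ hrR (hRn.conj_mem _ (Subgroup.inv_mem _ hrR) _)
    rw [h3] at h2
    have h5 := eq_one_of_mem_pgroup_of_mem_coprime hRp hQcop h4 h2
    have h6 : QuotientGroup.mk' (Cfsg.pPrimeCore p H) g * QuotientGroup.mk' (Cfsg.pPrimeCore p H) d =
        (QuotientGroup.mk' (Cfsg.pPrimeCore p H) g * (QuotientGroup.mk' (Cfsg.pPrimeCore p H) d *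
          (QuotientGroup.mk' (Cfsg.pPrimeCore p H) g)⁻¹ *
          (QuotientGroup.mk' (Cfsg.pPrimeCore p H) d)⁻¹)) *
        (QuotientGroup.mk' (Cfsg.pPrimeCore p H) d * QuotientGroup.mk' (Cfsg.pPrimeCore p H) g) := by
      group
    rw [h6, h5, one_mul]
  have hQR := Cfsg.Agent.S0028.result p _ _ _ hPp hQcop hRp hPQ (hRtop _) (hRtop _) hC
  intro d hd
  have h1 : QuotientGroup.mk' (Cfsg.pPrimeCore p H) d ∈ D.map (QuotientGroup.mk' (Cfsg.pPrimeCore p H)) :=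
    Subgroup.mem_map_of_mem _ hd
  have h2 := eq_one_of_mem_pgroup_of_mem_coprime hRp hQcop (hCR (hQR h1)) h1
  exact (QuotientGroup.eq_one_iff d).mp h2

end Cfsg.Agent.H58
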