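import Mathlib
import Cfsg.Agent.H79.BrDefs

/-!
helper58: piece S4504-GLCENT for helper79 (`C_G(P) = P × Z(G)` for a non-normal Sylow
`p`-subgroup `P` of order `p` whose centralizer has only central `p'`-elements).
-/

set_option autoImplicit false

namespace Cfsg.Agent.H58.Br

universe u

/-- A `p`-element centralizing a Sylow `p`-subgroup lies in it. -/
theorem mem_sylow_of_centralizes {G : Type u} [Group G] (p : ℕ) [Fact p.Prime] (P : Sylow p G)
    (c : G) (hc : c ∈ Subgroup.centralizer ((P : Subgroup G) : Set G)) (k : ℕ)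
    (hk : c ^ (p ^ k) = 1) : c ∈ (P : Subgroup G) := by
  have hz : IsPGroup p (Subgroup.zpowers c) := by
    intro y
    obtain ⟨j, hj⟩ := Subgroup.mem_zpowers_iff.1 y.2
    refine ⟨k, ?_⟩
    apply Subtype.ext
    rw [Subgroup.coe_pow, ← hj]
    show (c ^ j) ^ (p ^ k) = 1
    rw [← zpow_natCast, ← zpow_mul, mul_comm, zpow_mul, zpow_natCast, hk, one_zpow]
  have hnorm : Subgroup.zpowers c ≤ Subgroup.normalizer ((P : Subgroup G) : Set G) := by
    rw [Subgroup.zpowers_le]
    exact Subgroup.centralizer_le_normalizer _ hc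
  have hsup : IsPGroup p ((P : Subgroup G) ⊔ Subgroup.zpowers c : Subgroup G) :=
    IsPGroup.to_sup_of_normal_left' P.isPGroup' hz hnorm
  have heq := P.is_maximal' hsup le_sup_left
  have : c ∈ ((P : Subgroup G) ⊔ Subgroup.zpowers c : Subgroup G) :=
    (le_sup_right : Subgroup.zpowers c ≤ _) (Subgroup.mem_zpowers c)
  rw [heq] at this
  exact this

/-- A nontrivial element of a subgroup of prime order generates it. -/
theorem zpowers_eq_of_card_prime {G : Type u} [Group G] [Finite G] (p : ℕ) [hp : Fact p.Prime]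
    (P : Subgroup G) (hP : Nat.card P = p) (x : G) (hx : x ∈ P) (hx1 : x ≠ 1) :
    Subgroup.zpowers x = P ∧ orderOf x = p := by
  have hle : Subgroup.zpowers x ≤ P := by
    rw [Subgroup.zpowers_le]; exact hx
  have hdvd : orderOf x ∣ p := by
    rw [← hP, ← Nat.card_zpowers]
    exact Subgroup.card_dvd_of_le hle
  have hord : orderOf x = p := by
    rcases (Nat.dvd_prime hp.out).1 hdvd with h | h
    · exact absurd (orderOf_eq_one_iff.1 h) hx1
    · exact h
  refine ⟨?_, hord⟩
  apply Subgroup.eq_of_le_of_card_ge hle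
  rw [Nat.card_zpowers, hord, hP]

theorem glCent : Cfsg.Agent.H79.Br.StGLCent.{u} := by
  intro G _ _ p _ P hP hnn hcen
  have hp : p.Prime := Fact.out
  -- (2) no central element of order divisible by p
  have hzreg : ∀ z ∈ Subgroup.center G, ¬ p ∣ orderOf z := by
    intro z hz hdvd
    obtain ⟨m, hm⟩ := hdvd
    set z0 := z ^ m with hz0
    have hz0c : z0 ∈ Subgroup.center G := Subgroup.pow_mem _ hz m
    have hm0 : m ≠ 0 := by
      intro h0
      rw [h0, mul_zero] at hm
      exact (orderOf_pos z).ne' hm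
    have hz0p : z0 ^ p = 1 := by
      rw [hz0, ← pow_mul, mul_comm, ← hm]; exact pow_orderOf_eq_one z
    have hz01 : z0 ≠ 1 := by
      intro h1
      have : orderOf z ∣ m := orderOf_dvd_of_pow_eq_one h1
      rw [hm] at this
      have h2 : p * m ≤ m := Nat.le_of_dvd (Nat.pos_of_ne_zero hm0) this
      have h3 : 2 * m ≤ p * m := Nat.mul_le_mul_right m hp.two_le
      omega
    have hz0P : z0 ∈ (P : Subgroup G) := by
      apply mem_sylow_of_centralizes p P z0 _ 1 (by rw [pow_one]; exact hz0p)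
      rw [Subgroup.mem_centralizer_iff]
      intro y _
      exact (Subgroup.mem_center_iff.1 hz0c y)
    obtain ⟨hgen, -⟩ := zpowers_eq_of_card_prime p (P : Subgroup G) hP z0 hz0P hz01
    apply hnn
    rw [← hgen]
    refine ⟨fun y hy g => ?_⟩
    obtain ⟨j, rfl⟩ := Subgroup.mem_zpowers_iff.1 hy
    have hc : z0 ^ j ∈ Subgroup.center G := Subgroup.zpow_mem _ hz0c j
    have : g * z0 ^ j * g⁻¹ = z0 ^ j := by
      rw [Subgroup.mem_center_iff.1 hc g, mul_inv_cancel_right]
    rw [this]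
    exact Subgroup.mem_zpowers_iff.2 ⟨j, rfl⟩
  -- (3) centralizers of nontrivial elements of P
  have hcx : ∀ x ∈ (P : Subgroup G), x ≠ 1 →
      Subgroup.centralizer ({x} : Set G) = Subgroup.centralizer ((P : Subgroup G) : Set G) := by
    intro x hx hx1
    obtain ⟨hgen, -⟩ := zpowers_eq_of_card_prime p (P : Subgroup G) hP x hx hx1
    apply le_antisymm
    · intro g hg
      rw [Subgroup.mem_centralizer_iff] at hg ⊢
      intro y hy
      have hgx : x * g = g * x := hg x (Set.mem_singleton x)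
      have hy' : y ∈ Subgroup.zpowers x := by rw [hgen]; exact hy
      obtain ⟨j, rfl⟩ := Subgroup.mem_zpowers_iff.1 hy'
      exact ((Commute.zpow_left (show Commute x g from hgx) j)).eq
    · apply Subgroup.centralizer_le
      intro y hy
      rw [Set.mem_singleton_iff] at hy
      rw [hy]; exact hx
  refine ⟨?_, hzreg, hcx⟩
  -- (1) the order of the centralizer
  have hPab : ∀ x ∈ (P : Subgroup G), ∀ y ∈ (P : Subgroup G), x * y = y * x := by
    intro x hx y hy
    by_cases hx1 : x = 1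
    · rw [hx1, one_mul, mul_one]
    · obtain ⟨hgen, -⟩ := zpowers_eq_of_card_prime p (P : Subgroup G) hP x hx hx1
      have hy' : y ∈ Subgroup.zpowers x := by rw [hgen]; exact hy
      obtain ⟨j, rfl⟩ := Subgroup.mem_zpowers_iff.1 hy'
      exact ((Commute.zpow_right (Commute.refl x) j)).eq
  have hPC : ∀ x ∈ (P : Subgroup G), x ∈ Subgroup.centralizer ((P : Subgroup G) : Set G) := by
    intro x hx
    rw [Subgroup.mem_centralizer_iff]
    intro y hy
    exact hPab y hy x hx
  have hZC : ∀ z ∈ Subgroup.center G, z ∈ Subgroup.centralizer ((P : Subgroup G) : Set G) := by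
    intro z hz
    rw [Subgroup.mem_centralizer_iff]
    intro y _
    exact Subgroup.mem_center_iff.1 hz y
  let φ : ↥(P : Subgroup G) × ↥(Subgroup.center G) →
      ↥(Subgroup.centralizer ((P : Subgroup G) : Set G)) :=
    fun a => ⟨(a.1 : G) * (a.2 : G), mul_mem (hPC _ a.1.2) (hZC _ a.2.2)⟩
  have hinj : Function.Injective φ := by
    rintro ⟨x, z⟩ ⟨x', z'⟩ h
    have h1 : (x : G) * (z : G) = (x' : G) * (z' : G) := congrArg Subtype.val h
    -- w := x'⁻¹ x = z' z⁻¹ ∈ P ∩ Z
    have h2 : (x' : G)⁻¹ * (x : G) = (z' : G) * (z : G)⁻¹ := by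
      rw [inv_mul_eq_iff_eq_mul, ← mul_assoc, ← h1, mul_inv_cancel_right]
    have hwP : (x' : G)⁻¹ * (x : G) ∈ (P : Subgroup G) := mul_mem (inv_mem x'.2) x.2
    have hwZ : (x' : G)⁻¹ * (x : G) ∈ Subgroup.center G := by
      rw [h2]; exact mul_mem z'.2 (inv_mem z.2)
    have hw1 : (x' : G)⁻¹ * (x : G) = 1 := by
      by_contra hne
      obtain ⟨-, hord⟩ := zpowers_eq_of_card_prime p (P : Subgroup G) hP _ hwP hne
      exact hzreg _ hwZ (by rw [hord])
    have hx : (x : G) = (x' : G) := by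
      rw [inv_mul_eq_one] at hw1; exact hw1.symm
    have hz : (z : G) = (z' : G) := by
      rw [hx] at h1; exact mul_left_cancel h1
    exact Prod.ext (Subtype.ext hx) (Subtype.ext hz)
  have hsurj : Function.Surjective φ := by
    rintro ⟨c, hc⟩
    -- decompose c
    have hn0 : orderOf c ≠ 0 := (orderOf_pos c).ne'
    obtain ⟨k, m, hpm, hkm⟩ := Nat.exists_eq_pow_mul_and_not_dvd hn0 p hp.ne_one
    have hcop : Nat.Coprime (p ^ k) m := Nat.Coprime.pow_left k ((Nat.Prime.coprime_iff_not_dvd hp).2 hpm)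
    have hbez : ((p ^ k : ℕ) : ℤ) * Nat.gcdA (p ^ k) m + (m : ℤ) * Nat.gcdB (p ^ k) m = 1 := by
      have := Nat.gcd_eq_gcd_ab (p ^ k) m
      rw [hcop] at this
      exact_mod_cast this.symm
    set cp : G := c ^ ((m : ℤ) * Nat.gcdB (p ^ k) m) with hcp
    set cq : G := c ^ (((p ^ k : ℕ) : ℤ) * Nat.gcdA (p ^ k) m) with hcq
    have hsplit : c = cp * cq := by
      rw [hcp, hcq, ← zpow_add, add_comm, hbez, zpow_one]
    have hcpC : cp ∈ Subgroup.centralizer ((P : Subgroup G) : Set G) := Subgroup.zpow_mem _ hc _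
    have hcqC : cq ∈ Subgroup.centralizer ((P : Subgroup G) : Set G) := Subgroup.zpow_mem _ hc _
    have hcpp : cp ^ (p ^ k) = 1 := by
      rw [hcp, ← zpow_natCast, ← zpow_mul]
      have : (m : ℤ) * Nat.gcdB (p ^ k) m * ((p ^ k : ℕ) : ℤ) =
          ((orderOf c : ℕ) : ℤ) * Nat.gcdB (p ^ k) m := by
        rw [hkm]; push_cast; ring
      rw [this, zpow_mul, zpow_natCast, pow_orderOf_eq_one, one_zpow]
    have hcqm : cq ^ m = 1 := by
      rw [hcq, ← zpow_natCast, ← zpow_mul]
      have : ((p ^ k : ℕ) : ℤ) * Nat.gcdA (p ^ k) m * (m : ℤ) =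
          ((orderOf c : ℕ) : ℤ) * Nat.gcdA (p ^ k) m := by
        rw [hkm]; push_cast; ring
      rw [this, zpow_mul, zpow_natCast, pow_orderOf_eq_one, one_zpow]
    have hcpP : cp ∈ (P : Subgroup G) := mem_sylow_of_centralizes p P cp hcpC k hcpp
    have hcqZ : cq ∈ Subgroup.center G := by
      apply hcen cq hcqC
      intro hdvd
      exact hpm (dvd_trans hdvd (orderOf_dvd_of_pow_eq_one hcqm))
    exact ⟨(⟨cp, hcpP⟩, ⟨cq, hcqZ⟩), Subtype.ext hsplit.symm⟩
  have hcard := Nat.card_congr (Equiv.ofBijective φ ⟨hinj, hsurj⟩)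
  rw [← hcard, Nat.card_prod, hP]

example : Cfsg.Agent.H79.Br.StGLCent.{u} := glCent

end Cfsg.Agent.H58.Br
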