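import Mathlib
import Cfsg.Agent.H79.BrDefs
import Cfsg.Agent.H58.BrGLCent

/-!
helper58: piece S4504-GLPAR for helper79 (inverses of the two classes of elements of order `p`).
-/

set_option autoImplicit false

namespace Cfsg.Agent.H58.Br

universe u

/-- `C_G(P) ∩ N_G(P)` is normal in `N_G(P)`. -/
theorem centSubNormal {G : Type u} [Group G] (P : Subgroup G) :
    ((Subgroup.centralizer (P : Set G)).subgroupOf (Subgroup.normalizer (P : Set G))).Normal := by
  refine ⟨fun c hc n => ?_⟩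
  rw [Subgroup.mem_subgroupOf] at hc ⊢
  rw [Subgroup.mem_centralizer_iff] at hc ⊢
  intro y hy
  have hn := n.2
  rw [Subgroup.mem_set_normalizer_iff''] at hn
  have hy' : (n : G)⁻¹ * y * n ∈ P := (hn y).1 hy
  have h1 := hc _ hy'
  simp only [Subgroup.coe_mul, Subgroup.coe_inv]
  calc y * ((n : G) * (c : G) * (n : G)⁻¹)
      = (n : G) * ((n : G)⁻¹ * y * (n : G) * (c : G)) * (n : G)⁻¹ := by group
    _ = (n : G) * ((c : G) * ((n : G)⁻¹ * y * (n : G))) * (n : G)⁻¹ := by rw [h1]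
    _ = (n : G) * (c : G) * (n : G)⁻¹ * y := by group

/-- Consequences of `|N_G(P)| = f |C_G(P)|`. -/
theorem quot_facts {G : Type u} [Group G] [Finite G] (P : Subgroup G) (f : ℕ)
    (hN : Nat.card (Subgroup.normalizer (P : Set G)) =
      f * Nat.card (Subgroup.centralizer (P : Set G))) :
    (∀ g ∈ Subgroup.normalizer (P : Set G), g ^ f ∈ Subgroup.centralizer (P : Set G)) ∧
    (Even f → ∃ n ∈ Subgroup.normalizer (P : Set G),
      n ∉ Subgroup.centralizer (P : Set G) ∧ n ^ 2 ∈ Subgroup.centralizer (P : Set G)) := by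
  have hCN : Subgroup.centralizer (P : Set G) ≤ Subgroup.normalizer (P : Set G) :=
    Subgroup.centralizer_le_normalizer _
  set Cn := (Subgroup.centralizer (P : Set G)).subgroupOf (Subgroup.normalizer (P : Set G))
    with hCn
  have hnorm : Cn.Normal := centSubNormal P
  have h1 := Subgroup.card_eq_card_quotient_mul_card_subgroup Cn
  have h2 : Nat.card Cn = Nat.card (Subgroup.centralizer (P : Set G)) :=
    Nat.card_congr (Subgroup.subgroupOfEquivOfLe hCN).toEquiv
  have hq : Nat.card (Subgroup.normalizer (P : Set G) ⧸ Cn) = f := by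
    rw [h2, hN] at h1
    have hpos : 0 < Nat.card (Subgroup.centralizer (P : Set G)) := Nat.card_pos
    exact (Nat.eq_of_mul_eq_mul_right hpos h1).symm
  constructor
  · intro g hg
    have h3 : ((QuotientGroup.mk (⟨g, hg⟩ : Subgroup.normalizer (P : Set G)) :
        Subgroup.normalizer (P : Set G) ⧸ Cn)) ^ f = 1 := by
      rw [← hq]; exact pow_card_eq_one'
    rw [← QuotientGroup.mk_pow, QuotientGroup.eq_one_iff] at h3
    have h4 := Subgroup.mem_subgroupOf.1 h3
    simpa using h4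
  · intro hev
    have h2dvd : 2 ∣ Nat.card (Subgroup.normalizer (P : Set G) ⧸ Cn) := by
      rw [hq]; exact hev.two_dvd
    have : Fact (Nat.Prime 2) := ⟨Nat.prime_two⟩
    obtain ⟨q, hqo⟩ := exists_prime_orderOf_dvd_card'
      (G := Subgroup.normalizer (P : Set G) ⧸ Cn) 2 h2dvd
    obtain ⟨n, rfl⟩ := QuotientGroup.mk_surjective q
    refine ⟨(n : G), n.2, ?_, ?_⟩
    · intro hmem
      have h5 : n ∈ Cn := Subgroup.mem_subgroupOf.2 hmem
      have h6 : (QuotientGroup.mk n : Subgroup.normalizer (P : Set G) ⧸ Cn) = 1 :=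
        (QuotientGroup.eq_one_iff n).2 h5
      rw [h6, orderOf_one] at hqo
      exact absurd hqo (by norm_num)
    · have h7 : (QuotientGroup.mk n : Subgroup.normalizer (P : Set G) ⧸ Cn) ^ 2 = 1 := by
        rw [← hqo]; exact pow_orderOf_eq_one _
      rw [← QuotientGroup.mk_pow, QuotientGroup.eq_one_iff] at h7
      have h8 := Subgroup.mem_subgroupOf.1 h7
      simpa using h8

/-- An element commuting with a generator of `P` centralizes `P`. -/
theorem mem_centralizer_of_gen {G : Type u} [Group G] (P : Subgroup G) (x : G)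
    (hgen : Subgroup.zpowers x = P) (n : G) (h : x * n = n * x) :
    n ∈ Subgroup.centralizer (P : Set G) := by
  rw [Subgroup.mem_centralizer_iff]
  intro y hy
  have hy' : y ∈ Subgroup.zpowers x := by rw [hgen]; exact hy
  obtain ⟨j, rfl⟩ := Subgroup.mem_zpowers_iff.1 hy'
  exact ((Commute.zpow_left (show Commute x n from h) j)).eq

theorem inv_conj_of_even {G : Type u} [Group G] [Finite G] (p : ℕ) [hp : Fact p.Prime]
    (P : Subgroup G) (hP : Nat.card P = p) (f : ℕ)
    (hN : Nat.card (Subgroup.normalizer (P : Set G)) =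
      f * Nat.card (Subgroup.centralizer (P : Set G)))
    (hev : Even f) (x : G) (hx : x ∈ P) (hx1 : x ≠ 1) : IsConj x⁻¹ x := by
  obtain ⟨hgen, hord⟩ := zpowers_eq_of_card_prime p P hP x hx hx1
  obtain ⟨n, hnN, hnC, hn2⟩ := (quot_facts P f hN).2 hev
  have hnx : n * x * n⁻¹ ∈ P := ((Subgroup.mem_set_normalizer_iff.1 hnN) x).1 hx
  have hnx' : n * x * n⁻¹ ∈ Subgroup.zpowers x := by rw [hgen]; exact hnx
  rw [← mem_powers_iff_mem_zpowers, Submonoid.mem_powers_iff] at hnx'
  obtain ⟨k, hk⟩ := hnx'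
  -- n² centralizes x
  have h2 : x * n ^ 2 = n ^ 2 * x := (Subgroup.mem_centralizer_iff.1 hn2) x hx
  have h3 : n * (n * x * n⁻¹) * n⁻¹ = x := by
    have : n * (n * x * n⁻¹) * n⁻¹ = n ^ 2 * x * (n ^ 2)⁻¹ := by
      rw [pow_two, mul_inv_rev]; simp only [mul_assoc]
    rw [this, ← h2, mul_inv_cancel_right]
  have h4 : n * (n * x * n⁻¹) * n⁻¹ = x ^ (k * k) := by
    rw [← hk]
    have : n * x ^ k * n⁻¹ = (n * x * n⁻¹) ^ k := (conj_pow (a := n) (b := x) (i := k)).symm
    rw [this, ← hk, ← pow_mul]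
  have h5 : x ^ (k * k) = x ^ 1 := by rw [← h4, h3, pow_one]
  have h6 : k * k ≡ 1 [MOD p] := by
    rw [← hord]; exact pow_eq_pow_iff_modEq.1 h5
  have h7 : ((k : ZMod p)) * (k : ZMod p) = 1 := by
    have := (ZMod.natCast_eq_natCast_iff _ _ _).2 h6
    push_cast at this
    exact this
  rcases mul_self_eq_one_iff.1 h7 with h8 | h8
  · exfalso
    have h9 : k ≡ 1 [MOD p] := by
      apply (ZMod.natCast_eq_natCast_iff _ _ _).1
      rw [h8]; simp
    have h10 : x ^ k = x ^ 1 := by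
      apply pow_eq_pow_iff_modEq.2
      rw [hord]; exact h9
    rw [pow_one] at h10
    rw [h10] at hk
    have h11 : x * n = n * x := by
      have : n * x = (n * x * n⁻¹) * n := by group
      rw [this, ← hk]
    exact hnC (mem_centralizer_of_gen P x hgen n h11)
  · have h9 : ((k + 1 : ℕ) : ZMod p) = 0 := by
      push_cast; rw [h8]; ring
    have h10 : p ∣ k + 1 := (ZMod.natCast_eq_zero_iff _ _).1 h9
    have h11 : x ^ (k + 1) = 1 := by
      rw [← hord] at h10
      exact orderOf_dvd_iff_pow_eq_one.1 h10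
    have h12 : x ^ k = x⁻¹ := by
      rw [pow_succ] at h11
      exact eq_inv_of_mul_eq_one_left h11
    have h13 : IsConj x x⁻¹ := isConj_iff.2 ⟨n, by rw [← hk, h12]⟩
    exact h13.symm

theorem not_inv_conj_of_odd {G : Type u} [Group G] [Finite G] (p : ℕ) [hp : Fact p.Prime]
    (P : Subgroup G) (hP : Nat.card P = p) (f : ℕ) (hf : 2 * f + 1 = p)
    (hN : Nat.card (Subgroup.normalizer (P : Set G)) =
      f * Nat.card (Subgroup.centralizer (P : Set G)))
    (hodd : Odd f) (x : G) (hx : x ∈ P) (hx1 : x ≠ 1) : ¬ IsConj x⁻¹ x := by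
  intro hconj
  obtain ⟨hgen, hord⟩ := zpowers_eq_of_card_prime p P hP x hx hx1
  obtain ⟨g, hg⟩ := isConj_iff.1 hconj
  -- g x g⁻¹ = x⁻¹ and g⁻¹ x g = x⁻¹
  have hg1 : g * x * g⁻¹ = x⁻¹ := by
    have : g * x * g⁻¹ = (g * x⁻¹ * g⁻¹)⁻¹ := by group
    rw [this, hg]
  have hg2 : g⁻¹ * x * g = x⁻¹ := by
    calc g⁻¹ * x * g = g⁻¹ * (g * x⁻¹ * g⁻¹) * g := by rw [hg]
      _ = x⁻¹ := by group
  have hgN : g ∈ Subgroup.normalizer (P : Set G) := by
    rw [Subgroup.mem_set_normalizer_iff]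
    intro h
    constructor
    · intro hh
      have hh' : h ∈ Subgroup.zpowers x := by rw [hgen]; exact hh
      obtain ⟨j, rfl⟩ := Subgroup.mem_zpowers_iff.1 hh'
      have : g * x ^ j * g⁻¹ = (g * x * g⁻¹) ^ j := (conj_zpow (a := g) (b := x) (i := j)).symm
      rw [SetLike.mem_coe, this, hg1]
      exact Subgroup.zpow_mem _ (Subgroup.inv_mem _ hx) j
    · intro hh
      have hh' : g * h * g⁻¹ ∈ Subgroup.zpowers x := by rw [hgen]; exact hh
      obtain ⟨j, hj⟩ := Subgroup.mem_zpowers_iff.1 hh'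
      have h1 : h = g⁻¹ * x ^ j * g := by rw [hj]; group
      have h2 : g⁻¹ * x ^ j * g = (g⁻¹ * x * g) ^ j := by
        have := (conj_zpow (a := g⁻¹) (b := x) (i := j)).symm
        rwa [inv_inv] at this
      rw [SetLike.mem_coe, h1, h2, hg2]
      exact Subgroup.zpow_mem _ (Subgroup.inv_mem _ hx) j
  have hg2C : g ^ 2 ∈ Subgroup.centralizer (P : Set G) := by
    apply mem_centralizer_of_gen P x hgen
    have h1 : g ^ 2 * x * (g ^ 2)⁻¹ = x := by
      have : g ^ 2 * x * (g ^ 2)⁻¹ = g * (g * x * g⁻¹) * g⁻¹ := by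
        rw [pow_two, mul_inv_rev]; simp only [mul_assoc]
      rw [this, hg1]
      have : g * x⁻¹ * g⁻¹ = (g * x * g⁻¹)⁻¹ := by group
      rw [this, hg1, inv_inv]
    have : g ^ 2 * x = (g ^ 2 * x * (g ^ 2)⁻¹) * g ^ 2 := by group
    rw [this, h1]
  have hgfC : g ^ f ∈ Subgroup.centralizer (P : Set G) := (quot_facts P f hN).1 g hgN
  obtain ⟨m, hm⟩ := hodd
  have hgC : g ∈ Subgroup.centralizer (P : Set G) := by
    have h1 : g = ((g ^ 2) ^ m)⁻¹ * g ^ f := by
      rw [hm, ← pow_mul, pow_succ, inv_mul_cancel_left]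
    rw [h1]
    exact Subgroup.mul_mem _ (Subgroup.inv_mem _ (Subgroup.pow_mem _ hg2C m)) hgfC
  have h3 : x * g = g * x := (Subgroup.mem_centralizer_iff.1 hgC) x hx
  have h4 : x⁻¹ = x := by
    rw [← hg1, ← h3, mul_inv_cancel_right]
  have h5 : x ^ 2 = 1 := by
    rw [pow_two]
    nth_rewrite 1 [← h4]
    exact inv_mul_cancel x
  have h6 : p ∣ 2 := by
    rw [← hord]; exact orderOf_dvd_of_pow_eq_one h5
  have h7 : p ≤ 2 := Nat.le_of_dvd (by norm_num) h6
  have h8 := hp.out.two_le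
  omega

theorem glPar : Cfsg.Agent.H79.Br.StGLPar.{u} := by
  intro G _ _ p _ P hP f hf hN x₁ x₂ hx₁ hx₂ h1 h2 hnc hall
  constructor
  · intro h3
    have hodd : Odd f := by
      rw [Nat.odd_iff]; omega
    have hni := not_inv_conj_of_odd p (P : Subgroup G) hP f hf hN hodd x₁ hx₁ h1
    rcases hall x₁⁻¹ (inv_mem hx₁) (inv_ne_one.2 h1) with h | h
    · exact absurd h hni
    · exact h
  · intro h3
    have hev : Even f := by
      rw [Nat.even_iff]; omega
    exact ⟨inv_conj_of_even p (P : Subgroup G) hP f hN hev x₁ hx₁ h1,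
      inv_conj_of_even p (P : Subgroup G) hP f hN hev x₂ hx₂ h2⟩

example : Cfsg.Agent.H79.Br.StGLPar.{u} := glPar

end Cfsg.Agent.H58.Br
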