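import Mathlib
import Cfsg.Prelude.Def_Balance

set_option autoImplicit false

/-!
# Small general lemmas (helper58)

* `conjRestrict`, `char_map_le_normalizer` : a characteristic subgroup of `K` is normalized by
  `N_G(K)`.
* `exists_relIndex_eq_prime` : a nontrivial `p`-group has a subgroup of index `p`.
* `eq_one_of_pow_of_coprime` : an element whose order divides both a `q`-power and a number prime
  to `q` is trivial.
-/

namespace Cfsg.Agent.H58

variable {G : Type*} [Group G]

/-- Conjugation by a normalizing element, restricted to the subgroup. -/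
def conjRestrict (U : Subgroup G) (g : G) (hg : g ∈ Subgroup.normalizer (U : Set G)) : U ≃* U where
  toFun x := ⟨g * x * g⁻¹, (Subgroup.mem_normalizer_iff.1 hg x).1 x.2⟩
  invFun x := ⟨g⁻¹ * x * g, by
    have := (Subgroup.mem_normalizer_iff.1 (inv_mem hg) x).1 x.2
    simpa using this⟩
  left_inv x := by
    apply Subtype.ext
    show g⁻¹ * (g * x * g⁻¹) * g = x
    group
  right_inv x := by
    apply Subtype.ext
    show g * (g⁻¹ * x * g) * g⁻¹ = x
    group
  map_mul' x y := by
    apply Subtype.ext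
    show g * (x * y) * g⁻¹ = (g * x * g⁻¹) * (g * y * g⁻¹)
    group

/-- A characteristic subgroup of `U` is normalized by `N_G(U)`. -/
theorem char_map_le_normalizer (U : Subgroup G) (T : Subgroup U) (hT : T.Characteristic) :
    Subgroup.normalizer (U : Set G) ≤
      Subgroup.normalizer ((T.map U.subtype : Subgroup G) : Set G) := by
  have key : ∀ g ∈ Subgroup.normalizer (U : Set G), ∀ h ∈ T.map U.subtype,
      g * h * g⁻¹ ∈ T.map U.subtype := by
    rintro g hg _ ⟨t, ht, rfl⟩
    have h2 := hT.fixed (conjRestrict U g hg)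
    rw [← h2] at ht
    exact ⟨conjRestrict U g hg t, ht, rfl⟩
  intro g hg
  rw [Subgroup.mem_normalizer_iff]
  intro h
  refine ⟨key g hg h, fun h1 => ?_⟩
  have h3 := key g⁻¹ (inv_mem hg) _ h1
  have e : g⁻¹ * (g * h * g⁻¹) * g⁻¹⁻¹ = h := by group
  rw [e] at h3
  exact h3

/-- A `p`-subgroup of order at least `p` has a subgroup of index `p`. -/
theorem exists_relIndex_eq_prime [Finite G] {p : ℕ} [Fact p.Prime] {A : Subgroup G}
    (hA : IsPGroup p ↥A) (hA1 : p ≤ Nat.card ↥A) : ∃ B : Subgroup G, B ≤ A ∧ B.relIndex A = p := by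
  have hp : p.Prime := Fact.out
  obtain ⟨n, hn⟩ := IsPGroup.iff_card.mp hA
  have hn1 : n ≠ 0 := by
    rintro rfl
    rw [pow_zero] at hn
    rw [hn] at hA1
    exact absurd hA1 (not_le.mpr hp.one_lt)
  obtain ⟨m, rfl⟩ := Nat.exists_eq_succ_of_ne_zero hn1
  obtain ⟨B₀, hB₀⟩ := Sylow.exists_subgroup_card_pow_prime (G := ↥A) p (n := m)
    (by rw [hn]; exact pow_dvd_pow p (Nat.le_succ m))
  refine ⟨B₀.map A.subtype, Subgroup.map_subtype_le _, ?_⟩
  have h1 : (B₀.map A.subtype).subgroupOf A = B₀ :=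
    Subgroup.comap_map_eq_self_of_injective (Subgroup.subtype_injective _) B₀
  have h2 : (B₀.map A.subtype).relIndex A = B₀.index := by
    unfold Subgroup.relIndex
    rw [h1]
  rw [h2]
  have h3 := B₀.index_mul_card
  rw [hB₀, hn, pow_succ] at h3
  have hpos : 0 < p ^ m := pow_pos hp.pos m
  have : B₀.index * p ^ m = p * p ^ m := by rw [h3, mul_comm]
  exact Nat.eq_of_mul_eq_mul_right hpos this

/-- An element whose order divides a `q`-power and a number prime to `q` is trivial. -/
theorem eq_one_of_pow_of_coprime {q : ℕ} {y : G} {k m : ℕ} (h1 : y ^ q ^ k = 1)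
    (h2 : orderOf y ∣ m) (hm : m.Coprime q) : y = 1 := by
  have h3 : orderOf y ∣ q ^ k := orderOf_dvd_of_pow_eq_one h1
  have h4 : orderOf y ∣ Nat.gcd m (q ^ k) := Nat.dvd_gcd h2 h3
  have h5 : Nat.gcd m (q ^ k) = 1 := Nat.Coprime.pow_right k hm
  rw [h5] at h4
  exact orderOf_eq_one_iff.mp (Nat.dvd_one.mp h4)

/-- In an elementary abelian `p`-group every subgroup of index at most `p` contains, in its
centralizer, the centralizer-lattice of a subgroup of index exactly `p`. -/
theorem exists_hyperplane_centralizer_le [Finite G] {p : ℕ} [Fact p.Prime] {A : Subgroup G}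
    (hA : Cfsg.IsElementaryAbelian p A) (hA2 : p ^ 2 ≤ Nat.card ↥A) {B : Subgroup G}
    (hB : B.relIndex A ≤ p) :
    ∃ B' : Subgroup G, B' ≤ A ∧ B'.relIndex A = p ∧
      Subgroup.centralizer (B : Set G) ≤ Subgroup.centralizer (B' : Set G) := by
  have hp : p.Prime := Fact.out
  have hAp : IsPGroup p ↥A := by
    rintro ⟨g, hg⟩
    refine ⟨1, Subtype.ext ?_⟩
    simp only [pow_one, Subgroup.coe_pow, Subgroup.coe_one]
    exact hA.2 g hg
  have hA1 : p ≤ Nat.card ↥A := le_trans (by nlinarith [hp.one_lt]) hA2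
  obtain ⟨B₁, hB₁A, hB₁⟩ := exists_relIndex_eq_prime hAp hA1
  -- the relative index of `B` is `1` or `p`
  obtain ⟨n, hn⟩ := IsPGroup.iff_card.mp hAp
  have hdvd : B.relIndex A ∣ p ^ n := by
    rw [← hn]; exact Subgroup.relIndex_dvd_card B A
  obtain ⟨j, -, hj⟩ := (Nat.dvd_prime_pow hp).mp hdvd
  rcases Nat.lt_or_ge j 1 with hj0 | hj1
  · -- relative index one: `A ≤ B`
    have hj' : j = 0 := by omega
    rw [hj', pow_zero] at hj
    have hAB : A ≤ B := Subgroup.relIndex_eq_one.mp hj
    exact ⟨B₁, hB₁A, hB₁, Subgroup.centralizer_le (hB₁A.trans hAB)⟩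
  · -- relative index `p`: take `B ⊓ A`
    have hj' : j = 1 := by
      by_contra hne
      have h2 : 2 ≤ j := by omega
      have : p ^ 2 ≤ p ^ j := Nat.pow_le_pow_right hp.pos h2
      rw [← hj] at this
      have : p ^ 2 ≤ p := le_trans this hB
      nlinarith [hp.one_lt]
    rw [hj', pow_one] at hj
    refine ⟨B ⊓ A, inf_le_right, ?_, Subgroup.centralizer_le inf_le_left⟩
    rw [Subgroup.inf_relIndex_right]
    exact hj

end Cfsg.Agent.H58
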