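import Mathlib
import Cfsg.Prelude.Def_Balance
import Cfsg.Agent.S1324
import Cfsg.Agent.H58.Sylow2
import Cfsg.Agent.H58.Sig2
import Cfsg.Agent.H58.Std
import Cfsg.Agent.H58.Char

set_option autoImplicit false

/-!
# Factorizations `K = XY` under a noncyclic elementary abelian group of operators (helper58)

* `factor_of_normal` : `N = X (Y ∩ N)` when `X ⊴ N` and the centralizers `C_N(a)` lie in `XY`.
* `factor_pgroup` : a `q`-group `Q` with `C_Q(a) ⊆ XY` for all `a ∈ A#` satisfies `Q = XY`.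
-/

namespace Cfsg.Agent.H58

variable {H : Type*} [Group H]

/-- If `X ⊴ N` and `C_N(a) ⊆ X Y` for all `a ∈ A#`, then `N = X (Y ∩ N)`. -/
theorem factor_of_normal [Finite H] (p : ℕ) [Fact p.Prime] (A N X Y : Subgroup H)
    (hA : Cfsg.IsElementaryAbelian p A) (hA2 : p ^ 2 ≤ Nat.card ↥A) (hN : ¬ p ∣ Nat.card ↥N)
    (hAN : A ≤ Subgroup.normalizer (N : Set H)) (hXN : X ≤ N)
    (hNX : N ≤ Subgroup.normalizer (X : Set H))
    (hfac : ∀ a ∈ A, a ≠ 1 → ∀ n ∈ N ⊓ Subgroup.centralizer ({a} : Set H),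
      ∃ x ∈ X, ∃ y ∈ Y, n = x * y) :
    ∀ n ∈ N, ∃ x ∈ X, ∃ y ∈ Y ⊓ N, n = x * y := by
  have hp : p.Prime := Fact.out
  have hgen := Cfsg.Agent.S1324.result p A N hA hA2 hN hAN
  have hle : (⨆ B : {B : Subgroup H // B ≤ A ∧ B.relIndex A ≤ p},
      N ⊓ Subgroup.centralizer ((B : Subgroup H) : Set H)) ≤ X ⊔ (Y ⊓ N) := by
    apply iSup_le
    rintro ⟨B, hBA, hBp⟩ n hn
    have hnN := (Subgroup.mem_inf.mp hn).1
    have hnB := (Subgroup.mem_inf.mp hn).2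
    obtain ⟨B', hB'A, hB'p, hB'C⟩ := exists_hyperplane_centralizer_le hA hA2 hBp
    have hB'ne : B' ≠ ⊥ := by
      rintro rfl
      rw [Subgroup.relIndex_bot_left] at hB'p
      rw [hB'p] at hA2
      nlinarith [hp.one_lt]
    obtain ⟨a, haB', ha1⟩ := B'.bot_or_exists_ne_one.resolve_left hB'ne
    have hna : n ∈ Subgroup.centralizer ({a} : Set H) :=
      Subgroup.centralizer_le (by
        intro y hy
        rw [Set.mem_singleton_iff] at hy
        rw [hy]; exact haB') (hB'C hnB)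
    obtain ⟨x, hx, y, hy, hnxy⟩ := hfac a (hB'A haB') ha1 n (Subgroup.mem_inf.mpr ⟨hnN, hna⟩)
    have hyN : y ∈ N := by
      have : y = x⁻¹ * n := by rw [hnxy]; group
      rw [this]; exact N.mul_mem (N.inv_mem (hXN hx)) hnN
    rw [hnxy]
    exact Subgroup.mul_mem_sup hx (Subgroup.mem_inf.mpr ⟨hy, hyN⟩)
  intro n hn
  have hn' : n ∈ ⨆ B : {B : Subgroup H // B ≤ A ∧ B.relIndex A ≤ p},
      N ⊓ Subgroup.centralizer ((B : Subgroup H) : Set H) := by
    rw [← hgen]; exact hn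
  exact mem_sup_of_le_normalizer (inf_le_right.trans hNX) (hle hn')

/-- Factorization of `q`-groups: if `C_Q(a) ⊆ X Y` for all `a ∈ A#`, then `Q = XY`. -/
theorem factor_pgroup [Finite H] (p : ℕ) [Fact p.Prime] (A : Subgroup H)
    (hA : Cfsg.IsElementaryAbelian p A) (hA2 : p ^ 2 ≤ Nat.card ↥A) (q : ℕ) [Fact q.Prime]
    (Q Y : Subgroup H) (hQq : IsPGroup q ↥Q) (hQp : ¬ p ∣ Nat.card ↥Q)
    (hAQ : A ≤ Subgroup.normalizer (Q : Set H)) :
    ∀ d : ℕ, ∀ X : Subgroup H, X ≤ Q → A ≤ Subgroup.normalizer (X : Set H) →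
      (∀ a ∈ A, a ≠ 1 → ∀ k ∈ Q ⊓ Subgroup.centralizer ({a} : Set H),
        ∃ x ∈ X, ∃ y ∈ Y, k = x * y) →
      Nat.card ↥Q - Nat.card ↥X = d → ∀ k ∈ Q, ∃ x ∈ X, ∃ y ∈ Y, k = x * y := by
  intro d
  induction d using Nat.strong_induction_on with
  | _ d ih =>
    intro X hXQ hAX hfac hd k hk
    by_cases hX : X = Q
    · exact ⟨k, hX ▸ hk, 1, Y.one_mem, (mul_one k).symm⟩
    obtain ⟨s, hsQ, hsX, hsN⟩ := exists_normalizer_mem Q X hQq hXQ hX
    have hXN : X ≤ Subgroup.normalizer (X : Set H) ⊓ Q := le_inf Subgroup.le_normalizer hXQ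
    have hNQ : Subgroup.normalizer (X : Set H) ⊓ Q ≤ Q := inf_le_right
    have hlt : Nat.card ↥X < Nat.card ↥(Subgroup.normalizer (X : Set H) ⊓ Q : Subgroup H) := by
      by_contra hc
      push Not at hc
      have := Subgroup.eq_of_le_of_card_ge hXN hc
      exact hsX (this ▸ Subgroup.mem_inf.mpr ⟨hsN, hsQ⟩)
    have hNle : Nat.card ↥(Subgroup.normalizer (X : Set H) ⊓ Q : Subgroup H) ≤ Nat.card ↥Q :=
      Subgroup.card_le_of_le hNQ
    have hNp : ¬ p ∣ Nat.card ↥(Subgroup.normalizer (X : Set H) ⊓ Q : Subgroup H) :=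
      fun h => hQp (h.trans (Subgroup.card_dvd_of_le hNQ))
    have hAN : A ≤ Subgroup.normalizer ((Subgroup.normalizer (X : Set H) ⊓ Q : Subgroup H) : Set H) := by
      apply le_normalizer_of_conj
      intro b hb g hg
      have hbX := hAX hb
      exact Subgroup.mem_inf.mpr
        ⟨Subgroup.mul_mem _ (Subgroup.mul_mem _ hbX hg.1) (Subgroup.inv_mem _ hbX),
          (Subgroup.mem_normalizer_iff.mp (hAQ hb) g).mp hg.2⟩
    have hNfac := factor_of_normal p A (Subgroup.normalizer (X : Set H) ⊓ Q) X Y hA hA2 hNp hAN hXN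
      inf_le_left (fun a ha ha1 n hn => hfac a ha ha1 n
        (Subgroup.mem_inf.mpr ⟨hNQ (Subgroup.mem_inf.mp hn).1, (Subgroup.mem_inf.mp hn).2⟩))
    obtain ⟨n, hn, y, hy, hkny⟩ := ih (Nat.card ↥Q - Nat.card ↥(Subgroup.normalizer (X : Set H) ⊓ Q : Subgroup H))
      (by omega) (Subgroup.normalizer (X : Set H) ⊓ Q) hNQ hAN
      (fun a ha ha1 k hk => by
        obtain ⟨x, hx, y, hy, hkxy⟩ := hfac a ha ha1 k hk
        exact ⟨x, hXN hx, y, hy, hkxy⟩) rfl k hk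
    obtain ⟨x, hx, y', hy', hnxy⟩ := hNfac n hn
    exact ⟨x, hx, y' * y, Y.mul_mem (Subgroup.mem_inf.mp hy').1 hy, by rw [hkny, hnxy, mul_assoc]⟩

end Cfsg.Agent.H58
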