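import Mathlib
import Cfsg.Prelude.Def_GeometricClasses

/-!
helper58: piece S5876-B3 for helper17 (nilpotent elements of a commutative `G`-stable set vanish
when `G` is irreducible).
-/

set_option autoImplicit false

open Matrix

namespace Cfsg.Agent.H58.Fp

theorem nilpotent_eq_zero {F : Type*} [Field F] [Fintype F] {n : ℕ} (G : Subgroup (GL (Fin n) F))
    (hirr : Cfsg.Geo.ActsIrreducibly (Cfsg.Geo.matrixSet G))
    (Z : Set (Matrix (Fin n) (Fin n) F))
    (hcomm : ∀ x ∈ Z, ∀ y ∈ Z, x * y = y * x)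
    (hconj : ∀ g ∈ G, ∀ x ∈ Z, (g : Matrix (Fin n) (Fin n) F) * x *
        ((g⁻¹ : GL (Fin n) F) : Matrix (Fin n) (Fin n) F) ∈ Z)
    (b : Matrix (Fin n) (Fin n) F) (hb : b ∈ Z) (hnil : IsNilpotent b) : b = 0 := by
  classical
  by_cases hn : n = 0
  · subst hn
    exact Subsingleton.elim _ _
  have hnpos : 0 < n := Nat.pos_of_ne_zero hn
  set C : Set (Matrix (Fin n) (Fin n) F) :=
    {c | ∃ g ∈ G, c = (g : Matrix (Fin n) (Fin n) F) * b *
      ((g⁻¹ : GL (Fin n) F) : Matrix (Fin n) (Fin n) F)} with hC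
  have hCZ : ∀ c ∈ C, c ∈ Z := by
    rintro c ⟨g, hg, rfl⟩
    exact hconj g hg b hb
  have hCnil : ∀ c ∈ C, IsNilpotent c := by
    rintro c ⟨g, hg, rfl⟩
    obtain ⟨k, hk⟩ := hnil
    refine ⟨k, ?_⟩
    rw [Units.conj_pow, hk, mul_zero, zero_mul]
  have hCconj : ∀ g ∈ G, ∀ c ∈ C,
      ((g⁻¹ : GL (Fin n) F) : Matrix (Fin n) (Fin n) F) * c *
        (g : Matrix (Fin n) (Fin n) F) ∈ C := by
    rintro g hg c ⟨h, hh, rfl⟩
    refine ⟨g⁻¹ * h, G.mul_mem (G.inv_mem hg) hh, ?_⟩
    rw [_root_.mul_inv_rev, inv_inv, Units.val_mul, Units.val_mul]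
    simp only [mul_assoc]
  have hbC : b ∈ C := ⟨1, G.one_mem, by simp⟩
  -- the common kernel
  let U : Submodule F (Fin n → F) :=
    { carrier := {v | ∀ c ∈ C, c *ᵥ v = 0}
      add_mem' := by
        intro v w hv hw c hc
        rw [Matrix.mulVec_add, hv c hc, hw c hc, add_zero]
      zero_mem' := by
        intro c _
        exact Matrix.mulVec_zero c
      smul_mem' := by
        intro a v hv c hc
        rw [Matrix.mulVec_smul, hv c hc, smul_zero] }
  have hUmem : ∀ v, v ∈ U ↔ ∀ c ∈ C, c *ᵥ v = 0 := fun v => Iff.rfl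
  -- U is G-invariant
  have hUinv : ∀ s ∈ Cfsg.Geo.matrixSet G, U.map (Matrix.toLin' s) ≤ U := by
    rintro s ⟨g, hg, rfl⟩ w hw
    obtain ⟨v, hv, rfl⟩ := hw
    rw [hUmem]
    intro c hc
    have h1 := (hUmem v).1 hv _ (hCconj g hg c hc)
    have h2 : c * (g : Matrix (Fin n) (Fin n) F) =
        (g : Matrix (Fin n) (Fin n) F) *
          (((g⁻¹ : GL (Fin n) F) : Matrix (Fin n) (Fin n) F) * c *
            (g : Matrix (Fin n) (Fin n) F)) := by
      rw [← mul_assoc, ← mul_assoc, Units.mul_inv, one_mul]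
    rw [Matrix.toLin'_apply, Matrix.mulVec_mulVec, h2, ← Matrix.mulVec_mulVec, h1,
      Matrix.mulVec_zero]
  have hker : ∀ (c : Matrix (Fin n) (Fin n) F) (v : Fin n → F),
      v ∈ LinearMap.ker (Matrix.toLin' c) ↔ c *ᵥ v = 0 := by
    intro c v
    rw [LinearMap.mem_ker, Matrix.toLin'_apply]
  -- U ≠ ⊥ via a minimal invariant subspace
  have hUne : U ≠ ⊥ := by
    let P : ℕ → Prop := fun d => ∃ W : Submodule F (Fin n → F), W ≠ ⊥ ∧
      (∀ c ∈ C, ∀ v ∈ W, c *ᵥ v ∈ W) ∧ Module.finrank F W = d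
    have hPex : ∃ d, P d := by
      refine ⟨Module.finrank F (⊤ : Submodule F (Fin n → F)), ⊤, ?_, ?_, rfl⟩
      · intro h
        have h3 : Module.finrank F (⊤ : Submodule F (Fin n → F)) = 0 := by
          rw [h]; exact finrank_bot F (Fin n → F)
        rw [finrank_top, Module.finrank_fin_fun] at h3
        exact hn h3
      · intro c _ v _
        exact Submodule.mem_top
    obtain ⟨W, hWne, hWinv, hWd⟩ := Nat.find_spec hPex
    have hWker : ∀ c ∈ C, ∀ v ∈ W, c *ᵥ v = 0 := by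
      intro c hc
      let W' : Submodule F (Fin n → F) := W ⊓ LinearMap.ker (Matrix.toLin' c)
      have hW'inv : ∀ c' ∈ C, ∀ v ∈ W', c' *ᵥ v ∈ W' := by
        intro c' hc' v hv
        refine ⟨hWinv c' hc' v hv.1, ?_⟩
        have h4 : c *ᵥ v = 0 := (hker c v).1 hv.2
        refine (hker c _).2 ?_
        rw [Matrix.mulVec_mulVec,
          hcomm c (hCZ c hc) c' (hCZ c' hc'), ← Matrix.mulVec_mulVec, h4, Matrix.mulVec_zero]
      have hW'ne : W' ≠ ⊥ := by
        obtain ⟨v, hvW, hv0⟩ := Submodule.exists_mem_ne_zero_of_ne_bot hWne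
        obtain ⟨k, hk⟩ := hCnil c hc
        have hpow : ∀ j : ℕ, (c ^ j) *ᵥ v ∈ W := by
          intro j
          induction j with
          | zero => simpa using hvW
          | succ j ih =>
            have := hWinv c hc _ ih
            rwa [Matrix.mulVec_mulVec, ← pow_succ'] at this
        have hex : ∃ j, (c ^ j) *ᵥ v = 0 := ⟨k, by rw [hk, Matrix.zero_mulVec]⟩
        have hm := Nat.find_spec hex
        have hm0 : Nat.find hex ≠ 0 := by
          intro h0
          rw [h0, pow_zero, Matrix.one_mulVec] at hm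
          exact hv0 hm
        obtain ⟨m', hm'⟩ := Nat.exists_eq_succ_of_ne_zero hm0
        have hmin : ¬ (c ^ m') *ᵥ v = 0 := Nat.find_min hex (by rw [hm']; exact Nat.lt_succ_self m')
        intro hbot
        have hmem : (c ^ m') *ᵥ v ∈ W' := by
          refine ⟨hpow m', (hker c _).2 ?_⟩
          rw [Matrix.mulVec_mulVec, ← pow_succ', ← Nat.succ_eq_add_one, ← hm']
          exact hm
        rw [hbot, Submodule.mem_bot] at hmem
        exact hmin hmem
      have hle : W' ≤ W := inf_le_left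
      have hfin : Module.finrank F W ≤ Module.finrank F W' := by
        rw [hWd]
        exact Nat.find_min' hPex ⟨W', hW'ne, hW'inv, rfl⟩
      have hEq : W' = W := Submodule.eq_of_le_of_finrank_le hle hfin
      intro v hv
      have hv' : v ∈ W' := by rw [hEq]; exact hv
      exact (hker c v).1 hv'.2
    obtain ⟨v, hvW, hv0⟩ := Submodule.exists_mem_ne_zero_of_ne_bot hWne
    intro hbot
    have hvU : v ∈ U := (hUmem v).2 (fun c hc => hWker c hc v hvW)
    rw [hbot, Submodule.mem_bot] at hvU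
    exact hv0 hvU
  rcases hirr U hUinv with h | h
  · exact absurd h hUne
  · have hbv : ∀ v, b *ᵥ v = 0 := by
      intro v
      have hv : v ∈ U := by rw [h]; exact Submodule.mem_top
      exact (hUmem v).1 hv b hbC
    have h5 : Matrix.toLin' b = 0 := by
      apply LinearMap.ext
      intro v
      rw [Matrix.toLin'_apply, hbv v]
      rfl
    apply Matrix.toLin'.injective
    rw [h5, map_zero]

example {F : Type*} [Field F] [Fintype F] {n : ℕ} (G : Subgroup (GL (Fin n) F))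
    (hirr : Cfsg.Geo.ActsIrreducibly (Cfsg.Geo.matrixSet G))
    (Z : Set (Matrix (Fin n) (Fin n) F))
    (hcomm : ∀ x ∈ Z, ∀ y ∈ Z, x * y = y * x)
    (hconj : ∀ g ∈ G, ∀ x ∈ Z, (g : Matrix (Fin n) (Fin n) F) * x *
        ((g⁻¹ : GL (Fin n) F) : Matrix (Fin n) (Fin n) F) ∈ Z)
    (b : Matrix (Fin n) (Fin n) F) (hb : b ∈ Z) (hnil : IsNilpotent b) : b = 0 :=
  nilpotent_eq_zero G hirr Z hcomm hconj b hb hnil

end Cfsg.Agent.H58.Fp
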