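import Mathlib
import Cfsg.Agent.H58.FrobWielandt

/-!
# Frobenius-type actions with cyclic fixed points: the derived group of the kernel acts trivially

`derived_centralizes`: if `K ⋊ R` is of Frobenius type with `|R|` prime, acting coprimely on a
solvable subgroup `M` with `C_M(R)` cyclic, then `[K, K]` centralizes `M`.
-/

set_option autoImplicit false
set_option linter.unusedSectionVars false
set_option linter.style.haveILetI false

namespace Cfsg.Agent.H58.FrobDer

open Cfsg.Agent.H58.FrobAct Cfsg.Agent.H58.FrobQuot Cfsg.Agent.H58.FrobWielandt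
open scoped commutatorElement

universe u

variable {X : Type u} [Group X]

theorem commutator_self_le (K : Subgroup X) : ⁅K, K⁆ ≤ K := by
  rw [Subgroup.commutator_le]
  intro a ha b hb
  exact K.mul_mem (K.mul_mem (K.mul_mem ha hb) (K.inv_mem ha)) (K.inv_mem hb)

/-- The image of a cyclic subgroup in a section is cyclic. -/
theorem im_isCyclic {N C : Subgroup X} (hC : IsCyclic C) : IsCyclic (im N C) := by
  have hg : Function.Surjective
      ((secMk N).subgroupMap (C.subgroupOf (Subgroup.normalizer (N : Set X)))) :=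
    (secMk N).subgroupMap_surjective _
  haveI : IsCyclic ↥(C.subgroupOf (Subgroup.normalizer (N : Set X))) := by
    let f : ↥(C.subgroupOf (Subgroup.normalizer (N : Set X))) →* ↥C :=
      { toFun := fun x => ⟨((x : ↥(Subgroup.normalizer (N : Set X))) : X),
          Subgroup.mem_subgroupOf.mp x.2⟩
        map_one' := rfl
        map_mul' := fun _ _ => rfl }
    have hf : Function.Injective f := by
      intro a b hab
      have h1 : ((a : ↥(Subgroup.normalizer (N : Set X))) : X) = (b : ↥(Subgroup.normalizer (N : Set X))) :=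
        congrArg (fun t : ↥C => (t : X)) hab
      exact Subtype.ext (Subtype.ext h1)
    exact isCyclic_of_injective f hf
  exact isCyclic_of_surjective _ hg

/-- If the image of `A` centralizes the image of `M` in the section modulo `N`, then
`[M, A] ≤ N`. -/
theorem commutator_le_of_im_centralizes {N M A : Subgroup X}
    (hMN : M ≤ Subgroup.normalizer (N : Set X)) (hAN : A ≤ Subgroup.normalizer (N : Set X))
    (h : im N A ≤ Subgroup.centralizer ((im N M : Subgroup (SecGrp N)) : Set (SecGrp N))) :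
    ⁅M, A⁆ ≤ N := by
  rw [Subgroup.commutator_le]
  intro m hm a ha
  have h1 := (Subgroup.mem_centralizer_iff.mp (h (mk_mem_im ⟨a, hAN ha⟩ ha)))
    (secMk N ⟨m, hMN hm⟩) (mk_mem_im _ hm)
  rw [← map_mul, ← map_mul, secMk_eq_iff] at h1
  have h2 : (m * a)⁻¹ * (a * m) ∈ N := h1
  have hma : m * a ∈ Subgroup.normalizer (N : Set X) :=
    (Subgroup.normalizer (N : Set X)).mul_mem (hMN hm) (hAN ha)
  have h3 := N.inv_mem (conj_mem_of_mem_normalizer hma h2)
  have h4 : ((m * a) * ((m * a)⁻¹ * (a * m)) * (m * a)⁻¹)⁻¹ = ⁅m, a⁆ := by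
    rw [commutatorElement_def]; group
  rwa [h4] at h3

/-- The image of the derived subgroup is contained in the derived subgroup of the image. -/
theorem im_commutator_le {N K : Subgroup X} (hKN : K ≤ Subgroup.normalizer (N : Set X)) :
    im N ⁅K, K⁆ ≤ ⁅im N K, im N K⁆ := by
  have hKK : ⁅K, K⁆ ≤ Subgroup.normalizer (N : Set X) := (commutator_self_le K).trans hKN
  have key : ⁅K, K⁆ ≤ ((⁅im N K, im N K⁆ : Subgroup (SecGrp N)).comap (secMk N)).map
      (Subgroup.normalizer (N : Set X)).subtype := by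
    rw [Subgroup.commutator_le]
    intro a ha b hb
    refine ⟨⁅(⟨a, hKN ha⟩ : ↥(Subgroup.normalizer (N : Set X))), ⟨b, hKN hb⟩⁆, ?_, rfl⟩
    show secMk N ⁅(⟨a, hKN ha⟩ : ↥(Subgroup.normalizer (N : Set X))), ⟨b, hKN hb⟩⁆ ∈
      (⁅im N K, im N K⁆ : Subgroup (SecGrp N))
    rw [map_commutatorElement]
    exact Subgroup.commutator_mem_commutator (mk_mem_im _ ha) (mk_mem_im _ hb)
  intro x hx
  obtain ⟨k, hk, rfl⟩ := (mem_im hKK _).mp hx
  obtain ⟨y, hy, hyk⟩ := key hk
  have h1 : y = ⟨k, hKK hk⟩ := Subtype.ext hyk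
  rw [← h1]
  exact hy

/-- Main induction: the derived group of the Frobenius kernel centralizes `M`. -/
theorem derived_centralizes : ∀ (n : ℕ) (X : Type u) [Group X] [Finite X] (K R M : Subgroup X),
    Nat.card M = n → FrobData K R M → (Nat.card R).Prime →
    IsCyclic ↥(M ⊓ Subgroup.centralizer (R : Set X)) →
    ⁅K, K⁆ ≤ Subgroup.centralizer (M : Set X) := by
  intro n
  induction n using Nat.strong_induction_on with
  | _ n ih =>
  intro X _ _ K R M hn h hRp hcyc
  by_cases hM : M = ⊥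
  · subst hM
    intro x _
    rw [Subgroup.mem_centralizer_iff]
    intro y hy
    have hy1 : y = 1 := Subgroup.mem_bot.mp hy
    rw [hy1, one_mul, mul_one]
  by_cases hel : (∀ a ∈ M, ∀ b ∈ M, a * b = b * a) ∧ ∃ ℓ : ℕ, ℓ.Prime ∧ ∀ h ∈ M, h ^ ℓ = 1
  · obtain ⟨hMc, ℓ, hℓ, hMe⟩ := hel
    haveI : Fact ℓ.Prime := ⟨hℓ⟩
    have hMp : IsPGroup ℓ M := fun v => ⟨1, by
      rw [pow_one]
      apply Subtype.ext
      rw [Subgroup.coe_pow]
      exact hMe v v.2⟩
    obtain ⟨e, he⟩ := hMp.exists_card_eq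
    have he0 : e ≠ 0 := by
      intro h0
      rw [h0, pow_zero] at he
      exact hM (Subgroup.card_eq_one.mp he)
    have hℓM : ℓ ∣ Nat.card M := by rw [he]; exact dvd_pow_self ℓ he0
    have hKℓ : (Nat.card K).Coprime ℓ := (Nat.Coprime.coprime_dvd_left hℓM h.hHK).symm
    have hRℓ : (Nat.card R).Coprime ℓ := (Nat.Coprime.coprime_dvd_left hℓM h.hHR).symm
    have hC : Nat.card ↥(M ⊓ Subgroup.centralizer (R : Set X)) ≤ ℓ := by
      obtain ⟨g, hg⟩ := hcyc.exists_generator
      rw [← orderOf_eq_card_of_forall_mem_zpowers hg]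
      apply Nat.le_of_dvd hℓ.pos
      apply orderOf_dvd_of_pow_eq_one
      apply Subtype.ext
      rw [Subgroup.coe_pow]
      exact hMe g (Subgroup.mem_inf.mp g.2).1
    refine frob_derived_centralizes ℓ K R M h.hRK h.hKs hKℓ hRℓ h.hKR hMc hMe h.hKH h.hRH ?_ hRp hC
    intro r hr hr1
    rw [h.hfrob r hr hr1]
    exact bot_le
  · obtain ⟨N, hNM, hN1, hNne, hNnorm⟩ := exists_char_sub M h.hHs hM hel
    have hMN : M ≤ Subgroup.normalizer (N : Set X) := fun x hx => hNnorm x (Subgroup.le_normalizer hx)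
    have hKN : K ≤ Subgroup.normalizer (N : Set X) := fun x hx => hNnorm x (h.hKH hx)
    have hRN : R ≤ Subgroup.normalizer (N : Set X) := fun x hx => hNnorm x (h.hRH hx)
    have hlt1 : Nat.card N < n := by
      rw [← hn]
      by_contra hlt
      push Not at hlt
      exact hNne (Subgroup.eq_of_le_of_card_ge hNM hlt)
    have hcardM := card_im_of_le hMN hNM
    have hlt2 : Nat.card (im N M) < n := by
      rw [← hn, ← hcardM]
      have h1 : 1 < Nat.card N := by
        rcases Nat.lt_or_ge 1 (Nat.card N) with h1 | h1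
        · exact h1
        · exfalso
          have hpos : 0 < Nat.card N := Nat.card_pos
          exact hN1 (Subgroup.card_eq_one.mp (by omega))
      have hpos : 0 < Nat.card (im N M) := Nat.card_pos
      calc Nat.card (im N M) = Nat.card (im N M) * 1 := (mul_one _).symm
        _ < Nat.card (im N M) * Nat.card N := Nat.mul_lt_mul_of_pos_left h1 hpos
    -- the derived group centralizes `N`
    have hcycN : IsCyclic ↥(N ⊓ Subgroup.centralizer (R : Set X)) := by
      haveI := hcyc
      exact Subgroup.isCyclic_of_le (inf_le_inf_right _ hNM)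
    have f1 : ⁅K, K⁆ ≤ Subgroup.centralizer (N : Set X) :=
      ih (Nat.card N) hlt1 X K R N rfl (h.sub hNM hKN hRN) hRp hcycN
    -- the derived group centralizes `M / N`
    have hRN' : R ⊓ N = ⊥ := by
      rw [eq_bot_iff]
      have h5 : R ⊓ M = ⊥ := (Subgroup.disjoint_of_coprime_natCard h.hHR.symm).eq_bot
      rw [← h5]
      exact inf_le_inf_left _ hNM
    have hRp' : (Nat.card (im N R)).Prime := by
      rw [card_im_of_disjoint hRN hRN']; exact hRp
    have hcyc' : IsCyclic ↥(im N M ⊓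
        Subgroup.centralizer ((im N R : Subgroup (SecGrp N)) : Set (SecGrp N))) := by
      rw [im_inf_centralizer hNM hMN hRN h.hHR.symm (Or.inr h.hHs)]
      exact im_isCyclic hcyc
    have f2 : ⁅im N K, im N K⁆ ≤
        Subgroup.centralizer ((im N M : Subgroup (SecGrp N)) : Set (SecGrp N)) :=
      ih (Nat.card (im N M)) hlt2 (SecGrp N) (im N K) (im N R) (im N M) rfl
        (h.quot hNM hMN hKN hRN) hRp' hcyc'
    -- combine
    have hKK : ⁅K, K⁆ ≤ K := commutator_self_le K
    have hKKN : ⁅K, K⁆ ≤ Subgroup.normalizer (N : Set X) := hKK.trans hKN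
    have f3 : ⁅M, ⁅K, K⁆⁆ ≤ N :=
      commutator_le_of_im_centralizes hMN hKKN ((im_commutator_le hKN).trans f2)
    have f4 : ⁅N, ⁅K, K⁆⁆ = ⊥ :=
      Subgroup.commutator_eq_bot_iff_le_centralizer.mpr (Subgroup.le_centralizer_iff.mp f1)
    have hKKM : ⁅K, K⁆ ≤ Subgroup.normalizer (M : Set X) := hKK.trans h.hKH
    have hcopKK : (Nat.card ↥⁅K, K⁆).Coprime (Nat.card M) :=
      Nat.Coprime.coprime_dvd_left (Subgroup.card_dvd_of_le hKK) h.hHK.symm
    have f5 := Cfsg.Agent.H1.coprime_commutator_commutator ⁅K, K⁆ M hKKM hcopKK (Or.inr h.hHs)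
    have f6 : ⁅⁅M, ⁅K, K⁆⁆, ⁅K, K⁆⁆ ≤ ⁅N, ⁅K, K⁆⁆ := Subgroup.commutator_mono f3 le_rfl
    rw [f5, f4, le_bot_iff] at f6
    exact Subgroup.le_centralizer_iff.mp (Subgroup.commutator_eq_bot_iff_le_centralizer.mp f6)

end Cfsg.Agent.H58.FrobDer
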