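import Mathlib
import Cfsg.Agent.H58.FzRed

/-!
# The induction for a fixed-point-free nonabelian group of order `pq`

Adaptation of `Cfsg.Agent.H58.WardInd`. Internal form: `G`, `A = ⟨y, x⟩` subgroups of an ambient
finite group, `A ≤ N(G)`, coprime orders, `C_G(A) = 1`.
-/

set_option autoImplicit false
set_option linter.style.haveILetI false
set_option linter.unusedVariables false
set_option linter.unusedSectionVars false

namespace Cfsg.Agent.H58.Fz

open Cfsg.Agent.H58.FrobAct Cfsg.Agent.H58.FrobQuot Cfsg.Agent.H58.FrobWielandt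
open Cfsg.Agent.H58.Ward
open scoped commutatorElement

universe u

variable {X : Type u} [Group X]

/-- Frobenius-type data. -/
structure FWD (p q k : ℕ) (G A : Subgroup X) (y x : X) : Prop where
  hp : p.Prime
  hq : q.Prime
  hk : ¬ k ≡ 1 [MOD q]
  hy : y ^ q = 1
  hx : x ^ p = 1
  hxy : x * y * x⁻¹ = y ^ k
  hA : A = Subgroup.closure {y, x}
  hAG : A ≤ Subgroup.normalizer (G : Set X)
  hGs : Group.IsSolvable G
  cop : (Nat.card A).Coprime (Nat.card G)
  hfix : G ⊓ Subgroup.centralizer (A : Set X) = ⊥

theorem subgroupOf_closure_pair (K : Subgroup X) (y x : X) (hy : y ∈ K) (hx : x ∈ K) :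
    (Subgroup.closure ({y, x} : Set X)).subgroupOf K =
      Subgroup.closure ({⟨y, hy⟩, ⟨x, hx⟩} : Set ↥K) := by
  have h1 : (Subgroup.closure ({⟨y, hy⟩, ⟨x, hx⟩} : Set ↥K)).map K.subtype =
      Subgroup.closure ({y, x} : Set X) := by
    rw [MonoidHom.map_closure, Set.image_pair]
    rfl
  rw [← h1]
  exact Subgroup.comap_map_eq_self_of_injective (Subgroup.subtype_injective K) _

theorem map_closure_pair {G₁ G₂ : Type*} [Group G₁] [Group G₂] (f : G₁ →* G₂) (a b : G₁) :
    (Subgroup.closure ({a, b} : Set G₁)).map f = Subgroup.closure ({f a, f b} : Set G₂) := by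
  rw [MonoidHom.map_closure, Set.image_pair]

theorem im_closure_pair (N : Subgroup X) (y x : X)
    (hy : y ∈ Subgroup.normalizer (N : Set X)) (hx : x ∈ Subgroup.normalizer (N : Set X)) :
    im N (Subgroup.closure ({y, x} : Set X)) =
      Subgroup.closure ({secMk N ⟨y, hy⟩, secMk N ⟨x, hx⟩} : Set (SecGrp N)) := by
  unfold im
  rw [subgroupOf_closure_pair _ y x hy hx, map_closure_pair]

theorem img_closure_pair (N : Subgroup X) (y x : X)
    (hy : y ∈ Subgroup.normalizer (N : Set X)) (hx : x ∈ Subgroup.normalizer (N : Set X)) :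
    img N (Subgroup.closure ({y, x} : Set X)) =
      Subgroup.closure ({holPsi N ⟨y, hy⟩, holPsi N ⟨x, hx⟩} : Set (HolGrp N)) := by
  unfold img
  rw [subgroupOf_closure_pair _ y x hy hx, map_closure_pair]

namespace FWD

variable {p q k : ℕ} {G A : Subgroup X} {y x : X}

theorem hyA (h : FWD p q k G A y x) : y ∈ A := by
  rw [h.hA]; exact Subgroup.subset_closure (by simp)

theorem hxA (h : FWD p q k G A y x) : x ∈ A := by
  rw [h.hA]; exact Subgroup.subset_closure (by simp)

end FWD

/-- The data passes to the quotient by an invariant normal subgroup. -/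
theorem fquot_step [Finite X] {p q k : ℕ} {G A N : Subgroup X} {y x : X} (h : FWD p q k G A y x)
    (hNG : N ≤ G) (hGN : G ≤ Subgroup.normalizer (N : Set X))
    (hAN : A ≤ Subgroup.normalizer (N : Set X)) :
    FWD p q k (im N G) (im N A) (secMk N ⟨y, hAN h.hyA⟩) (secMk N ⟨x, hAN h.hxA⟩) :=
  { hp := h.hp
    hq := h.hq
    hk := h.hk
    hy := by
      rw [← map_pow]
      have h1 : (⟨y, hAN h.hyA⟩ : ↥(Subgroup.normalizer (N : Set X))) ^ q = 1 :=
        Subtype.ext (by rw [Subgroup.coe_pow]; exact h.hy)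
      rw [h1, map_one]
    hx := by
      rw [← map_pow]
      have h1 : (⟨x, hAN h.hxA⟩ : ↥(Subgroup.normalizer (N : Set X))) ^ p = 1 :=
        Subtype.ext (by rw [Subgroup.coe_pow]; exact h.hx)
      rw [h1, map_one]
    hxy := by
      rw [← map_inv, ← map_mul, ← map_mul, ← map_pow]
      congr 1
      apply Subtype.ext
      simp only [Subgroup.coe_mul, Subgroup.coe_inv, Subgroup.coe_pow]
      exact h.hxy
    hA := by
      have h1 := im_closure_pair N y x (hAN h.hyA) (hAN h.hxA)
      rw [← h.hA] at h1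
      exact h1
    hAG := im_normalizer hAN hGN h.hAG
    hGs := im_solvable h.hGs
    cop := Nat.Coprime.coprime_dvd_left (card_im_dvd hAN)
      (Nat.Coprime.coprime_dvd_right (card_im_dvd hGN) h.cop)
    hfix := by
      rw [im_inf_centralizer hNG hGN hAN h.cop (Or.inr h.hGs), h.hfix]
      exact (im_eq_bot_iff bot_le).mpr bot_le }

theorem card_img_dvd [Finite X] {N Y : Subgroup X} (hY : Y ≤ Subgroup.normalizer (N : Set X)) :
    Nat.card (img N Y) ∣ Nat.card Y :=
  Dvd.intro _ (card_img hY)

/-- Some term of the lower central series of `G` centralizes the minimal normal subgroup `N`. -/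
theorem fcent_step [Finite X] {p q k v : ℕ} {G A N : Subgroup X} {y x : X}
    (hF : ∀ (Y : Type u) [Group Y] [Finite Y] (p q k v r s : ℕ) (V R S A : Subgroup Y) (y x : Y),
      FCfg p q k v r s V R S A y x → False)
    (h : FWD p q k G A y x)
    (hv : v.Prime) (hNG : N ≤ G) (hN : N ≠ ⊥) (hGN : G ≤ Subgroup.normalizer (N : Set X))
    (hAN : A ≤ Subgroup.normalizer (N : Set X)) (hNc : ∀ a ∈ N, ∀ b ∈ N, a * b = b * a)
    (hNe : ∀ g ∈ N, g ^ v = 1)
    (hmin : ∀ N' : Subgroup X, N' ≤ N → G ≤ Subgroup.normalizer (N' : Set X) →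
      A ≤ Subgroup.normalizer (N' : Set X) → N' = ⊥ ∨ N' = N)
    (ih : ∀ m < Nat.card G, ∀ (Y : Type u) [Group Y] [Finite Y] (p' q' k' : ℕ)
      (G' A' : Subgroup Y) (y' x' : Y),
      Nat.card G' = m → FWD p' q' k' G' A' y' x' → Meta2 G') :
    ∃ k, G.lowerCentralSeries k ≤ Subgroup.centralizer (N : Set X) := by
  by_cases hcase : y ∈ Subgroup.centralizer (N : Set X)
  · obtain ⟨B, hB⟩ : ∃ B : Subgroup X, B = Subgroup.zpowers y := ⟨_, rfl⟩
    have hBA : B ≤ A := hB ▸ Subgroup.zpowers_le.mpr h.hyA
    have hBN : B ≤ Subgroup.centralizer (N : Set X) := hB ▸ Subgroup.zpowers_le.mpr hcase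
    have hBG : B ≤ Subgroup.normalizer (G : Set X) := hBA.trans h.hAG
    have hcop : (Nat.card B).Coprime (Nat.card G) := cop_of_le h.cop hBA le_rfl
    obtain ⟨m, hm⟩ := cent_y_nilpotent p k y x A G h.hp h.hx h.hxy h.hA h.hAG h.hfix
    have hL : ⁅G, B⁆ ≤ Subgroup.centralizer (N : Set X) := by
      have h1 : ⁅⁅B, N⁆, G⁆ = ⊥ := by
        rw [Subgroup.commutator_eq_bot_iff_le_centralizer.mpr hBN, Subgroup.commutator_bot_left]
      have h2 : ⁅⁅N, G⁆, B⁆ = ⊥ := by
        rw [Subgroup.commutator_eq_bot_iff_le_centralizer]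
        exact (Cfsg.Agent.H1.commutator_le_of_le_normalizer G N hGN).trans
          (Subgroup.le_centralizer_iff.mp hBN)
      exact Subgroup.commutator_eq_bot_iff_le_centralizer.mp
        (Subgroup.commutator_commutator_eq_bot_of_rotate h1 h2)
    have hLG : ⁅G, B⁆ ≤ G := Cfsg.Agent.H1.commutator_le_of_le_normalizer B G hBG
    have himg : img N G ≤ img N (G ⊓ Subgroup.centralizer {y}) := by
      intro g' hg'
      obtain ⟨g, hg, rfl⟩ := (mem_img hGN _).mp hg'
      obtain ⟨c, hc, z, hz, hgz⟩ := Cfsg.Agent.H1.exists_centralizer_mul_commutator B G hBG hcop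
        (Or.inr h.hGs) g hg
      have hcG : c ∈ G := (Subgroup.mem_inf.mp hc).1
      have hzG : z ∈ G := hLG hz
      have h1 : (⟨g, hGN hg⟩ : ↥(Subgroup.normalizer (N : Set X))) =
          ⟨c, hGN hcG⟩ * ⟨z, hGN hzG⟩ := Subtype.ext hgz
      have h2 : holPsi N ⟨z, hGN hzG⟩ = 1 := (holPsi_eq_one_iff N _).mpr (hL hz)
      rw [h1, map_mul, h2, mul_one]
      apply psi_mem_img
      refine Subgroup.mem_inf.mpr ⟨hcG, ?_⟩
      rw [← centralizer_zpowers, ← hB]
      exact (Subgroup.mem_inf.mp hc).2
    refine ⟨m, ?_⟩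
    have h3 : (img N G).lowerCentralSeries m = ⊥ := by
      rw [eq_bot_iff]
      refine (lcs_mono himg m).trans ?_
      rw [← img_lcs (inf_le_left.trans hGN) m, hm]
      exact le_of_eq ((img_eq_bot_iff bot_le).mpr bot_le)
    rw [← img_lcs hGN m] at h3
    exact (img_eq_bot_iff ((lcs_le G m).trans hGN)).mp h3
  · have hy1 : y ≠ 1 := by
      intro h1
      apply hcase
      rw [h1]; exact Subgroup.one_mem _
    have hfN : N ⊓ Subgroup.centralizer (A : Set X) = ⊥ := by
      rw [eq_bot_iff, ← h.hfix]; exact inf_le_inf_right _ hNG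
    have hVc := holV_comm N hNc
    have hfV := holV_fix hAN hfN
    have hfH := img_fix hGN hAN h.hAG h.cop (Or.inr h.hGs) h.hfix
    have hcopAN : (Nat.card A).Coprime (Nat.card N) := cop_of_le h.cop le_rfl hNG
    have hcopV : (Nat.card (img N A)).Coprime (Nat.card (holV N)) := by
      rw [card_holV]
      exact Nat.Coprime.coprime_dvd_left (card_img_dvd hAN) hcopAN
    have hcopH : (Nat.card (img N A)).Coprime (Nat.card (img N G)) :=
      Nat.Coprime.coprime_dvd_left (card_img_dvd hAN)
        (Nat.Coprime.coprime_dvd_right (card_img_dvd hGN) h.cop)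
    obtain ⟨y', hy'⟩ : ∃ y' : HolGrp N, y' = holPsi N ⟨y, hAN h.hyA⟩ := ⟨_, rfl⟩
    obtain ⟨x', hx'⟩ : ∃ x' : HolGrp N, x' = holPsi N ⟨x, hAN h.hxA⟩ := ⟨_, rfl⟩
    have hy'q : y' ^ q = 1 := by
      rw [hy', ← map_pow]
      have h1 : (⟨y, hAN h.hyA⟩ : ↥(Subgroup.normalizer (N : Set X))) ^ q = 1 :=
        Subtype.ext (by rw [Subgroup.coe_pow]; exact h.hy)
      rw [h1, map_one]
    have hx'p : x' ^ p = 1 := by
      rw [hx', ← map_pow]
      have h1 : (⟨x, hAN h.hxA⟩ : ↥(Subgroup.normalizer (N : Set X))) ^ p = 1 :=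
        Subtype.ext (by rw [Subgroup.coe_pow]; exact h.hx)
      rw [h1, map_one]
    have hx'y' : x' * y' * x'⁻¹ = y' ^ k := by
      rw [hx', hy', ← map_inv, ← map_mul, ← map_mul, ← map_pow]
      congr 1
      apply Subtype.ext
      simp only [Subgroup.coe_mul, Subgroup.coe_inv, Subgroup.coe_pow]
      exact h.hxy
    have hy'1 : y' ≠ 1 := by
      rw [hy']
      intro h1
      exact hcase ((holPsi_eq_one_iff N _).mp h1)
    have hA' : img N A = Subgroup.closure {y', x'} := by
      have h1 := img_closure_pair N y x (hAN h.hyA) (hAN h.hxA)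
      rw [← h.hA] at h1
      rw [hy', hx']; exact h1
    have hsplit : FSplit p q k v (holV N) (img N G) (img N A) y' x' :=
      { hp := h.hp
        hq := h.hq
        hv := hv
        hk := h.hk
        hy := hy'q
        hy1 := hy'1
        hx := hx'p
        hxy := hx'y'
        hA := hA'
        hVc := hVc
        hVe := holV_exp N v hNe
        hVne := holV_ne_bot N hN
        hHV := le_normalizer_holV N _
        hAV := le_normalizer_holV N _
        hAH := img_normalizer hAN hGN h.hAG
        hfaith := img_faithful N G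
        hHs := img_solvable h.hGs
        hfV := hfV
        hfH := hfH
        hcopV := hcopV
        hcopH := hcopH
        hirr := holV_irr hGN hAN hmin
        hsub := by
          intro H₁ hH₁ hAH₁ hne
          have hfaith₁ : H₁ ⊓ Subgroup.centralizer ((holV N : Subgroup (HolGrp N)) :
              Set (HolGrp N)) = ⊥ := by
            rw [eq_bot_iff, ← img_faithful N G]; exact inf_le_inf_right _ hH₁
          have hdisj : H₁ ⊓ holV N = ⊥ := by
            rw [eq_bot_iff, ← hfaith₁]
            intro g hg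
            refine Subgroup.mem_inf.mpr ⟨hg.1, ?_⟩
            rw [Subgroup.mem_centralizer_iff]
            intro w hw
            exact hVc w hw g hg.2
          have hc1 : Nat.card ↥(H₁ ⊔ holV N) = Nat.card H₁ * Nat.card (holV N) :=
            Cfsg.Agent.H1.card_sup_of_le_normalizer H₁ (holV N) (le_normalizer_holV N H₁) hdisj
          have hc2 : Nat.card H₁ < Nat.card (img N G) :=
            Cfsg.Agent.H1.card_lt_card_of_lt (lt_of_le_of_ne hH₁ hne)
          have hc3 := card_img (N := N) hGN
          have hc4 : Nat.card N ≤ Nat.card ↥(G ⊓ Subgroup.centralizer (N : Set X)) := by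
            apply Subgroup.card_le_of_le
            intro g hg
            refine Subgroup.mem_inf.mpr ⟨hNG hg, ?_⟩
            rw [Subgroup.mem_centralizer_iff]
            intro z hz
            exact hNc z hz g hg
          have hc5 : 0 < Nat.card N := Nat.card_pos
          have hlt : Nat.card ↥(holV N ⊔ H₁) < Nat.card G := by
            rw [sup_comm, hc1, card_holV, ← hc3]
            calc Nat.card H₁ * Nat.card N < Nat.card (img N G) * Nat.card N :=
                  Nat.mul_lt_mul_of_pos_right hc2 hc5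
              _ ≤ Nat.card (img N G) * Nat.card ↥(G ⊓ Subgroup.centralizer (N : Set X)) :=
                  Nat.mul_le_mul_left _ hc4
          have hwd : FWD p q k (holV N ⊔ H₁) (img N A) y' x' :=
            { hp := h.hp
              hq := h.hq
              hk := h.hk
              hy := hy'q
              hx := hx'p
              hxy := hx'y'
              hA := hA'
              hAG := Cfsg.Agent.H1.le_normalizer_sup (img N A) (holV N) H₁
                (le_normalizer_holV N _) hAH₁
              hGs := solvable_sup (le_normalizer_holV N H₁) (solvable_of_comm (holV N) hVc)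
                (solvable_of_le hH₁ (img_solvable h.hGs))
              cop := by
                rw [sup_comm, hc1]
                exact Nat.Coprime.mul_right (cop_of_le hcopH le_rfl hH₁) hcopV
              hfix := sup_fix (holV N) H₁ (img N A) hVc (le_normalizer_holV N H₁)
                (le_normalizer_holV N _) hAH₁ hfaith₁ hfV
                (by rw [eq_bot_iff, ← hfH]; exact inf_le_inf_right _ hH₁) }
          exact ih _ hlt (HolGrp N) p q k (holV N ⊔ H₁) (img N A) y' x' rfl hwd }
    obtain ⟨k', hk'⟩ := hsplit.nilpotent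
      (fun r s R S c => hF (HolGrp N) p q k v r s (holV N) R S (img N A) y' x' c)
    refine ⟨k', ?_⟩
    rw [← img_lcs hGN k'] at hk'
    exact (img_eq_bot_iff ((lcs_le G k').trans hGN)).mp hk'

/-- Fitting height at most two, internal form. -/
theorem frob_int
    (hF : ∀ (Y : Type u) [Group Y] [Finite Y] (p q k v r s : ℕ) (V R S A : Subgroup Y) (y x : Y),
      FCfg p q k v r s V R S A y x → False) :
    ∀ (n : ℕ) (X : Type u) [Group X] [Finite X] (p q k : ℕ) (G A : Subgroup X) (y x : X),
      Nat.card G = n → FWD p q k G A y x → Meta2 G := by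
  intro n
  induction n using Nat.strong_induction_on with
  | _ n ih =>
    intro X _ _ p q k G A y x hn h
    by_cases hG : G = ⊥
    · exact ⟨0, 0, hG⟩
    obtain ⟨N, hNG, hN, hGN, hAN, hmin⟩ := exists_min G A hG h.hAG
    have hNc := min_abelian G A N h.hGs hNG hN hGN hAN hmin
    obtain ⟨v, hv, hNe⟩ := min_exp G A N hNc hN hGN hAN hmin
    have hcardN : 1 < Nat.card N := by
      have h1 : Nat.card N ≠ 1 := fun h' => hN (Subgroup.eq_bot_of_card_eq N h')
      have h2 : 0 < Nat.card N := Nat.card_pos
      omega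
    have hlt : Nat.card (im N G) < n := by
      have h1 := card_im_of_le hGN hNG
      have h2 : 0 < Nat.card (im N G) := Nat.card_pos
      rw [← hn, ← h1]
      nlinarith
    obtain ⟨k₁, m, hkm⟩ := ih _ hlt (SecGrp N) p q k (im N G) (im N A) _ _ rfl
      (fquot_step h hNG hGN hAN)
    have h1 : (G.lowerCentralSeries k₁).lowerCentralSeries m ≤ N := by
      rw [← im_lcs hGN k₁, ← im_lcs ((lcs_le G k₁).trans hGN) m] at hkm
      exact (im_eq_bot_iff (((lcs_le _ m).trans (lcs_le G k₁)).trans hGN)).mp hkm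
    obtain ⟨k', hk'⟩ := fcent_step hF h hv hNG hN hGN hAN hNc hNe hmin
      (fun m hm Y _ _ p' q' k' G' A' y' x' hc hw => ih m (hn ▸ hm) Y p' q' k' G' A' y' x' hc hw)
    refine ⟨max k₁ k', m + 1, ?_⟩
    have h2 : G.lowerCentralSeries (max k₁ k') ≤ G.lowerCentralSeries k₁ :=
      lcs_anti G (le_max_left _ _)
    have h3 : G.lowerCentralSeries (max k₁ k') ≤ Subgroup.centralizer (N : Set X) :=
      (lcs_anti G (le_max_right _ _)).trans hk'
    have h4 : ⁅N, Subgroup.centralizer (N : Set X)⁆ = ⊥ := by
      rw [Subgroup.commutator_comm]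
      exact Subgroup.commutator_eq_bot_iff_le_centralizer.mpr le_rfl
    rw [Subgroup.lowerCentralSeries_succ, eq_bot_iff, ← h4]
    exact Subgroup.commutator_mono ((lcs_mono h2 m).trans h1) h3

end Cfsg.Agent.H58.Fz
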