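import Mathlib
import Cfsg.Agent.H58.FzInd

/-!
# Abstract form: a group `A = ⟨y, x⟩` (`y^q = 1`, `x^p = 1`, `x y x⁻¹ = y^k`, `k ≢ 1 mod q`)
acting coprimely and fixed-point-freely on a finite solvable group `G`
-/

set_option autoImplicit false
set_option linter.style.haveILetI false
set_option linter.unusedVariables false

namespace Cfsg.Agent.H58.Fz

open Cfsg.Agent.H58.Ward

universe u w

theorem frob_abs
    (hF : ∀ (Y : Type (max u w)) [Group Y] [Finite Y] (p q k v r s : ℕ) (V R S A : Subgroup Y)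
      (y x : Y), FCfg p q k v r s V R S A y x → False)
    {G : Type u} {A : Type w} [Group G] [Finite G] (hG : Group.IsSolvable G) [Group A] [Finite A]
    [MulDistribMulAction A G] (p q k : ℕ) (hp : p.Prime) (hq : q.Prime) (hk : ¬ k ≡ 1 [MOD q])
    (y x : A) (hy : y ^ q = 1) (hx : x ^ p = 1) (hxy : x * y * x⁻¹ = y ^ k)
    (hgen : Subgroup.closure ({y, x} : Set A) = ⊤)
    (hcop : (Nat.card A).Coprime (Nat.card G))
    (hfpf : ∀ g : G, (∀ a : A, a • g = g) → g = 1) :
    ∃ k m, ((⊤ : Subgroup G).lowerCentralSeries k).lowerCentralSeries m = ⊥ := by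
  obtain ⟨φ, hφ⟩ : ∃ φ : A →* MulAut G, φ = MulDistribMulAction.toMulAut A G := ⟨_, rfl⟩
  have hφa : ∀ (a : A) (g : G), φ a g = a • g := by
    intro a g; rw [hφ]; rfl
  haveI : Finite (G ⋊[φ] A) :=
    Finite.of_equiv _ (SemidirectProduct.equivProd (φ := φ)).symm
  obtain ⟨Gs, hGs⟩ : ∃ Gs : Subgroup (G ⋊[φ] A),
      Gs = (SemidirectProduct.inl : G →* G ⋊[φ] A).range := ⟨_, rfl⟩
  obtain ⟨As, hAs⟩ : ∃ As : Subgroup (G ⋊[φ] A),
      As = (SemidirectProduct.inr : A →* G ⋊[φ] A).range := ⟨_, rfl⟩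
  haveI hnorm : Gs.Normal := by
    rw [hGs, SemidirectProduct.range_inl_eq_ker_rightHom]; infer_instance
  have hcardA : Nat.card As = Nat.card A := by
    rw [hAs]
    exact (Nat.card_congr (MonoidHom.ofInjective
      (SemidirectProduct.inr_injective (N := G) (G := A) (φ := φ))).toEquiv).symm
  have hcardG : Nat.card Gs = Nat.card G := by
    rw [hGs]
    exact (Nat.card_congr (MonoidHom.ofInjective
      (SemidirectProduct.inl_injective (N := G) (G := A) (φ := φ))).toEquiv).symm
  have hwd : FWD p q k Gs As (SemidirectProduct.inr y : G ⋊[φ] A) (SemidirectProduct.inr x) :=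
    { hp := hp
      hq := hq
      hk := hk
      hy := by rw [← map_pow, hy, map_one]
      hx := by rw [← map_pow, hx, map_one]
      hxy := by rw [← map_inv, ← map_mul, ← map_mul, hxy, map_pow]
      hA := by
        rw [hAs, MonoidHom.range_eq_map, ← hgen, map_closure_pair]
      hAG := by rw [Subgroup.normalizer_eq_top]; exact le_top
      hGs := by
        rw [hGs]
        exact Group.isSolvable_of_surjective
          (f := (SemidirectProduct.inl : G →* G ⋊[φ] A).rangeRestrict)
          (MonoidHom.rangeRestrict_surjective _)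
      cop := by rw [hcardA, hcardG]; exact hcop
      hfix := by
        rw [eq_bot_iff]
        intro z hz
        obtain ⟨hz1, hz2⟩ := Subgroup.mem_inf.mp hz
        rw [hGs] at hz1
        obtain ⟨g, rfl⟩ := hz1
        have hg : g = 1 := by
          apply hfpf
          intro a
          have h1 := (Subgroup.mem_centralizer_iff.mp hz2) (SemidirectProduct.inr a)
            (by rw [hAs]; exact ⟨_, rfl⟩)
          have h2 := SemidirectProduct.inl_aut (φ := φ) a g
          rw [map_inv, h1, mul_inv_cancel_right] at h2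
          rw [← hφa]
          exact SemidirectProduct.inl_injective h2
        rw [hg, map_one]; exact Subgroup.one_mem _ }
  obtain ⟨k', m, hkm⟩ := frob_int hF _ _ p q k Gs As _ _ rfl hwd
  refine ⟨k', m, ?_⟩
  have h1 : Gs = (⊤ : Subgroup G).map SemidirectProduct.inl := by
    rw [hGs, MonoidHom.range_eq_map]
  rw [h1, ← Subgroup.map_lowerCentralSeries, ← Subgroup.map_lowerCentralSeries] at hkm
  exact (Subgroup.map_eq_bot_iff_of_injective _ SemidirectProduct.inl_injective).mp hkm

/-- The final form: a normal nilpotent subgroup with nilpotent quotient. -/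
theorem exists_normal_nilpotent {G : Type u} [Group G] [Finite G]
    (h : ∃ k m, ((⊤ : Subgroup G).lowerCentralSeries k).lowerCentralSeries m = ⊥) :
    ∃ F : Subgroup G, ∃ hF : F.Normal, Group.IsNilpotent ↥F ∧ Group.IsNilpotent (G ⧸ F) := by
  obtain ⟨k, m, hkm⟩ := h
  obtain ⟨F, hFdef⟩ : ∃ F : Subgroup G, F = (⊤ : Subgroup G).lowerCentralSeries k := ⟨_, rfl⟩
  have hFn : F.Normal := hFdef ▸ Subgroup.lowerCentralSeries_normal ⊤ k
  refine ⟨F, hFn, ?_, ?_⟩
  · rw [hFdef]
    exact (Subgroup.isNilpotent_iff_lowerCentralSeries _).mpr ⟨m, hkm⟩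
  · have h1 : ((⊤ : Subgroup (G ⧸ F)).lowerCentralSeries k) = ⊥ := by
      have h2 : (⊤ : Subgroup (G ⧸ F)) = (⊤ : Subgroup G).map (QuotientGroup.mk' F) := by
        rw [← MonoidHom.range_eq_map]
        exact (MonoidHom.range_eq_top.mpr (QuotientGroup.mk'_surjective F)).symm
      rw [h2, ← Subgroup.map_lowerCentralSeries, ← hFdef]
      rw [eq_bot_iff]
      rintro _ ⟨g, hg, rfl⟩
      rw [Subgroup.mem_bot]
      exact (QuotientGroup.eq_one_iff g).mpr hg
    have h3 : Group.IsNilpotent ↥(⊤ : Subgroup (G ⧸ F)) :=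
      (Subgroup.isNilpotent_iff_lowerCentralSeries _).mpr ⟨k, h1⟩
    exact (Group.isNilpotent_congr (Subgroup.topEquiv (G := G ⧸ F))).mp h3

end Cfsg.Agent.H58.Fz
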