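import Mathlib
import Cfsg.Agent.H58.FzBasic

/-!
# Thompson's theorem for a section, and two auxiliary facts on the configuration
-/

set_option autoImplicit false
set_option linter.style.haveILetI false
set_option linter.unusedVariables false
set_option linter.unusedSectionVars false

namespace Cfsg.Agent.H58.Fz

open Cfsg.Agent.H58.FrobAct Cfsg.Agent.H58.FrobQuot Cfsg.Agent.H58.FrobWielandt
open Cfsg.Agent.H58.Ward
open scoped commutatorElement

universe u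

variable {X : Type u} [Group X]

theorem ts_holds [Finite X] : TS X := by
  intro K Z b q hq hb hZK hKZ hbK hbZ hcop hfix
  obtain ⟨B, hB⟩ : ∃ B : Subgroup X, B = Subgroup.zpowers b := ⟨_, rfl⟩
  have hbB : b ∈ B := hB ▸ Subgroup.mem_zpowers b
  have hBZ : B ≤ Subgroup.normalizer (Z : Set X) := hB ▸ Subgroup.zpowers_le.mpr hbZ
  have hBK : B ≤ Subgroup.normalizer (K : Set X) := hB ▸ Subgroup.zpowers_le.mpr hbK
  have hBc : ∀ a ∈ B, ∀ a' ∈ B, a * a' = a' * a := by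
    intro a ha a' ha'
    rw [hB] at ha ha'
    obtain ⟨n, rfl⟩ := Subgroup.mem_zpowers_iff.mp ha
    obtain ⟨n', rfl⟩ := Subgroup.mem_zpowers_iff.mp ha'
    rw [← zpow_add, ← zpow_add, add_comm]
  have hcardB : Nat.card B ∣ q := by
    rw [hB, Nat.card_zpowers]
    exact orderOf_dvd_of_pow_eq_one hb
  have hcop' : (Nat.card B).Coprime (Nat.card K) :=
    (Nat.Coprime.coprime_dvd_right hcardB hcop).symm
  obtain ⟨b', hb'⟩ : ∃ b' : SecGrp Z, b' = secMk Z ⟨b, hbZ⟩ := ⟨_, rfl⟩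
  have hb'q : b' ^ q = 1 := by
    rw [hb', ← map_pow]
    have : (⟨b, hbZ⟩ : ↥(Subgroup.normalizer (Z : Set X))) ^ q = 1 := Subtype.ext (by
      rw [Subgroup.coe_pow]; exact hb)
    rw [this, map_one]
  have hb'B : b' ∈ im Z B := hb' ▸ mk_mem_im _ hbB
  have hb'K : b' ∈ Subgroup.normalizer ((im Z K : Subgroup (SecGrp Z)) : Set (SecGrp Z)) :=
    im_normalizer hBZ hKZ hBK hb'B
  have hfix' : ∀ g ∈ im Z K, b' * g = g * b' → g = 1 := by
    intro g hg hbg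
    have h1 : g ∈ im Z K ⊓
        Subgroup.centralizer ((im Z B : Subgroup (SecGrp Z)) : Set (SecGrp Z)) := by
      refine Subgroup.mem_inf.mpr ⟨hg, ?_⟩
      rw [Subgroup.mem_centralizer_iff]
      intro z hz
      obtain ⟨z₀, hz₀, rfl⟩ := (mem_im hBZ _).mp hz
      have hz₀' : z₀ ∈ Subgroup.zpowers b := hB ▸ hz₀
      obtain ⟨n, hn⟩ := Subgroup.mem_zpowers_iff.mp hz₀'
      have e : secMk Z ⟨z₀, hBZ hz₀⟩ = b' ^ n := by
        rw [hb', ← map_zpow]
        congr 1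
        apply Subtype.ext
        rw [Subgroup.coe_zpow]
        exact hn.symm
      rw [e]
      have hc : Commute b' g := hbg
      exact (hc.zpow_left n).eq
    rw [im_inf_centralizer hZK hKZ hBZ hcop' (Or.inl (solvable_of_comm B hBc))] at h1
    obtain ⟨g₀, hg₀, rfl⟩ := (mem_im (inf_le_left.trans hKZ) _).mp h1
    rw [secMk_eq_one_iff]
    exact hfix g₀ hg₀.1 ((Subgroup.mem_centralizer_iff.mp hg₀.2) b hbB)
  obtain ⟨m, hm⟩ := thompson_int (im Z K) b' q hq hb'q hb'K hfix'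
  refine ⟨m, ?_⟩
  rw [← im_lcs hKZ m] at hm
  exact (im_eq_bot_iff ((lcs_le K m).trans hKZ)).mp hm

namespace FCfg

variable [Finite X] {p q k v r s : ℕ} {V R S A : Subgroup X} {y x : X}
  (c : FCfg p q k v r s V R S A y x)
include c

theorem RS_bot : R ⊓ S = ⊥ :=
  pq_bot r s c.hr c.hs c.hrs _ (c.hR.to_le inf_le_left) (c.hS.to_le inf_le_right)

/-- `A` normalizes `D = C_R(S)`. -/
theorem hAD : A ≤ Subgroup.normalizer
    ((R ⊓ Subgroup.centralizer (S : Set X) : Subgroup X) : Set X) :=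
  fun g hg => normalizer_inf_centralizer R S g (c.hAR hg) (c.hAS hg)

/-- `A` normalizes `S₀ = C_S(R)`. -/
theorem hAS0 : A ≤ Subgroup.normalizer
    ((S ⊓ Subgroup.centralizer (R : Set X) : Subgroup X) : Set X) :=
  fun g hg => normalizer_inf_centralizer S R g (c.hAS hg) (c.hAR hg)

/-- In the case `C_S(y) ≤ C_S(R)`, the centralizer of `y` in `R` is not contained in `C_R(S)`. -/
theorem step1_R0 (ts : TS X)
    (h : S ⊓ Subgroup.centralizer {y} ≤ Subgroup.centralizer (R : Set X)) :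
    ¬ R ⊓ Subgroup.centralizer {y} ≤ Subgroup.centralizer (S : Set X) := by
  intro hR0
  obtain ⟨D, hD⟩ : ∃ D : Subgroup X, D = R ⊓ Subgroup.centralizer (S : Set X) := ⟨_, rfl⟩
  obtain ⟨S₀, hS₀⟩ : ∃ S₀ : Subgroup X, S₀ = S ⊓ Subgroup.centralizer (R : Set X) := ⟨_, rfl⟩
  have hDR : D ≤ R := hD ▸ inf_le_left
  have hS₀S : S₀ ≤ S := hS₀ ▸ inf_le_left
  have hDcR : D ≤ Subgroup.centralizer (R : Set X) := hD ▸ c.D_le_cent
  have hDcS : D ≤ Subgroup.centralizer (S : Set X) := hD ▸ inf_le_right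
  have hS₀cR : S₀ ≤ Subgroup.centralizer (R : Set X) := hS₀ ▸ inf_le_right
  have hyR : y ∈ Subgroup.normalizer (R : Set X) := c.hAR c.hyA
  have hyS : y ∈ Subgroup.normalizer (S : Set X) := c.hAS c.hyA
  -- normalizers
  have hRD : R ≤ Subgroup.normalizer (D : Set X) := by
    intro g hg
    apply mem_normalizer_of_comm
    intro d hd
    exact (Subgroup.mem_centralizer_iff.mp (hDcR hd)) g hg
  have hSD : S ≤ Subgroup.normalizer (D : Set X) := by
    intro g hg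
    apply mem_normalizer_of_comm
    intro d hd
    exact (Subgroup.mem_centralizer_iff.mp (hDcS hd)) g hg
  have hRS₀ : R ≤ Subgroup.normalizer (S₀ : Set X) := by
    intro g hg
    apply mem_normalizer_of_comm
    intro d hd
    exact (Subgroup.mem_centralizer_iff.mp (hS₀cR hd)) g hg
  have hSS₀ : S ≤ Subgroup.normalizer (S₀ : Set X) := by
    intro g hg
    rw [hS₀]
    exact normalizer_inf_centralizer S R g (Subgroup.le_normalizer hg) (c.hSR hg)
  have hS₀D : S₀ ≤ Subgroup.normalizer (D : Set X) := hS₀S.trans hSD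
  have hKZ : R ⊔ S ≤ Subgroup.normalizer ((D ⊔ S₀ : Subgroup X) : Set X) :=
    sup_le (Cfsg.Agent.H1.le_normalizer_sup R D S₀ hRD hRS₀)
      (Cfsg.Agent.H1.le_normalizer_sup S D S₀ hSD hSS₀)
  have hyK : y ∈ Subgroup.normalizer ((R ⊔ S : Subgroup X) : Set X) :=
    Cfsg.Agent.H1.le_normalizer_sup (Subgroup.zpowers y) R S (Subgroup.zpowers_le.mpr hyR)
      (Subgroup.zpowers_le.mpr hyS) (Subgroup.mem_zpowers y)
  have hyD : y ∈ Subgroup.normalizer (D : Set X) := hD ▸ c.hAD c.hyA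
  have hyS₀ : y ∈ Subgroup.normalizer (S₀ : Set X) := hS₀ ▸ c.hAS0 c.hyA
  have hyZ : y ∈ Subgroup.normalizer ((D ⊔ S₀ : Subgroup X) : Set X) :=
    Cfsg.Agent.H1.le_normalizer_sup (Subgroup.zpowers y) D S₀ (Subgroup.zpowers_le.mpr hyD)
      (Subgroup.zpowers_le.mpr hyS₀) (Subgroup.mem_zpowers y)
  have hcard : Nat.card ↥(R ⊔ S) = Nat.card S * Nat.card R := by
    rw [sup_comm]
    exact Cfsg.Agent.H1.card_sup_of_le_normalizer S R c.hSR (by rw [inf_comm]; exact c.RS_bot)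
  have hcop : (Nat.card ↥(R ⊔ S)).Coprime q := by
    rw [hcard]; exact Nat.Coprime.mul_left c.copqS c.copqR
  have hfix : ∀ g ∈ R ⊔ S, y * g = g * y → g ∈ D ⊔ S₀ := by
    intro g hg hyg
    obtain ⟨ρ, hρ, σ, hσ, rfl⟩ := mem_sup_of_norm c.hSR hg
    have hρ' : y * ρ * y⁻¹ ∈ R := conj_mem_of_mem_normalizer hyR hρ
    have hσ' : y * σ * y⁻¹ ∈ S := conj_mem_of_mem_normalizer hyS hσ
    have h2 : (y * ρ * y⁻¹) * (y * σ * y⁻¹) = ρ * σ := by
      calc (y * ρ * y⁻¹) * (y * σ * y⁻¹) = y * (ρ * σ) * y⁻¹ := by group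
        _ = ρ * σ := by rw [hyg]; group
    have h3 : ρ⁻¹ * (y * ρ * y⁻¹) = σ * (y * σ * y⁻¹)⁻¹ := by
      calc ρ⁻¹ * (y * ρ * y⁻¹) = ρ⁻¹ * ((y * ρ * y⁻¹) * (y * σ * y⁻¹)) * (y * σ * y⁻¹)⁻¹ := by
            group
        _ = σ * (y * σ * y⁻¹)⁻¹ := by rw [h2]; group
    have h4 : ρ⁻¹ * (y * ρ * y⁻¹) ∈ R ⊓ S := by
      refine Subgroup.mem_inf.mpr ⟨R.mul_mem (R.inv_mem hρ) hρ', ?_⟩
      rw [h3]; exact S.mul_mem hσ (S.inv_mem hσ')
    rw [c.RS_bot, Subgroup.mem_bot] at h4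
    have h5 : y * ρ * y⁻¹ = ρ := by
      rw [inv_mul_eq_one] at h4; exact h4.symm
    have h6 : y * σ * y⁻¹ = σ := by
      rw [h5, inv_mul_cancel] at h3
      have h7 : σ * (y * σ * y⁻¹)⁻¹ = 1 := h3.symm
      rw [mul_inv_eq_one] at h7
      exact h7.symm
    have hρy : ρ ∈ Subgroup.centralizer ({y} : Set X) := by
      rw [Subgroup.mem_centralizer_iff]
      intro z hz
      rw [Set.mem_singleton_iff] at hz; subst hz
      calc z * ρ = z * ρ * z⁻¹ * z := by group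
        _ = ρ * z := by rw [h5]
    have hσy : σ ∈ Subgroup.centralizer ({y} : Set X) := by
      rw [Subgroup.mem_centralizer_iff]
      intro z hz
      rw [Set.mem_singleton_iff] at hz; subst hz
      calc z * σ = z * σ * z⁻¹ * z := by group
        _ = σ * z := by rw [h6]
    have hρD : ρ ∈ D := by
      rw [hD]; exact Subgroup.mem_inf.mpr ⟨hρ, hR0 (Subgroup.mem_inf.mpr ⟨hρ, hρy⟩)⟩
    have hσS₀ : σ ∈ S₀ := by
      rw [hS₀]; exact Subgroup.mem_inf.mpr ⟨hσ, h (Subgroup.mem_inf.mpr ⟨hσ, hσy⟩)⟩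
    exact Subgroup.mul_mem _ (Subgroup.mem_sup_left hρD) (Subgroup.mem_sup_right hσS₀)
  obtain ⟨m, hm⟩ := ts (R ⊔ S) (D ⊔ S₀) y q c.hq c.hy
    (sup_le (hDR.trans le_sup_left) (hS₀S.trans le_sup_right)) hKZ hyK hyZ hcop hfix
  have hRm : ∀ n : ℕ, R ≤ (R ⊔ S).lowerCentralSeries n := by
    intro n
    induction n with
    | zero => rw [Subgroup.lowerCentralSeries_zero]; exact le_sup_left
    | succ n ih =>
      rw [Subgroup.lowerCentralSeries_succ]
      calc R = ⁅R, S⁆ := c.R_eq.symm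
        _ ≤ ⁅(R ⊔ S).lowerCentralSeries n, R ⊔ S⁆ := Subgroup.commutator_mono ih le_sup_right
  have hRle : R ≤ D := by
    intro ρ hρ
    have h1 : ρ ∈ D ⊔ S₀ := hm (hRm m hρ)
    obtain ⟨d, hd, σ, hσ, hρeq⟩ := mem_sup_of_norm hS₀D h1
    have h2 : σ ∈ R ⊓ S := by
      refine Subgroup.mem_inf.mpr ⟨?_, hS₀S hσ⟩
      have : σ = d⁻¹ * ρ := by rw [hρeq]; group
      rw [this]; exact R.mul_mem (R.inv_mem (hDR hd)) hρ
    rw [c.RS_bot, Subgroup.mem_bot] at h2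
    rw [hρeq, h2, mul_one]; exact hd
  exact c.D_ne (le_antisymm inf_le_left (hD ▸ hRle))

/-- In the nonabelian case: an elementary abelian subgroup `E ≠ 1` of `Z(R) ∩ C_R(S)` normalized
by `R`, `S` and `A`. -/
theorem exists_E (hRnc : ¬ ∀ a ∈ R, ∀ b ∈ R, a * b = b * a) :
    ∃ E : Subgroup X, E ≤ R ∧ E ≤ Subgroup.centralizer (S : Set X) ∧
      E ≤ Subgroup.centralizer (R : Set X) ∧ E ≠ ⊥ ∧ (∀ a ∈ E, ∀ b ∈ E, a * b = b * a) ∧
      (∀ a ∈ E, a ^ r = 1) ∧ R ≤ Subgroup.normalizer (E : Set X) ∧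
      S ≤ Subgroup.normalizer (E : Set X) ∧ A ≤ Subgroup.normalizer (E : Set X) := by
  haveI : Fact r.Prime := ⟨c.hr⟩
  obtain ⟨Z, hZ⟩ : ∃ Z : Subgroup X, Z = R ⊓ Subgroup.centralizer (R : Set X) := ⟨_, rfl⟩
  have hZR : Z ≤ R := hZ ▸ inf_le_left
  have hZc : Z ≤ Subgroup.centralizer (R : Set X) := hZ ▸ inf_le_right
  have hZcomm : ∀ a ∈ Z, ∀ b ∈ Z, a * b = b * a := fun a ha b hb =>
    ((Subgroup.mem_centralizer_iff.mp (hZc ha)) b (hZR hb)).symm
  have hZne : Z ≠ R := by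
    intro h
    apply hRnc
    intro a ha b hb
    have ha' : a ∈ Z := h ▸ ha
    exact ((Subgroup.mem_centralizer_iff.mp (hZc ha')) b hb).symm
  have hnZ : ∀ g, g ∈ Subgroup.normalizer (R : Set X) →
      g ∈ Subgroup.normalizer (Z : Set X) := by
    intro g hg; rw [hZ]; exact normalizer_inf_centralizer R R g hg hg
  have hZD : Z ≤ R ⊓ Subgroup.centralizer (S : Set X) :=
    c.proper_le_D Z hZR (fun g hg => hnZ g (c.hAR hg)) (fun g hg => hnZ g (c.hSR hg)) hZne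
  have hZbot : Z ≠ ⊥ := by
    haveI : Nontrivial ↥R := (Subgroup.nontrivial_iff_ne_bot R).mpr c.hRne
    have h1 := IsPGroup.center_nontrivial (c.hR)
    obtain ⟨z, hz⟩ := exists_ne (1 : Subgroup.center ↥R)
    intro hbot
    apply hz
    have h2 : ((z : ↥R) : X) ∈ Z := by
      rw [hZ]
      refine Subgroup.mem_inf.mpr ⟨(z : ↥R).2, ?_⟩
      rw [Subgroup.mem_centralizer_iff]
      intro g hg
      have h3 := Subgroup.mem_center_iff.mp z.2 ⟨g, hg⟩
      exact congrArg Subtype.val h3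
    rw [hbot, Subgroup.mem_bot] at h2
    exact Subtype.ext (Subtype.ext h2)
  obtain ⟨Ω, hΩ⟩ : ∃ Ω : Subgroup X, ∀ g, g ∈ Ω ↔ g ∈ Z ∧ g ^ r = 1 := by
    refine ⟨
      { carrier := {g | g ∈ Z ∧ g ^ r = 1}
        one_mem' := ⟨Z.one_mem, one_pow r⟩
        mul_mem' := by
          rintro a b ⟨ha, ha'⟩ ⟨hb, hb'⟩
          refine ⟨Z.mul_mem ha hb, ?_⟩
          have hc : Commute a b := hZcomm a ha b hb
          rw [hc.mul_pow, ha', hb', one_mul]
        inv_mem' := by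
          rintro a ⟨ha, ha'⟩
          exact ⟨Z.inv_mem ha, by rw [inv_pow, ha', inv_one]⟩ }, fun g => Iff.rfl⟩
  have hΩZ : Ω ≤ Z := fun g hg => ((hΩ g).mp hg).1
  have hnorm : ∀ g, g ∈ Subgroup.normalizer (Z : Set X) →
      g ∈ Subgroup.normalizer (Ω : Set X) := by
    intro g hg
    apply mem_normalizer_of_conj
    intro a ha
    obtain ⟨ha1, ha2⟩ := (hΩ a).mp ha
    refine (hΩ _).mpr ⟨conj_mem_of_mem_normalizer hg ha1, ?_⟩
    rw [conj_pow, ha2]; group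
  have hΩne : Ω ≠ ⊥ := by
    have hZr : IsPGroup r ↥Z := c.hR.to_le hZR
    obtain ⟨n, hn⟩ := IsPGroup.iff_card.mp hZr
    have hdvd : r ∣ Nat.card Z := by
      rw [hn]
      apply dvd_pow_self
      intro h0
      rw [h0, pow_zero] at hn
      exact hZbot (Subgroup.eq_bot_of_card_eq Z hn)
    obtain ⟨g, hg⟩ := exists_prime_orderOf_dvd_card' (G := Z) r hdvd
    intro hbot
    have h1 : (g : X) ∈ Ω := by
      refine (hΩ _).mpr ⟨g.2, ?_⟩
      rw [← Subgroup.coe_pow, ← hg, pow_orderOf_eq_one]; rfl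
    rw [hbot, Subgroup.mem_bot] at h1
    have h2 : g = 1 := Subtype.ext h1
    rw [h2, orderOf_one] at hg
    exact c.hr.one_lt.ne hg
  refine ⟨Ω, hΩZ.trans hZR, hΩZ.trans (hZD.trans inf_le_right), hΩZ.trans hZc, hΩne,
    fun a ha b hb => hZcomm a (hΩZ ha) b (hΩZ hb), fun a ha => ((hΩ a).mp ha).2, ?_, ?_, ?_⟩
  · intro g hg
    exact hnorm g (hnZ g (Subgroup.le_normalizer hg))
  · intro g hg
    exact hnorm g (hnZ g (c.hSR hg))
  · intro g hg
    exact hnorm g (hnZ g (c.hAR hg))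

end FCfg

end Cfsg.Agent.H58.Fz
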