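import Mathlib
import Cfsg.Agent.H58.FzTS
import Cfsg.Agent.H58.FzAbs
import Cfsg.Agent.H73.FzAQ
import Cfsg.Agent.H14.FzEx
import Cfsg.Agent.H14.FzPqi
import Cfsg.Agent.H14.FzS3K
import Cfsg.Agent.H40.FzExqFinal
import Cfsg.Agent.H40.FzS3
import Cfsg.Agent.H26.FzTools
import Cfsg.Agent.H92.FzTE
import Cfsg.Agent.H24.FzHHB
import Cfsg.Agent.H75.FzS1AB
import Cfsg.Agent.H60.FzS12
import Cfsg.Agent.H36.FzS3A
import Cfsg.Agent.H70.Fz3WB

/-!
# A nonabelian group of order `pq` acting coprimely and fixed-point-freely: the minimal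
configuration does not exist (assembly of the team pieces), and the abstract theorem
-/

set_option autoImplicit false
set_option linter.style.haveILetI false
set_option linter.unusedVariables false
set_option linter.unusedSectionVars false

namespace Cfsg.Agent.H58.Fz

open Cfsg.Agent.H58.FrobAct Cfsg.Agent.H58.Ward
open scoped commutatorElement

universe u w

section

variable {X : Type u} [Group X] [Finite X] {p q k v r s : ℕ} {V R S A : Subgroup X} {y x : X}

/-- The minimal configuration does not exist. -/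
theorem fcfg_false_of (aq : AQ X) (ts : TS X) (ex : EX X) (exq : EXQ X) (ind : IND X) (cyc : CYC X)
    (te : TE X) (hhb : HHB X) (pqi : PQI X) (c : FCfg p q k v r s V R S A y x) : False := by
  rcases c.dichotomy with h | hSy
  · have hR0 := c.step1_R0 ts h
    by_cases hRc : ∀ a ∈ R, ∀ b ∈ R, a * b = b * a
    · refine Cfsg.Agent.H75.Fz.step1_ab aq ex cyc c h hRc ?_
      intro hbot
      apply hR0
      rw [hbot]; exact bot_le
    · exact Cfsg.Agent.H60.Fz.step1_na aq te c h hRc hR0
  · have hRy := Cfsg.Agent.H60.Fz.step2 aq te c hSy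
    have hfpfR : ∀ e ∈ R, y * e = e * y → e = 1 := by
      intro e he hye
      have h1 : e ∈ R ⊓ Subgroup.centralizer ({y} : Set X) := by
        refine Subgroup.mem_inf.mpr ⟨he, ?_⟩
        rw [Subgroup.mem_centralizer_iff]
        intro z hz
        rw [Set.mem_singleton_iff] at hz; subst hz
        exact hye
      rw [hRy] at h1
      exact Subgroup.mem_bot.mp h1
    -- the subgroup E
    obtain ⟨E, hER, hEcR, hEne, hEc, hEe, hRE, hSE, hAE, hEcase⟩ :
        ∃ E : Subgroup X, E ≤ R ∧ E ≤ Subgroup.centralizer (R : Set X) ∧ E ≠ ⊥ ∧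
          (∀ a ∈ E, ∀ b ∈ E, a * b = b * a) ∧ (∀ a ∈ E, a ^ r = 1) ∧
          R ≤ Subgroup.normalizer (E : Set X) ∧ S ≤ Subgroup.normalizer (E : Set X) ∧
          A ≤ Subgroup.normalizer (E : Set X) ∧
          ((∀ a ∈ R, ∀ b ∈ R, a * b = b * a) → E = R) ∧
          ((¬ ∀ a ∈ R, ∀ b ∈ R, a * b = b * a) → E ≤ Subgroup.centralizer (S : Set X)) := by
      by_cases hRc : ∀ a ∈ R, ∀ b ∈ R, a * b = b * a
      · refine ⟨R, le_rfl, ?_, c.hRne, hRc, c.R_exp_of_comm hRc, Subgroup.le_normalizer, c.hSR,
          c.hAR, fun _ => rfl, fun h => absurd hRc h⟩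
        intro a ha
        rw [Subgroup.mem_centralizer_iff]
        intro b hb
        exact hRc b hb a ha
      · obtain ⟨E, h1, h2, h3, h4, h5, h6, h7, h8, h9⟩ := c.exists_E hRc
        exact ⟨E, h1, h3, h4, h5, h6, h7, h8, h9, fun h => absurd h hRc, fun _ => h2⟩
    have hVE : V ⊓ Subgroup.centralizer (E : Set X) = ⊥ :=
      c.CV_bot E (hER.trans le_sup_left) hEne hRE hSE hAE
    obtain ⟨hG1, hG2, K, hKE, hidx, hW, hxK⟩ := Cfsg.Agent.H14.Fz.step3K aq ex ind cyc pqi c E hER hEne hEc hEe hAE
      hVE (fun e he => hfpfR e (hER he))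
    by_cases hsv : s = v
    · by_cases hRc : ∀ a ∈ R, ∀ b ∈ R, a * b = b * a
      · have hEeq := hEcase.1 hRc
        subst hEeq
        exact Cfsg.Agent.H40.Fz.step3b_ab cyc c hSy hsv hRc hG1 K hKE hidx hW hxK
      · have hEcS := hEcase.2 hRc
        obtain ⟨W, hWdef⟩ : ∃ W : Subgroup X, W = V ⊓ Subgroup.centralizer (K : Set X) :=
          ⟨_, rfl⟩
        have hKcR : K ≤ Subgroup.centralizer (R : Set X) := hKE.trans hEcR
        have hKcS : K ≤ Subgroup.centralizer (S : Set X) := hKE.trans hEcS
        have hRK : R ≤ Subgroup.normalizer (K : Set X) := by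
          intro g hg
          apply mem_normalizer_of_comm
          intro z hz
          exact (Subgroup.mem_centralizer_iff.mp (hKcR hz)) g hg
        have hSK : S ≤ Subgroup.normalizer (K : Set X) := by
          intro g hg
          apply mem_normalizer_of_comm
          intro z hz
          exact (Subgroup.mem_centralizer_iff.mp (hKcS hz)) g hg
        have hRW : R ≤ Subgroup.normalizer (W : Set X) := by
          intro g hg; rw [hWdef]
          exact normalizer_inf_centralizer V K g (c.hRV hg) (hRK hg)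
        have hSW : S ≤ Subgroup.normalizer (W : Set X) := by
          intro g hg; rw [hWdef]
          exact normalizer_inf_centralizer V K g (c.hSV hg) (hSK hg)
        have hxW : x ∈ Subgroup.normalizer (W : Set X) := by
          rw [hWdef]
          exact normalizer_inf_centralizer V K x (c.hAV c.hxA) hxK
        have hxfix : ∀ w ∈ W, x * w = w * x → w = 1 := by
          intro w hw; rw [hWdef] at hw
          exact hG2 K hKE hidx hW hxK w hw
        have hRW' : ¬ R ≤ Subgroup.centralizer (W : Set X) := by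
          intro hle
          apply hW
          rw [eq_bot_iff, ← hVE, ← hWdef]
          intro w hw
          have hwV : w ∈ V := by rw [hWdef] at hw; exact hw.1
          refine Subgroup.mem_inf.mpr ⟨hwV, ?_⟩
          exact (Subgroup.le_centralizer_iff.mp (hER.trans hle)) hw
        by_cases hcard : Nat.card S = v
        · exact Cfsg.Agent.H40.Fz.step3w_cyc hhb c hSy hsv hcard W (hWdef ▸ inf_le_left) hRW hSW hxW hxfix hRW'
        · exact Cfsg.Agent.H70.Fz3.step3w_big aq exq c hSy hsv hcard W (hWdef ▸ inf_le_left) hRW hSW hxW hxfix hRW'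
    · exact Cfsg.Agent.H36.Fz.step3a ind c hSy hsv E K hER hEcR hSE hAE hVE hKE hidx hW (hG1 K hKE hidx hW).1


/-- The minimal configuration does not exist. -/
theorem fcfg_false (c : FCfg p q k v r s V R S A y x) : False :=
  fcfg_false_of Cfsg.Agent.H73.Fz.aq_holds ts_holds Cfsg.Agent.H14.Fz.ex_holds
    Cfsg.Agent.H40.Fz.exq_holds Cfsg.Agent.H26.Fz.ind_holds Cfsg.Agent.H26.Fz.cyc_holds
    Cfsg.Agent.H92.Fz.te_holds Cfsg.Agent.H24.Fz.hhb_holds Cfsg.Agent.H14.Fz.pqi_holds c

end

/-- A nonabelian group of order `pq` acting coprimely and fixed-point-freely on a finite solvable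
group: Fitting height at most two. -/
theorem frob_pq {G : Type u} {A : Type w} [Group G] [Finite G] (hG : Group.IsSolvable G)
    [Group A] [Finite A] [MulDistribMulAction A G] (p q : ℕ) (hp : p.Prime) (hq : q.Prime)
    (hpq : p ≠ q) (hA : Nat.card A = p * q) (hAna : ¬ IsMulCommutative A)
    (hcop : (Nat.card G).Coprime (p * q))
    (hfpf : ∀ g : G, (∀ a : A, a • g = g) → g = 1) :
    ∃ F : Subgroup G, ∃ hF : F.Normal, Group.IsNilpotent ↥F ∧ Group.IsNilpotent (G ⧸ F) := by
  obtain ⟨p', q', k, y, x, hp', hq', hpq', hk, hy, hy1, hx, hxy, hgen⟩ :=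
    Cfsg.Agent.H26.Fz.pq_abs p q hp hq hpq hA hAna
  apply exists_normal_nilpotent
  refine frob_abs (fun Y _ _ p q k v r s V R S A y x c => fcfg_false c) hG p' q' k hp' hq' hk
    y x hy hx hxy hgen ?_ hfpf
  rw [hA]
  exact hcop.symm

end Cfsg.Agent.H58.Fz
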