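import Cfsg.Agent.H52.JxDefs
import Cfsg.Agent.H52.JxKB
import Cfsg.Agent.H5.JxKA
import Cfsg.Agent.H97.JxPSide
import Cfsg.Agent.H58.JxStar
import Cfsg.Agent.H58.JxVne
import Cfsg.Agent.H64.JyFinal2

/-!
# S2953 (JY-KILL2): the residual configuration is impossible, final assembly

`kill2 : StKill2` from helper52's `kill2_of` / `kb_of` / `kbNorm_of`, helper5's `ka_of_pside`,
helper97's `pSide`, and `star`, `pf`, `vne` of `H58.JxStar` / `H58.JxVne`.
-/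

set_option autoImplicit false
open Cfsg

namespace Cfsg.Agent.H58.Jx

universe u

/-- JY-KILL2, assembled. -/
theorem kill2 : Cfsg.Agent.H64.Jy.StKill2.{u} :=
  have hPS : Cfsg.Agent.H52.Jx.StPSide.{u} :=
    fun S M T K L hB => Cfsg.Agent.H97.Jx.pSide S M T K L hB
  Cfsg.Agent.H52.Jx.kill2_of
    (Cfsg.Agent.H5.Jx.ka_of_pside Cfsg.Agent.H58.Jx.pf
      (fun S M T K L hB => (hPS S M T K L hB).2.1) (fun S M T K L hB => (hPS S M T K L hB).1))
    (Cfsg.Agent.H52.Jx.kb_of Cfsg.Agent.H58.Jx.star Cfsg.Agent.H58.Jx.pf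
      (Cfsg.Agent.H52.Jx.kbNorm_of hPS Cfsg.Agent.H58.Jx.vne Cfsg.Agent.H58.Jx.pf))

example : Cfsg.Agent.H64.Jy.StKill2.{u} := kill2

end Cfsg.Agent.H58.Jx

#print axioms Cfsg.Agent.H58.Jx.kill2
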