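import Mathlib
import Cfsg.Agent.H58.KUDefs
import Cfsg.Agent.S1419

set_option autoImplicit false

/-!
# Step (Z): assembly from the pieces (helper58)
-/

namespace Cfsg.Agent.H58.KU

open Cfsg Subgroup Cfsg.Agent.H76.NCKill

universe u

variable {G : Type u} [Group G] [Finite G]

/-- (Z) from the pieces. -/
theorem zmain_of (hSub : Cfsg.Agent.H58.FC.StSub G) (hPP : StPPGen G) (hNorm : StZNorm G)
    (hHall : StZHall G) (hPrime : StZPrime G) (hB : StZB G) (hFaith : StZFaith G)
    (hOrd : StZOrd G) (hER : StZER G) (hEDer : StZEDer G) (hE3 : StZE3 G) (hE1 : StZE1 G)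
    (hCases : StZCases G) : StZ G := by
  intro hG M E A P r p _ h
  obtain ⟨E1, hE1hall, hE1c, hPE1⟩ := hHall hG M E A P r p h
  have hK := hPrime hG hPP M E A P r p h E1 hE1hall hE1c hPE1
  obtain ⟨b, hbA, hbo, hbne, hbn, hbf⟩ := hB hG M E A P r p h
  have hF := hFaith hG M E A P r p h E1 hE1hall hPE1 hK b hbA hbo hbne
  have hcard := hOrd hG hSub M E A P r p h E1 hE1hall hE1c hPE1 hK b hbA hbo hbne hbn hF
  have hEP : P = E1 := Subgroup.eq_of_le_of_card_ge hPE1 (by rw [hcard, h.Pcard])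
  have hPhall : IsPiHallOf (tau1 M) P E := hEP ▸ hE1hall
  have hN := hNorm hG M E A P r p h
  have h19 := Cfsg.Agent.S1419.result hG M h.coatom E h.compl r h.tau2 h.nonab A
    ⟨h.AE, h.Ael, h.Acard⟩
  have hA0card : Nat.card (A0 M A) = r := h19.2.1.1
  have hτ2 : tau2 M = {r} := h19.1
  have hEC : E ≤ centralizer ((A0 M A : Subgroup G) : Set G) := by
    apply hPP
    rintro x hx ⟨q, a, hq, hxo⟩
    by_cases ha : a = 0
    · subst ha
      rw [pow_zero, orderOf_eq_one_iff] at hxo
      subst hxo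
      exact one_mem _
    have hqE : q ∣ Nat.card E := by
      have h1 : orderOf x ∣ Nat.card E := by
        have := orderOf_dvd_natCard (⟨x, hx⟩ : E)
        rwa [Subgroup.orderOf_mk] at this
      exact (dvd_pow_self q ha).trans (hxo ▸ h1)
    rcases hCases hG M E h.coatom h.compl q hq hqE with h1 | h2 | h3
    · exact hE1 hG M E P (A0 M A) h.coatom h.compl hPhall hN h.PA0 x hx q a h1 hxo
    · have hqr : q = r := by
        rw [hτ2] at h2
        exact h2
      subst hqr
      exact hER (A0 M A) q hA0card x (hN hx) ⟨a, hxo⟩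
    · exact hEDer E (A0 M A) r hA0card hN (hE3 hG M E h.coatom h.compl x hx q a h3 hxo)
  intro m hm
  obtain ⟨e, he, s, hs, rfl⟩ := h.compl.2.2.2 m hm
  refine mul_mem (hEC he) ?_
  rw [Subgroup.mem_centralizer_iff]
  intro y hy
  have hy' : y ∈ centralizer (sigmaCore M : Set G) := (Subgroup.mem_inf.mp hy).2
  rw [Subgroup.mem_centralizer_iff] at hy'
  exact (hy' s hs).symm

end Cfsg.Agent.H58.KU
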