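import Mathlib

set_option autoImplicit false

/-!
# The product formula for two subgroups (helper58)

* `card_mulSet_mul_card_inf` : `|XY| |X ∩ Y| = |X| |Y|` for the product set of two subgroups.
* `card_mul_card_inf_le_of_factor` : if `K ⊆ XY` then `|K| |X ∩ Y| ≤ |X| |Y|`.
* `exists_mul_of_card_le` : if `X, Y ≤ K` and `|K| |X ∩ Y| ≤ |X| |Y|` then `K = XY`.
-/

namespace Cfsg.Agent.H58

open scoped Pointwise

/-- The product formula `|XY| |X ∩ Y| = |X| |Y|`. -/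
theorem card_mulSet_mul_card_inf {G : Type*} [Group G] (X Y : Subgroup G) :
    Nat.card ↥((X : Set G) * (Y : Set G)) * Nat.card ↥(X ⊓ Y) = Nat.card ↥X * Nat.card ↥Y := by
  classical
  have hmem : ∀ s : ↥((X : Set G) * (Y : Set G)), ∃ x ∈ X, ∃ y ∈ Y, x * y = (s : G) :=
    fun s => Set.mem_mul.mp s.2
  choose f hf g hg hfg using hmem
  rw [← Nat.card_prod, ← Nat.card_prod]
  refine Nat.card_congr (Equiv.ofBijective
    (fun sz : ↥((X : Set G) * (Y : Set G)) × ↥(X ⊓ Y) =>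
      ((⟨f sz.1 * sz.2, X.mul_mem (hf sz.1) sz.2.2.1⟩ : ↥X),
        (⟨(sz.2 : G)⁻¹ * g sz.1, Y.mul_mem (Y.inv_mem sz.2.2.2) (hg sz.1)⟩ : ↥Y))) ⟨?_, ?_⟩)
  · rintro ⟨s, z⟩ ⟨s', z'⟩ heq
    simp only [Prod.mk.injEq, Subtype.mk.injEq] at heq
    obtain ⟨h1, h2⟩ := heq
    have hss : (s : G) = s' := by
      rw [← hfg s, ← hfg s']
      calc f s * g s = (f s * z) * ((z : G)⁻¹ * g s) := by group
        _ = (f s' * z') * ((z' : G)⁻¹ * g s') := by rw [h1, h2]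
        _ = f s' * g s' := by group
    have hss' : s = s' := Subtype.ext hss
    subst hss'
    have hz : (z : G) = z' := mul_left_cancel h1
    exact Prod.ext rfl (Subtype.ext hz)
  · rintro ⟨⟨x, hx⟩, ⟨y, hy⟩⟩
    have hs : x * y ∈ (X : Set G) * (Y : Set G) := Set.mul_mem_mul hx hy
    have h1 : f ⟨x * y, hs⟩ * g ⟨x * y, hs⟩ = x * y := hfg ⟨x * y, hs⟩
    have hzX : (f ⟨x * y, hs⟩)⁻¹ * x ∈ X := X.mul_mem (X.inv_mem (hf _)) hx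
    have hzY : (f ⟨x * y, hs⟩)⁻¹ * x ∈ Y := by
      have : (f ⟨x * y, hs⟩)⁻¹ * x = g ⟨x * y, hs⟩ * y⁻¹ := by
        calc (f ⟨x * y, hs⟩)⁻¹ * x = (f ⟨x * y, hs⟩)⁻¹ * (x * y) * y⁻¹ := by group
          _ = (f ⟨x * y, hs⟩)⁻¹ * (f ⟨x * y, hs⟩ * g ⟨x * y, hs⟩) * y⁻¹ := by rw [h1]
          _ = g ⟨x * y, hs⟩ * y⁻¹ := by group
      rw [this]; exact Y.mul_mem (hg _) (Y.inv_mem hy)
    refine ⟨(⟨x * y, hs⟩, ⟨(f ⟨x * y, hs⟩)⁻¹ * x, Subgroup.mem_inf.mpr ⟨hzX, hzY⟩⟩), ?_⟩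
    apply Prod.ext
    · apply Subtype.ext
      show f ⟨x * y, hs⟩ * ((f ⟨x * y, hs⟩)⁻¹ * x) = x
      group
    · apply Subtype.ext
      show ((f ⟨x * y, hs⟩)⁻¹ * x)⁻¹ * g ⟨x * y, hs⟩ = y
      calc ((f ⟨x * y, hs⟩)⁻¹ * x)⁻¹ * g ⟨x * y, hs⟩
          = x⁻¹ * (f ⟨x * y, hs⟩ * g ⟨x * y, hs⟩) := by group
        _ = x⁻¹ * (x * y) := by rw [h1]
        _ = y := by group

/-- If `K ⊆ XY` then `|K| |X ∩ Y| ≤ |X| |Y|`. -/
theorem card_mul_card_inf_le_of_factor {G : Type*} [Group G] [Finite G] (K X Y : Subgroup G)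
    (h : ∀ k ∈ K, ∃ x ∈ X, ∃ y ∈ Y, k = x * y) :
    Nat.card ↥K * Nat.card ↥(X ⊓ Y) ≤ Nat.card ↥X * Nat.card ↥Y := by
  rw [← card_mulSet_mul_card_inf X Y]
  apply Nat.mul_le_mul_right
  have hsub : (K : Set G) ⊆ (X : Set G) * (Y : Set G) := by
    intro k hk
    obtain ⟨x, hx, y, hy, rfl⟩ := h k hk
    exact Set.mul_mem_mul hx hy
  have h1 : Nat.card ↥K = (K : Set G).ncard := Nat.card_coe_set_eq (K : Set G)
  rw [h1, Nat.card_coe_set_eq]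
  exact Set.ncard_le_ncard hsub (Set.toFinite _)

/-- If `X, Y ≤ K` and `|K| |X ∩ Y| ≤ |X| |Y|` then `K = XY`. -/
theorem exists_mul_of_card_le {G : Type*} [Group G] [Finite G] (K X Y : Subgroup G) (hX : X ≤ K)
    (hY : Y ≤ K) (h : Nat.card ↥K * Nat.card ↥(X ⊓ Y) ≤ Nat.card ↥X * Nat.card ↥Y) :
    ∀ k ∈ K, ∃ x ∈ X, ∃ y ∈ Y, k = x * y := by
  rw [← card_mulSet_mul_card_inf X Y] at h
  have hpos : 0 < Nat.card ↥(X ⊓ Y) := Nat.card_pos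
  have h1 : Nat.card ↥K ≤ Nat.card ↥((X : Set G) * (Y : Set G)) := Nat.le_of_mul_le_mul_right h hpos
  have hsub : (X : Set G) * (Y : Set G) ⊆ (K : Set G) := by
    rintro _ ⟨x, hx, y, hy, rfl⟩
    exact K.mul_mem (hX hx) (hY hy)
  have h2 : Nat.card ↥K = (K : Set G).ncard := Nat.card_coe_set_eq (K : Set G)
  rw [h2, Nat.card_coe_set_eq] at h1
  have heq := Set.eq_of_subset_of_ncard_le hsub h1 (Set.toFinite _)
  intro k hk
  have hk' : k ∈ (X : Set G) * (Y : Set G) := by rw [heq]; exact hk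
  obtain ⟨x, hx, y, hy, rfl⟩ := Set.mem_mul.mp hk'
  exact ⟨x, hx, y, hy, rfl⟩

end Cfsg.Agent.H58
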