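import Mathlib
import Cfsg.Agent.S1466
import Cfsg.Agent.S1467

/-!
# The Puig series of a subgroup `D`, computed inside the ambient group `G`

`LG D X` is `L_D(X)`: the subgroup generated by the abelian subgroups of `D` normalized by `X`;
`LGseq D n` is the Puig series of `D`, `PL D` / `PLs D` the images in `G` of `L(D)` / `L_*(D)`.
-/

set_option autoImplicit false

namespace Cfsg.Agent.H58

open Cfsg

section PuigBasic

variable {G : Type*} [Group G]

/-- `L_D(X)` computed inside `G`. -/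
def LG (D X : Subgroup G) : Subgroup G :=
  sSup {A : Subgroup G | A ≤ D ∧ IsMulCommutative A ∧ X ≤ Subgroup.normalizer (A : Set G)}

theorem LG_le (D X : Subgroup G) : LG D X ≤ D := sSup_le (fun _ hA => hA.1)

theorem LG_anti (D : Subgroup G) {X Y : Subgroup G} (h : X ≤ Y) : LG D Y ≤ LG D X :=
  sSup_le_sSup (fun _ hA => ⟨hA.1, hA.2.1, h.trans hA.2.2⟩)

theorem LG_mono_left {D E : Subgroup G} (h : D ≤ E) (X : Subgroup G) : LG D X ≤ LG E X :=
  sSup_le_sSup (fun _ hA => ⟨hA.1.trans h, hA.2.1, hA.2.2⟩)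

theorem le_LG {D X A : Subgroup G} (hAD : A ≤ D) (hA : IsMulCommutative A)
    (hX : X ≤ Subgroup.normalizer (A : Set G)) : A ≤ LG D X := le_sSup ⟨hAD, hA, hX⟩

theorem map_puigStep (D : Subgroup G) (X : Subgroup ↥D) :
    (Cfsg.puigStep X).map D.subtype = LG D (X.map D.subtype) := by
  apply le_antisymm
  · unfold Cfsg.puigStep
    rw [Subgroup.map_le_iff_le_comap]
    apply sSup_le
    intro A hA
    rw [← Subgroup.map_le_iff_le_comap]
    have hA1 : IsMulCommutative A := hA.1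
    refine le_LG (Subgroup.map_subtype_le A) (Subgroup.map_isMulCommutative A D.subtype) ?_
    rw [Subgroup.le_normalizer_iff]
    rintro _ ⟨x, hx, rfl⟩ _ ⟨a, ha, rfl⟩
    have h2 := (Subgroup.le_normalizer_iff.mp hA.2) x hx a ha
    exact ⟨x * a * x⁻¹, h2, by simp⟩
  · apply sSup_le
    intro A hA
    obtain ⟨hAD, hAc, hAX⟩ := hA
    have hAc' : IsMulCommutative A := hAc
    rw [← Subgroup.map_subgroupOf_eq_of_le hAD]
    apply Subgroup.map_mono
    apply le_sSup
    refine ⟨Subgroup.subgroupOf_isMulCommutative D A, ?_⟩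
    rw [Subgroup.le_normalizer_iff]
    intro x hx a ha
    rw [Subgroup.mem_subgroupOf] at ha ⊢
    have h2 := (Subgroup.le_normalizer_iff.mp hAX) (x : G) ⟨x, hx, rfl⟩ (a : G) ha
    simpa using h2

/-- The Puig series of `D`, inside `G`. -/
def LGseq (D : Subgroup G) : ℕ → Subgroup G
  | 0 => ⊥
  | n + 1 => LG D (LGseq D n)

theorem LGseq_zero (D : Subgroup G) : LGseq D 0 = ⊥ := rfl

theorem LGseq_succ (D : Subgroup G) (n : ℕ) : LGseq D (n + 1) = LG D (LGseq D n) := rfl

theorem map_puigSeq (D : Subgroup G) (n : ℕ) :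
    (Cfsg.puigSeq ↥D n).map D.subtype = LGseq D n := by
  induction n with
  | zero => exact Subgroup.map_bot _
  | succ n ih =>
    show (Cfsg.puigStep (Cfsg.puigSeq ↥D n)).map _ = LG D (LGseq D n)
    rw [map_puigStep, ih]

theorem LGseq_le (D : Subgroup G) (n : ℕ) : LGseq D n ≤ D := by
  rw [← map_puigSeq]; exact Subgroup.map_subtype_le _

theorem LGseq_one (D : Subgroup G) : LGseq D 1 = D := by
  rw [← map_puigSeq, Cfsg.Agent.S1467.puigSeq_one, ← MonoidHom.range_eq_map, Subgroup.range_subtype]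

/-- The image in `G` of the Puig subgroup `L(D)`. -/
def PL (D : Subgroup G) : Subgroup G := (Cfsg.puigSubgroup ↥D).map D.subtype

/-- The image in `G` of `L_*(D)`. -/
def PLs (D : Subgroup G) : Subgroup G := (Cfsg.puigLower ↥D).map D.subtype

theorem PL_le (D : Subgroup G) : PL D ≤ D := Subgroup.map_subtype_le _

theorem PLs_le (D : Subgroup G) : PLs D ≤ D := Subgroup.map_subtype_le _

theorem exists_stab (D : Subgroup G) [Finite D] :
    ∃ k : ℕ, ∀ n : ℕ, k ≤ n → LGseq D (2 * n) = PLs D ∧ LGseq D (2 * n + 1) = PL D := by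
  obtain ⟨-, -, -, ⟨k, hk⟩, -, -, -⟩ := Cfsg.Agent.S1467.result (G := ↥D)
  refine ⟨k, fun n hn => ?_⟩
  obtain ⟨h1, h2⟩ := hk n hn
  exact ⟨by rw [← map_puigSeq, h1]; rfl, by rw [← map_puigSeq, h2]; rfl⟩

theorem PLs_le_PL (D : Subgroup G) [Finite D] : PLs D ≤ PL D := by
  obtain ⟨-, -, -, -, h, -, -⟩ := Cfsg.Agent.S1467.result (G := ↥D)
  exact Subgroup.map_mono h

theorem LG_PLs (D : Subgroup G) [Finite D] : LG D (PLs D) = PL D := by
  obtain ⟨-, -, -, -, -, h, -⟩ := Cfsg.Agent.S1467.result (G := ↥D)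
  unfold PLs PL
  rw [← map_puigStep, h]

theorem LG_PL (D : Subgroup G) [Finite D] : LG D (PL D) = PLs D := by
  obtain ⟨-, -, -, -, -, -, h⟩ := Cfsg.Agent.S1467.result (G := ↥D)
  unfold PLs PL
  rw [← map_puigStep, h]

theorem LGseq_even_le_PLs (D : Subgroup G) (n : ℕ) : LGseq D (2 * n) ≤ PLs D := by
  rw [← map_puigSeq]
  exact Subgroup.map_mono (le_iSup (fun n => Cfsg.puigSeq ↥D (2 * n)) n)

theorem PL_le_LGseq_odd (D : Subgroup G) (n : ℕ) : PL D ≤ LGseq D (2 * n + 1) := by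
  rw [← map_puigSeq]
  exact Subgroup.map_mono (iInf_le (fun n => Cfsg.puigSeq ↥D (2 * n + 1)) n)

/-- least fixed point property of the even terms -/
theorem LGseq_even_le_of_fix {D X : Subgroup G} (hX : LG D (LG D X) = X) (n : ℕ) :
    LGseq D (2 * n) ≤ X := by
  induction n with
  | zero => exact bot_le
  | succ n ih =>
    show LG D (LG D (LGseq D (2 * n))) ≤ X
    rw [← hX]
    exact LG_anti D (LG_anti D ih)

/-- greatest fixed point property of the odd terms -/
theorem le_LGseq_odd_of_fix {D X : Subgroup G} (hXD : X ≤ D) (hX : LG D (LG D X) = X) (n : ℕ) :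
    X ≤ LGseq D (2 * n + 1) := by
  induction n with
  | zero => rw [LGseq_one]; exact hXD
  | succ n ih =>
    show X ≤ LG D (LG D (LGseq D (2 * n + 1)))
    rw [← hX]
    exact LG_anti D (LG_anti D ih)

theorem LG_normal (D X : Subgroup G) [hD : D.Normal] [hX : X.Normal] : (LG D X).Normal := by
  constructor
  intro n hn g
  have hle : (LG D X).map (MulAut.conj g).toMonoidHom ≤ LG D X := by
    unfold LG
    rw [Subgroup.map_le_iff_le_comap]
    apply sSup_le
    intro A hA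
    rw [← Subgroup.map_le_iff_le_comap]
    apply le_sSup
    obtain ⟨hA0, hA1, hA2⟩ := hA
    refine ⟨?_, ?_, ?_⟩
    · rintro _ ⟨a, ha, rfl⟩
      exact hD.conj_mem a (hA0 ha) g
    · have : IsMulCommutative A := hA1
      exact Subgroup.map_isMulCommutative A (MulAut.conj g).toMonoidHom
    · rw [Subgroup.le_normalizer_iff] at hA2 ⊢
      intro h hh k hk
      obtain ⟨a, ha, rfl⟩ := hk
      refine ⟨(g⁻¹ * h * g) * a * (g⁻¹ * h * g)⁻¹, ?_, ?_⟩
      · apply hA2 _ _ a ha
        have := hX.conj_mem h hh g⁻¹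
        simpa using this
      · simp [MulAut.conj_apply, mul_assoc]
  exact hle ⟨n, hn, rfl⟩

theorem LGseq_normal (D : Subgroup G) [hD : D.Normal] (n : ℕ) : (LGseq D n).Normal := by
  induction n with
  | zero => show (⊥ : Subgroup G).Normal; infer_instance
  | succ n ih => exact LG_normal D (LGseq D n)

theorem PL_normal (D : Subgroup G) [Finite D] [hD : D.Normal] : (PL D).Normal := by
  obtain ⟨k, hk⟩ := exists_stab D
  rw [← (hk k le_rfl).2]
  exact LGseq_normal D _

theorem PLs_normal (D : Subgroup G) [Finite D] [hD : D.Normal] : (PLs D).Normal := by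
  obtain ⟨k, hk⟩ := exists_stab D
  rw [← (hk k le_rfl).1]
  exact LGseq_normal D _

/-- self-centralizing property, inside `G` -/
theorem inf_centralizer_LGseq_le (D : Subgroup G) [hD : Group.IsNilpotent D] (i : ℕ) (hi : 0 < i) :
    D ⊓ Subgroup.centralizer (LGseq D i : Set G) ≤ LGseq D i := by
  intro x hx
  have h1 : (⟨x, hx.1⟩ : ↥D) ∈ Subgroup.centralizer ((Cfsg.puigSeq ↥D i : Subgroup ↥D) : Set ↥D) := by
    rw [Subgroup.mem_centralizer_iff]
    intro y hy
    have h2 := Subgroup.mem_centralizer_iff.mp hx.2 (y : G)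
      (by rw [← map_puigSeq]; exact ⟨y, hy, rfl⟩)
    exact Subtype.ext h2
  have h3 := Cfsg.Agent.S1466.centralizer_puigSeq_le (G := ↥D) i hi h1
  rw [← map_puigSeq]
  exact ⟨⟨x, hx.1⟩, h3, rfl⟩

theorem inf_centralizer_PLs_le (D : Subgroup G) [Finite D] [hD : Group.IsNilpotent D] :
    D ⊓ Subgroup.centralizer (PLs D : Set G) ≤ PLs D := by
  obtain ⟨k, hk⟩ := exists_stab D
  rw [← (hk (k + 1) (Nat.le_succ k)).1]
  exact inf_centralizer_LGseq_le D _ (by omega)

theorem inf_centralizer_PL_le (D : Subgroup G) [Finite D] [hD : Group.IsNilpotent D] :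
    D ⊓ Subgroup.centralizer (PL D : Set G) ≤ PL D := by
  obtain ⟨k, hk⟩ := exists_stab D
  rw [← (hk k le_rfl).2]
  exact inf_centralizer_LGseq_le D _ (by omega)

/-- centre of a subgroup, inside `G` -/
def cZ (K : Subgroup G) : Subgroup G := K ⊓ Subgroup.centralizer (K : Set G)

theorem cZ_le (K : Subgroup G) : cZ K ≤ K := inf_le_left

theorem cZ_comm (K : Subgroup G) : IsMulCommutative (cZ K) := by
  refine ⟨⟨?_⟩⟩
  rintro ⟨a, ha⟩ ⟨b, hb⟩
  apply Subtype.ext
  exact (Subgroup.mem_centralizer_iff.mp hb.2 a ha.1)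

theorem cZ_normal (K : Subgroup G) [hK : K.Normal] : (cZ K).Normal := by
  have : (Subgroup.centralizer (K : Set G)).Normal := Subgroup.normal_centralizer
  unfold cZ
  infer_instance

theorem map_center_eq_cZ (D : Subgroup G) (L : Subgroup ↥D) :
    ((Subgroup.center ↥L).map L.subtype).map D.subtype = cZ (L.map D.subtype) := by
  ext x
  constructor
  · rintro ⟨y, ⟨z, hz, rfl⟩, rfl⟩
    refine Subgroup.mem_inf.mpr ⟨⟨(z : ↥D), z.2, rfl⟩, ?_⟩
    refine Subgroup.mem_centralizer_iff.mpr ?_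
    rintro _ ⟨w, hw, rfl⟩
    have h1 := Subgroup.mem_center_iff.mp hz ⟨w, hw⟩
    have h2 := congrArg (fun t : ↥L => ((t : ↥D) : G)) h1
    simpa using h2
  · intro hx
    obtain ⟨⟨y, hy, rfl⟩, hc⟩ := Subgroup.mem_inf.mp hx
    refine ⟨y, ⟨⟨y, hy⟩, ?_, rfl⟩, rfl⟩
    refine Subgroup.mem_center_iff.mpr ?_
    intro w
    have h1 := Subgroup.mem_centralizer_iff.mp hc ((w : ↥D) : G) ⟨(w : ↥D), w.2, rfl⟩
    apply Subtype.ext
    apply Subtype.ext
    simpa using h1

end PuigBasic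

section PuigHom

variable {G : Type*} [Group G] {H : Type*} [Group H]

theorem LG_map_hom (f : G →* H) {D X : Subgroup G} (hf : ∀ x ∈ D, f x = 1 → x = 1)
    (hX : X ≤ D) : (LG D X).map f = LG (D.map f) (X.map f) := by
  have hinj : ∀ x ∈ D, ∀ y ∈ D, f x = f y → x = y := by
    intro x hx y hy hxy
    have h1 : f (x * y⁻¹) = 1 := by rw [map_mul, map_inv, hxy, mul_inv_cancel]
    exact mul_inv_eq_one.mp (hf _ (mul_mem hx (inv_mem hy)) h1)
  apply le_antisymm
  · unfold LG
    rw [Subgroup.map_le_iff_le_comap]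
    apply sSup_le
    intro A hA
    rw [← Subgroup.map_le_iff_le_comap]
    obtain ⟨hA0, hA1, hA2⟩ := hA
    have : IsMulCommutative A := hA1
    apply le_sSup
    refine ⟨Subgroup.map_mono hA0, Subgroup.map_isMulCommutative A f, ?_⟩
    rw [Subgroup.le_normalizer_iff] at hA2 ⊢
    rintro _ ⟨x, hx, rfl⟩ _ ⟨a, ha, rfl⟩
    exact ⟨x * a * x⁻¹, hA2 x hx a ha, by simp⟩
  · apply sSup_le
    intro B hB
    obtain ⟨hB0, hB1, hB2⟩ := hB
    have hBc : ∀ a ∈ B, ∀ b ∈ B, a * b = b * a := by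
      intro a ha b hb
      have := hB1.is_comm.comm ⟨a, ha⟩ ⟨b, hb⟩
      exact congrArg Subtype.val this
    have hAle : D ⊓ B.comap f ≤ LG D X := by
      apply le_LG inf_le_left
      · refine ⟨⟨?_⟩⟩
        rintro ⟨a, ha⟩ ⟨b, hb⟩
        apply Subtype.ext
        show a * b = b * a
        apply hinj _ (mul_mem ha.1 hb.1) _ (mul_mem hb.1 ha.1)
        rw [map_mul, map_mul]
        exact hBc _ ha.2 _ hb.2
      · rw [Subgroup.le_normalizer_iff] at hB2 ⊢
        intro x hx a ha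
        obtain ⟨ha1, ha2⟩ := Subgroup.mem_inf.mp ha
        refine Subgroup.mem_inf.mpr ⟨?_, ?_⟩
        · exact D.mul_mem (D.mul_mem (hX hx) ha1) (D.inv_mem (hX hx))
        · have := hB2 (f x) ⟨x, hx, rfl⟩ (f a) ha2
          refine Subgroup.mem_comap.mpr ?_
          simpa using this
    intro b hb
    obtain ⟨d, hd, rfl⟩ := hB0 hb
    exact ⟨d, hAle ⟨hd, hb⟩, rfl⟩

theorem LGseq_map_hom (f : G →* H) {D : Subgroup G} (hf : ∀ x ∈ D, f x = 1 → x = 1) (n : ℕ) :
    (LGseq D n).map f = LGseq (D.map f) n := by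
  induction n with
  | zero => exact Subgroup.map_bot _
  | succ n ih =>
    show (LG D (LGseq D n)).map f = LG (D.map f) (LGseq (D.map f) n)
    rw [LG_map_hom f hf (LGseq_le D n), ih]

theorem PL_map_hom (f : G →* H) {D : Subgroup G} [Finite D] (hf : ∀ x ∈ D, f x = 1 → x = 1) :
    (PL D).map f = PL (D.map f) := by
  have : Finite ↥(D.map f) := by
    have : (D.map f : Set H) = f '' (D : Set G) := rfl
    exact Set.Finite.image f (Set.toFinite (D : Set G)) |>.to_subtype
  obtain ⟨k1, hk1⟩ := exists_stab D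
  obtain ⟨k2, hk2⟩ := exists_stab (D.map f)
  rw [← (hk1 (max k1 k2) (le_max_left _ _)).2, ← (hk2 (max k1 k2) (le_max_right _ _)).2]
  exact LGseq_map_hom f hf _

theorem PLs_map_hom (f : G →* H) {D : Subgroup G} [Finite D] (hf : ∀ x ∈ D, f x = 1 → x = 1) :
    (PLs D).map f = PLs (D.map f) := by
  have : Finite ↥(D.map f) := by
    have : (D.map f : Set H) = f '' (D : Set G) := rfl
    exact Set.Finite.image f (Set.toFinite (D : Set G)) |>.to_subtype
  obtain ⟨k1, hk1⟩ := exists_stab D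
  obtain ⟨k2, hk2⟩ := exists_stab (D.map f)
  rw [← (hk1 (max k1 k2) (le_max_left _ _)).1, ← (hk2 (max k1 k2) (le_max_right _ _)).1]
  exact LGseq_map_hom f hf _

theorem cZ_map_hom (f : G →* H) {K : Subgroup G} (hf : ∀ x ∈ K, f x = 1 → x = 1) :
    (cZ K).map f = cZ (K.map f) := by
  ext y
  constructor
  · rintro ⟨x, hx, rfl⟩
    obtain ⟨hx1, hx2⟩ := Subgroup.mem_inf.mp hx
    refine Subgroup.mem_inf.mpr ⟨⟨x, hx1, rfl⟩, ?_⟩
    refine Subgroup.mem_centralizer_iff.mpr ?_
    rintro _ ⟨k, hk, rfl⟩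
    have := Subgroup.mem_centralizer_iff.mp hx2 k hk
    rw [← map_mul, ← map_mul, this]
  · intro hy
    obtain ⟨⟨x, hx, rfl⟩, hc⟩ := Subgroup.mem_inf.mp hy
    refine ⟨x, Subgroup.mem_inf.mpr ⟨hx, ?_⟩, rfl⟩
    refine Subgroup.mem_centralizer_iff.mpr ?_
    intro k hk
    have h1 := Subgroup.mem_centralizer_iff.mp hc (f k) ⟨k, hk, rfl⟩
    have h2 : f ((k * x) * (x * k)⁻¹) = 1 := by
      rw [map_mul, map_inv, map_mul, map_mul, h1, mul_inv_cancel]
    exact mul_inv_eq_one.mp (hf _ (mul_mem (mul_mem hk hx) (inv_mem (mul_mem hx hk))) h2)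

end PuigHom

end Cfsg.Agent.H58
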