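import Mathlib
import Cfsg.Agent.H58.Puig
import Cfsg.Agent.S1465
import Cfsg.Agent.H60.Cores
import Cfsg.Agent.H13.PCore

/-!
# Puig subgroups of a Sylow `p`-subgroup and of `O_p(G)` (solvable groups of odd order)
-/

set_option autoImplicit false

namespace Cfsg.Agent.H58

open Cfsg

section PuigChain

variable {G : Type*} [Group G]

theorem LG_sylow_le_LG_pCore [Finite G] [Group.IsSolvable G] (hodd : Odd (Nat.card G)) (p : ℕ)
    [Fact p.Prime] (hp : p ≠ 2) (hO : Cfsg.pPrimeCore p G = ⊥) (S : Sylow p G)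
    (P : Subgroup G) [P.Normal] (hPT : P ≤ Cfsg.pCore p G)
    (hC : Cfsg.pCore p G ⊓ Subgroup.centralizer (P : Set G) ≤ P) :
    LG (S : Subgroup G) P ≤ LG (Cfsg.pCore p G) P := by
  have hPp : IsPGroup p P := (Cfsg.Agent.H60.isPGroup_pCore p).to_le hPT
  have key := (Cfsg.Agent.S1465.result hodd p hp P hPp
    {A : Subgroup G | A ≤ (S : Subgroup G) ∧ IsMulCommutative A ∧
      P ≤ Subgroup.normalizer (A : Set G)}
    (fun B hB => ⟨hB.2.1, S.isPGroup'.to_le hB.1, hB.2.2⟩)).2 hO hC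
  apply sSup_le
  intro A hA
  exact le_LG ((le_sSup hA).trans key) hA.2.1 hA.2.2

/-- `L_*(S) ≤ L_*(T) ≤ L(T) ≤ L(S)` for `T = O_p(G)`, `O_{p'}(G) = 1`. -/
theorem puig_chain [Finite G] [Group.IsSolvable G] (hodd : Odd (Nat.card G)) (p : ℕ)
    [Fact p.Prime] (hp : p ≠ 2) (hO : Cfsg.pPrimeCore p G = ⊥) (S : Sylow p G) :
    PLs (S : Subgroup G) ≤ PLs (Cfsg.pCore p G) ∧ PLs (Cfsg.pCore p G) ≤ PL (Cfsg.pCore p G) ∧
      PL (Cfsg.pCore p G) ≤ PL (S : Subgroup G) := by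
  have hTS : Cfsg.pCore p G ≤ (S : Subgroup G) := Cfsg.Agent.H13.pCore_le_sylow S
  have hTn : (Cfsg.pCore p G).Normal := Cfsg.Agent.H13.pCore_normal p G
  have hTp : IsPGroup p (Cfsg.pCore p G) := Cfsg.Agent.H60.isPGroup_pCore p
  have hTnil : Group.IsNilpotent ↥(Cfsg.pCore p G) := hTp.isNilpotent
  have key : ∀ i : ℕ, LGseq (S : Subgroup G) (2 * i) ≤ LGseq (Cfsg.pCore p G) (2 * i) ∧
      LGseq (Cfsg.pCore p G) (2 * i + 1) ≤ LGseq (S : Subgroup G) (2 * i + 1) := by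
    have step1 : ∀ i : ℕ, LGseq (S : Subgroup G) (2 * i) ≤ LGseq (Cfsg.pCore p G) (2 * i) →
        LGseq (Cfsg.pCore p G) (2 * i + 1) ≤ LGseq (S : Subgroup G) (2 * i + 1) := by
      intro i h
      show LG _ (LGseq (Cfsg.pCore p G) (2 * i)) ≤ LG _ (LGseq (S : Subgroup G) (2 * i))
      exact (LG_anti _ h).trans (LG_mono_left hTS _)
    intro i
    induction i with
    | zero => exact ⟨bot_le, step1 0 bot_le⟩
    | succ i ih =>
      have h2 : LGseq (S : Subgroup G) (2 * (i + 1)) ≤ LGseq (Cfsg.pCore p G) (2 * (i + 1)) := by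
        show LG _ (LGseq (S : Subgroup G) (2 * i + 1)) ≤ LG _ (LGseq (Cfsg.pCore p G) (2 * i + 1))
        have hn : (LGseq (Cfsg.pCore p G) (2 * i + 1)).Normal := LGseq_normal _ _
        exact (LG_anti _ ih.2).trans
          (LG_sylow_le_LG_pCore hodd p hp hO S _ (LGseq_le _ _)
            (inf_centralizer_LGseq_le _ _ (by omega)))
      exact ⟨h2, step1 (i + 1) h2⟩
  obtain ⟨k1, hk1⟩ := exists_stab (S : Subgroup G)
  obtain ⟨k2, hk2⟩ := exists_stab (Cfsg.pCore p G)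
  have h1 := hk1 (max k1 k2) (le_max_left _ _)
  have h2 := hk2 (max k1 k2) (le_max_right _ _)
  have h3 := key (max k1 k2)
  rw [h1.1, h1.2, h2.1, h2.2] at h3
  exact ⟨h3.1, PLs_le_PL _, h3.2⟩

end PuigChain

end Cfsg.Agent.H58
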