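import Mathlib
import Cfsg.Agent.H58.Puig2
import Cfsg.Agent.H29.ZJ

/-!
# Puig's theorem for solvable groups of odd order: `Z(L(S)) ⊴ G` when `O_{p'}(G) = 1`
-/

set_option autoImplicit false

namespace Cfsg.Agent.H58

open Cfsg

section PuigMain

universe u

theorem le_normalizer_map_subtype {G : Type*} [Group G] (M : Subgroup G) (N : Subgroup ↥M)
    [hN : N.Normal] : M ≤ Subgroup.normalizer ((N.map M.subtype : Subgroup G) : Set G) := by
  rw [Subgroup.le_normalizer_iff]
  rintro m hm _ ⟨n, hn, rfl⟩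
  exact ⟨⟨m, hm⟩ * n * ⟨m, hm⟩⁻¹, hN.conj_mem n hn ⟨m, hm⟩, by simp⟩

theorem pPrimeCore_subgroup_eq_bot {G : Type*} [Group G] [Finite G] (p : ℕ) [Fact p.Prime]
    (hCT : Subgroup.centralizer (Cfsg.pCore p G : Set G) ≤ Cfsg.pCore p G)
    (M : Subgroup G) (hTM : Cfsg.pCore p G ≤ M) : Cfsg.pPrimeCore p ↥M = ⊥ := by
  have hTn : (Cfsg.pCore p G).Normal := Cfsg.Agent.H13.pCore_normal p G
  have hTp : IsPGroup p (Cfsg.pCore p G) := Cfsg.Agent.H13.pCore_isPGroup p G
  have hQn : (Cfsg.pPrimeCore p ↥M).Normal := inferInstance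
  have hQc : (Nat.card (Cfsg.pPrimeCore p ↥M)).Coprime p := Cfsg.Agent.H60.card_pPrimeCore_coprime p
  have hT'n : ((Cfsg.pCore p G).subgroupOf M).Normal := inferInstance
  have hT'p : IsPGroup p ((Cfsg.pCore p G).subgroupOf M) := by
    intro x
    obtain ⟨k, hk⟩ := hTp ⟨(x : ↥M), x.2⟩
    refine ⟨k, ?_⟩
    have h := congrArg Subtype.val hk
    apply Subtype.ext
    apply Subtype.ext
    simpa using h
  have hdisj : Cfsg.pPrimeCore p ↥M ⊓ (Cfsg.pCore p G).subgroupOf M = ⊥ := by
    apply disjoint_iff.mp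
    apply Subgroup.disjoint_of_coprime_natCard
    obtain ⟨k, hk⟩ := IsPGroup.iff_card.mp hT'p
    rw [hk]
    exact Nat.Coprime.pow_right k hQc
  rw [eq_bot_iff]
  intro q hq
  have hcomm : ∀ t ∈ (Cfsg.pCore p G).subgroupOf M, q * t = t * q := by
    intro t ht
    have h1 : q * t * q⁻¹ * t⁻¹ ∈ Cfsg.pPrimeCore p ↥M ⊓ (Cfsg.pCore p G).subgroupOf M := by
      refine Subgroup.mem_inf.mpr ⟨?_, ?_⟩
      · have h2 := hQn.conj_mem q⁻¹ (inv_mem hq) t
        have h3 := mul_mem hq h2
        simpa [mul_assoc] using h3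
      · have h2 := hT'n.conj_mem t ht q
        exact mul_mem h2 (inv_mem ht)
    rw [hdisj, Subgroup.mem_bot] at h1
    have h4 : q * t * q⁻¹ = t := by
      have := mul_inv_eq_one.mp h1
      exact this
    calc q * t = q * t * q⁻¹ * q := by group
      _ = t * q := by rw [h4]
  have hqc : (q : G) ∈ Subgroup.centralizer (Cfsg.pCore p G : Set G) := by
    refine Subgroup.mem_centralizer_iff.mpr ?_
    intro t ht
    have h := hcomm ⟨t, hTM ht⟩ (Subgroup.mem_subgroupOf.mpr ht)
    have h' := congrArg Subtype.val h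
    simpa using h'.symm
  have hqT : q ∈ (Cfsg.pCore p G).subgroupOf M := Subgroup.mem_subgroupOf.mpr (hCT hqc)
  have : q ∈ Cfsg.pPrimeCore p ↥M ⊓ (Cfsg.pCore p G).subgroupOf M := Subgroup.mem_inf.mpr ⟨hq, hqT⟩
  rw [hdisj] at this
  exact this

/-- **Puig's theorem** (solvable groups of odd order, `O_{p'}(G) = 1`): `Z(L(S)) ⊴ G`. -/
theorem puig_center_normal_aux (p : ℕ) [Fact p.Prime] (hp : p ≠ 2) :
    ∀ n : ℕ, ∀ (G : Type u) [Group G] [Finite G] [Group.IsSolvable G], Nat.card G ≤ n →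
      Odd (Nat.card G) → Cfsg.pPrimeCore p G = ⊥ → ∀ S : Sylow p G,
      (cZ (PL (S : Subgroup G))).Normal := by
  intro n
  induction n with
  | zero =>
    intro G _ _ _ hcard
    exfalso
    have := Nat.card_pos (α := G)
    omega
  | succ n ih =>
    intro G _ _ hsol hcard hodd hO S
    have hTS : Cfsg.pCore p G ≤ (S : Subgroup G) := Cfsg.Agent.H13.pCore_le_sylow S
    have hTn : (Cfsg.pCore p G).Normal := Cfsg.Agent.H13.pCore_normal p G
    have hTp : IsPGroup p (Cfsg.pCore p G) := Cfsg.Agent.H13.pCore_isPGroup p G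
    have hCT := Cfsg.Agent.H60.centralizer_pCore_le (p := p) hsol hO
    obtain ⟨h1, h2, h3⟩ := puig_chain hodd p hp hO S
    have hSnil : Group.IsNilpotent ↥(S : Subgroup G) := S.isPGroup'.isNilpotent
    have hPLTn : (PL (Cfsg.pCore p G)).Normal := PL_normal _
    have hYn : (cZ (PL (Cfsg.pCore p G))).Normal := cZ_normal _
    have hYab : IsMulCommutative (cZ (PL (Cfsg.pCore p G))) := cZ_comm _
    have hYT : cZ (PL (Cfsg.pCore p G)) ≤ Cfsg.pCore p G := (cZ_le _).trans (PL_le _)
    have hYp : IsPGroup p (cZ (PL (Cfsg.pCore p G))) := hTp.to_le hYT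
    -- Claim 1: Z ≤ Y
    have hZY : cZ (PL (S : Subgroup G)) ≤ cZ (PL (Cfsg.pCore p G)) := by
      intro z hz
      obtain ⟨hz1, hz2⟩ := Subgroup.mem_inf.mp hz
      have hzS : z ∈ (S : Subgroup G) := PL_le _ hz1
      have hz3 : z ∈ PLs (S : Subgroup G) :=
        inf_centralizer_PLs_le _
          (Subgroup.mem_inf.mpr ⟨hzS, Subgroup.centralizer_le (PLs_le_PL _) hz2⟩)
      exact Subgroup.mem_inf.mpr ⟨h2 (h1 hz3), Subgroup.centralizer_le h3 hz2⟩
    -- Claim 2: Y ≤ L_*(S)
    have hYL : cZ (PL (Cfsg.pCore p G)) ≤ PLs (S : Subgroup G) := by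
      have h4 : cZ (PL (Cfsg.pCore p G)) ≤ LGseq (S : Subgroup G) 2 := by
        apply le_LG (hYT.trans hTS) hYab
        rw [Subgroup.normalizer_eq_top_iff.mpr hYn]
        exact le_top
      exact h4.trans (LGseq_even_le_PLs _ 1)
    -- Claim 3: L(S) ≤ K
    have hCn : (Subgroup.centralizer (cZ (PL (Cfsg.pCore p G)) : Set G)).Normal :=
      Subgroup.normal_centralizer
    have hKn : ((Cfsg.pCore p (G ⧸ Subgroup.centralizer (cZ (PL (Cfsg.pCore p G)) : Set G))).comap
        (QuotientGroup.mk' (Subgroup.centralizer (cZ (PL (Cfsg.pCore p G)) : Set G)))).Normal :=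
      (Cfsg.Agent.H13.pCore_normal p _).comap _
    have hLK : PL (S : Subgroup G) ≤
        (Cfsg.pCore p (G ⧸ Subgroup.centralizer (cZ (PL (Cfsg.pCore p G)) : Set G))).comap
        (QuotientGroup.mk' (Subgroup.centralizer (cZ (PL (Cfsg.pCore p G)) : Set G))) := by
      rw [← LG_PLs]
      have key := (Cfsg.Agent.S1465.result hodd p hp (cZ (PL (Cfsg.pCore p G))) hYp
        {A : Subgroup G | A ≤ (S : Subgroup G) ∧ IsMulCommutative A ∧
          PLs (S : Subgroup G) ≤ Subgroup.normalizer (A : Set G)}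
        (fun B hB => ⟨hB.2.1, S.isPGroup'.to_le hB.1, hYL.trans hB.2.2⟩)).1
      exact Subgroup.map_le_iff_le_comap.mp key
    have hq : ∀ x ∈ (Cfsg.pCore p (G ⧸ Subgroup.centralizer (cZ (PL (Cfsg.pCore p G)) : Set G))).comap
        (QuotientGroup.mk' (Subgroup.centralizer (cZ (PL (Cfsg.pCore p G)) : Set G))),
        ∃ j : ℕ, x ^ (p ^ j) ∈ Subgroup.centralizer (cZ (PL (Cfsg.pCore p G)) : Set G) := by
      intro x hx
      obtain ⟨j, hj⟩ := (Cfsg.Agent.H13.pCore_isPGroup p
        (G ⧸ Subgroup.centralizer (cZ (PL (Cfsg.pCore p G)) : Set G)))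
        ⟨QuotientGroup.mk' _ x, hx⟩
      refine ⟨j, ?_⟩
      have h := congrArg Subtype.val hj
      simp only [Subgroup.coe_pow, Subgroup.coe_one] at h
      rw [← map_pow] at h
      exact (QuotientGroup.eq_one_iff _).mp h
    have hF := Cfsg.Agent.H29.normalizer_sup_eq_top_of_pquot S _ _ hq
    have hCZ : Subgroup.centralizer (cZ (PL (Cfsg.pCore p G)) : Set G) ≤
        Subgroup.normalizer (cZ (PL (S : Subgroup G)) : Set G) := by
      intro c hc
      have hcz : ∀ z ∈ cZ (PL (S : Subgroup G)), c * z * c⁻¹ = z := by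
        intro z hz
        have h5 := Subgroup.mem_centralizer_iff.mp hc z (hZY hz)
        rw [← h5]; group
      rw [Subgroup.mem_normalizer_iff]
      intro z
      constructor
      · intro hz; rw [hcz z hz]; exact hz
      · intro hz
        have h5 := hcz _ hz
        have h6 : c * z * c⁻¹ = z := by
          apply mul_left_cancel (a := c)
          apply mul_right_cancel (b := c⁻¹)
          simpa [mul_assoc] using h5
        rw [← h6]; exact hz
    by_cases hM : Subgroup.normalizer (((S : Subgroup G) ⊓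
        (Cfsg.pCore p (G ⧸ Subgroup.centralizer (cZ (PL (Cfsg.pCore p G)) : Set G))).comap
        (QuotientGroup.mk' (Subgroup.centralizer (cZ (PL (Cfsg.pCore p G)) : Set G))) : Subgroup G) :
          Set G) = ⊤
    · -- Case A
      have hS1n := Subgroup.normalizer_eq_top_iff.mp hM
      have hS1T := Cfsg.Agent.H13.le_pCore hS1n (S.isPGroup'.to_le inf_le_left)
      have hLT : PL (S : Subgroup G) ≤ Cfsg.pCore p G := (le_inf (PL_le _) hLK).trans hS1T
      have e1 : LG (Cfsg.pCore p G) (PL (S : Subgroup G)) = PLs (S : Subgroup G) := by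
        apply le_antisymm
        · exact (LG_mono_left hTS _).trans (LG_PL _).le
        · have h7 : ∀ A : Subgroup G, A ≤ (S : Subgroup G) → IsMulCommutative A →
              PL (S : Subgroup G) ≤ Subgroup.normalizer (A : Set G) →
              A ≤ LG (Cfsg.pCore p G) (PL (S : Subgroup G)) := by
            intro A hA1 hA2 hA3
            have hA' : A ≤ PLs (S : Subgroup G) := by
              rw [← LG_PL]; exact le_LG hA1 hA2 hA3
            exact le_LG (hA'.trans ((PLs_le_PL _).trans hLT)) hA2 hA3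
          calc PLs (S : Subgroup G) = LG (S : Subgroup G) (PL (S : Subgroup G)) := (LG_PL _).symm
            _ ≤ LG (Cfsg.pCore p G) (PL (S : Subgroup G)) :=
              sSup_le (fun A hA => h7 A hA.1 hA.2.1 hA.2.2)
      have e2 : LG (Cfsg.pCore p G) (PLs (S : Subgroup G)) = PL (S : Subgroup G) := by
        apply le_antisymm
        · exact (LG_mono_left hTS _).trans (LG_PLs _).le
        · have h7 : ∀ A : Subgroup G, A ≤ (S : Subgroup G) → IsMulCommutative A →
              PLs (S : Subgroup G) ≤ Subgroup.normalizer (A : Set G) →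
              A ≤ LG (Cfsg.pCore p G) (PLs (S : Subgroup G)) := by
            intro A hA1 hA2 hA3
            have hA' : A ≤ PL (S : Subgroup G) := by
              rw [← LG_PLs]; exact le_LG hA1 hA2 hA3
            exact le_LG (hA'.trans hLT) hA2 hA3
          calc PL (S : Subgroup G) = LG (S : Subgroup G) (PLs (S : Subgroup G)) := (LG_PLs _).symm
            _ ≤ LG (Cfsg.pCore p G) (PLs (S : Subgroup G)) :=
              sSup_le (fun A hA => h7 A hA.1 hA.2.1 hA.2.2)
      have hfix : LG (Cfsg.pCore p G) (LG (Cfsg.pCore p G) (PL (S : Subgroup G))) =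
          PL (S : Subgroup G) := by rw [e1, e2]
      obtain ⟨k, hk⟩ := exists_stab (Cfsg.pCore p G)
      have h4 : PL (S : Subgroup G) ≤ PL (Cfsg.pCore p G) := by
        rw [← (hk k le_rfl).2]; exact le_LGseq_odd_of_fix hLT hfix k
      have h5 : PL (S : Subgroup G) = PL (Cfsg.pCore p G) := le_antisymm h4 h3
      rw [h5]; exact hYn
    · -- Case B
      have hSM : (S : Subgroup G) ≤ Subgroup.normalizer (((S : Subgroup G) ⊓
          (Cfsg.pCore p (G ⧸ Subgroup.centralizer (cZ (PL (Cfsg.pCore p G)) : Set G))).comap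
          (QuotientGroup.mk' (Subgroup.centralizer (cZ (PL (Cfsg.pCore p G)) : Set G))) : Subgroup G) :
            Set G) := by
        rw [Subgroup.le_normalizer_iff]
        intro s hs k hk
        obtain ⟨hk1, hk2⟩ := Subgroup.mem_inf.mp hk
        exact Subgroup.mem_inf.mpr
          ⟨(S : Subgroup G).mul_mem ((S : Subgroup G).mul_mem hs hk1) ((S : Subgroup G).inv_mem hs),
            hKn.conj_mem k hk2 s⟩
      generalize Subgroup.normalizer (((S : Subgroup G) ⊓
          (Cfsg.pCore p (G ⧸ Subgroup.centralizer (cZ (PL (Cfsg.pCore p G)) : Set G))).comap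
          (QuotientGroup.mk' (Subgroup.centralizer (cZ (PL (Cfsg.pCore p G)) : Set G))) : Subgroup G) :
            Set G) = M at hM hSM hF
      have hlt : Nat.card M < Nat.card G :=
        lt_of_le_of_ne (Subgroup.card_le_card_group M)
          (fun h => hM ((Subgroup.card_eq_iff_eq_top M).mp h))
      have hOM : Cfsg.pPrimeCore p ↥M = ⊥ := pPrimeCore_subgroup_eq_bot p hCT M (hTS.trans hSM)
      have hoddM : Odd (Nat.card M) := Odd.of_dvd_nat hodd (Subgroup.card_subgroup_dvd_card M)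
      have IH := ih ↥M (by omega) hoddM hOM (S.subtype hSM)
      have hinj : ∀ (D : Subgroup ↥M), ∀ x ∈ D, M.subtype x = 1 → x = 1 :=
        fun D x _ hx => Subtype.ext (by simpa using hx)
      have e : (cZ (PL ((S.subtype hSM : Sylow p ↥M) : Subgroup ↥M))).map M.subtype =
          cZ (PL (S : Subgroup G)) := by
        rw [cZ_map_hom M.subtype (hinj _), PL_map_hom M.subtype (hinj _)]
        have h8 : ((S.subtype hSM : Sylow p ↥M) : Subgroup ↥M).map M.subtype = (S : Subgroup G) := by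
          rw [Sylow.coe_subtype, Subgroup.subgroupOf_map_subtype, inf_eq_left.mpr hSM]
        rw [h8]
      have hMZ : M ≤ Subgroup.normalizer (cZ (PL (S : Subgroup G)) : Set G) := by
        rw [← e]; exact le_normalizer_map_subtype M _
      have h9 : Subgroup.normalizer (cZ (PL (S : Subgroup G)) : Set G) = ⊤ := by
        rw [eq_top_iff, ← hF]; exact sup_le hMZ hCZ
      exact Subgroup.normalizer_eq_top_iff.mp h9

/-- **Puig's theorem**, factorization form: `G = O_{p'}(G) N_G(Z(L(S)))`. -/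
theorem puig_factorization {G : Type u} [Group G] [Finite G] [Group.IsSolvable G]
    (hodd : Odd (Nat.card G)) (p : ℕ) [Fact p.Prime] (hp : p ≠ 2) (S : Sylow p G) :
    Cfsg.pPrimeCore p G ⊔ Subgroup.normalizer (cZ (PL (S : Subgroup G)) : Set G) = ⊤ := by
  have hsurj : Function.Surjective (QuotientGroup.mk' (Cfsg.pPrimeCore p G)) :=
    QuotientGroup.mk'_surjective _
  have hO : Cfsg.pPrimeCore p (G ⧸ Cfsg.pPrimeCore p G) = ⊥ :=
    Cfsg.Agent.H60.pPrimeCore_quotient_eq_bot p
  have hoddq : Odd (Nat.card (G ⧸ Cfsg.pPrimeCore p G)) :=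
    Odd.of_dvd_nat hodd (Subgroup.card_quotient_dvd_card _)
  have hn := puig_center_normal_aux p hp (Nat.card (G ⧸ Cfsg.pPrimeCore p G))
    (G ⧸ Cfsg.pPrimeCore p G) le_rfl hoddq hO (S.mapSurjective hsurj)
  rw [Sylow.coe_mapSurjective] at hn
  have hinj : ∀ x ∈ (S : Subgroup G), QuotientGroup.mk' (Cfsg.pPrimeCore p G) x = 1 → x = 1 := by
    intro x hx hx1
    have hxR : x ∈ Cfsg.pPrimeCore p G := (QuotientGroup.eq_one_iff x).mp hx1
    obtain ⟨k, hk⟩ := S.isPGroup' ⟨x, hx⟩
    have hk' : x ^ p ^ k = 1 := by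
      have := congrArg Subtype.val hk
      simpa using this
    have h1 : orderOf x ∣ p ^ k := orderOf_dvd_of_pow_eq_one hk'
    have h2 : orderOf x ∣ Nat.card (Cfsg.pPrimeCore p G) := Subgroup.orderOf_dvd_natCard _ hxR
    have h3 : Nat.Coprime (p ^ k) (Nat.card (Cfsg.pPrimeCore p G)) :=
      Nat.Coprime.pow_left k (Cfsg.Agent.H60.card_pPrimeCore_coprime p).symm
    have h4 : orderOf x = 1 := Nat.eq_one_of_dvd_coprimes h3 h1 h2
    exact orderOf_eq_one_iff.mp h4
  rw [← PL_map_hom _ hinj, ← cZ_map_hom _ (fun x hx => hinj x (PL_le _ hx))] at hn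
  have hMn : (((cZ (PL (S : Subgroup G))).map (QuotientGroup.mk' (Cfsg.pPrimeCore p G))).comap
      (QuotientGroup.mk' (Cfsg.pPrimeCore p G))).Normal := hn.comap _
  have hZS : cZ (PL (S : Subgroup G)) ≤ (S : Subgroup G) := (cZ_le _).trans (PL_le _)
  have hq : ∀ x ∈ ((cZ (PL (S : Subgroup G))).map (QuotientGroup.mk' (Cfsg.pPrimeCore p G))).comap
      (QuotientGroup.mk' (Cfsg.pPrimeCore p G)), ∃ j : ℕ, x ^ (p ^ j) ∈ Cfsg.pPrimeCore p G := by
    intro x hx
    obtain ⟨z, hz, hzx⟩ := hx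
    obtain ⟨j, hj⟩ := (S.isPGroup'.to_le hZS) ⟨z, hz⟩
    refine ⟨j, ?_⟩
    have h1 := congrArg Subtype.val hj
    simp only [Subgroup.coe_pow, Subgroup.coe_one] at h1
    rw [← QuotientGroup.eq_one_iff, ← QuotientGroup.mk'_apply, map_pow, ← hzx, ← map_pow, h1, map_one]
  have hOn : (Cfsg.pPrimeCore p G).Normal := inferInstance
  have h := Cfsg.Agent.H29.normalizer_sup_eq_top_of_pquot S _ (Cfsg.pPrimeCore p G) hq
  have hPM : (S : Subgroup G) ⊓ ((cZ (PL (S : Subgroup G))).map
      (QuotientGroup.mk' (Cfsg.pPrimeCore p G))).comap (QuotientGroup.mk' (Cfsg.pPrimeCore p G)) =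
      cZ (PL (S : Subgroup G)) := by
    apply le_antisymm
    · intro x hx
      obtain ⟨z, hz, hzx⟩ := (Subgroup.mem_inf.mp hx).2
      have hzP : z ∈ (S : Subgroup G) := hZS hz
      have h1 : QuotientGroup.mk' (Cfsg.pPrimeCore p G) (z⁻¹ * x) = 1 := by
        rw [map_mul, map_inv, hzx, inv_mul_cancel]
      have h2 := hinj _ (mul_mem (inv_mem hzP) (Subgroup.mem_inf.mp hx).1) h1
      rw [inv_mul_eq_one] at h2
      rw [← h2]; exact hz
    · exact le_inf hZS (fun z hz => ⟨z, hz, rfl⟩)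
  rw [hPM] at h
  rw [sup_comm]; exact h

end PuigMain

end Cfsg.Agent.H58
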