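import Mathlib
import Cfsg.Prelude.Def_Balance
import Cfsg.Agent.H58.Sig3

set_option autoImplicit false

namespace Cfsg.Agent.H58

open Cfsg.Agent.H27 (mem_map_conj_iff)

variable {G : Type*} [Group G]

/-- An elementary abelian `p`-group acts coprimely on a group of order prime to `p`. -/
theorem coprime_card_of_elementary [Finite G] {p : ℕ} [Fact p.Prime] {A H : Subgroup G}
    (hA : Cfsg.IsElementaryAbelian p A) (hH : ¬ p ∣ Nat.card ↥H) :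
    (Nat.card ↥A).Coprime (Nat.card ↥H) := by
  have hAp : IsPGroup p ↥A := by
    rintro ⟨g, hg⟩
    refine ⟨1, Subtype.ext ?_⟩
    simp only [pow_one, Subgroup.coe_pow, Subgroup.coe_one]
    exact hA.2 g hg
  obtain ⟨n, hn⟩ := IsPGroup.iff_card.mp hAp
  rw [hn]
  exact Nat.Coprime.pow_left n ((Nat.Prime.coprime_iff_not_dvd Fact.out).mpr hH)

/-- Composing three conjugations. -/
theorem map_conj_comp {Q₁ Q₂ Q₃ Q₄ : Subgroup G} {c₁ c c₃ c₂ : G}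
    (e₁ : Q₃.map (MulAut.conj c₁).toMonoidHom = Q₁)
    (e₃ : (Q₃.map (MulAut.conj c).toMonoidHom).map (MulAut.conj c₃).toMonoidHom = Q₄)
    (e₂ : Q₄.map (MulAut.conj c₂).toMonoidHom = Q₂) :
    Q₁.map (MulAut.conj (c₂ * c₃ * c * c₁⁻¹)).toMonoidHom = Q₂ := by
  rw [← e₂, ← e₃, ← e₁]
  ext x
  rw [mem_map_conj_iff, mem_map_conj_iff, mem_map_conj_iff, mem_map_conj_iff, mem_map_conj_iff]
  have e : c₁⁻¹ * ((c₂ * c₃ * c * c₁⁻¹)⁻¹ * x * (c₂ * c₃ * c * c₁⁻¹)) * c₁ =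
      c⁻¹ * (c₃⁻¹ * (c₂⁻¹ * x * c₂) * c₃) * c := by group
  rw [e]

/-- **Transitivity theorem** for solvable signalizer functors (inductive form). -/
theorem transitivity_aux [Finite G] (p : ℕ) [Fact p.Prime] (A : Subgroup G)
    (hA : Cfsg.IsElementaryAbelian p A) (hA3 : p ^ 3 ≤ Nat.card ↥A) (θ : G → Subgroup G)
    (hθ : Cfsg.IsSolvableSignalizerFunctor p A θ) (q : ℕ) [Fact q.Prime] (hqp : q ≠ p) :
    ∀ d : ℕ, ∀ Q₁ Q₂ : Subgroup G, IsMaxQ p A θ q Q₁ → IsMaxQ p A θ q Q₂ →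
      Nat.card G - Nat.card ↥(Q₁ ⊓ Q₂) = d →
      ∃ c ∈ Cfsg.signalizerInf A θ, Q₁.map (MulAut.conj c).toMonoidHom = Q₂ := by
  intro d
  induction d using Nat.strong_induction_on with
  | _ d ih =>
    intro Q₁ Q₂ hQ₁ hQ₂ hd
    have hone : ∀ Q : Subgroup G, Q.map (MulAut.conj (1 : G)).toMonoidHom = Q := by
      intro Q
      ext x
      rw [mem_map_conj_iff]
      simp
    by_cases hD₁ : Q₁ ⊓ Q₂ = Q₁
    · have hle : Q₁ ≤ Q₂ := by rw [← hD₁]; exact inf_le_right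
      have h1 := hQ₁.2.2 Q₂ hQ₂.1 hQ₂.2.1 hle
      exact ⟨1, Subgroup.one_mem _, by rw [hone, h1]⟩
    by_cases hD₂ : Q₁ ⊓ Q₂ = Q₂
    · have hle : Q₂ ≤ Q₁ := by rw [← hD₂]; exact inf_le_left
      have h1 := hQ₂.2.2 Q₁ hQ₁.1 hQ₁.2.1 hle
      exact ⟨1, Subgroup.one_mem _, by rw [hone, h1]⟩
    have hp : p.Prime := Fact.out
    have hA2 : p ^ 2 ≤ Nat.card ↥A :=
      le_trans (Nat.pow_le_pow_right hp.pos (by norm_num)) hA3
    have hθ' := hθ.1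
    obtain ⟨hθC, hθp, hθA, hθbal⟩ := hθ.1
    have hQ₁A := hQ₁.1.2.2.1
    have hQ₂A := hQ₂.1.2.2.1
    obtain ⟨a, ha, ha1, hR₁, hR₂⟩ := Cfsg.Agent.S1282.result p A hA hA3 q hqp Q₁ Q₂ hQ₁.2.1
      hQ₂.2.1 (le_normalizer_of_conj hQ₁A) (le_normalizer_of_conj hQ₂A) hD₁ hD₂
    -- the intersection `D`
    have hDA : ∀ b ∈ A, ∀ x ∈ Q₁ ⊓ Q₂, b * x * b⁻¹ ∈ Q₁ ⊓ Q₂ := fun b hb x hx =>
      Subgroup.mem_inf.mpr ⟨hQ₁A b hb x hx.1, hQ₂A b hb x hx.2⟩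
    have hADn : A ≤ Subgroup.normalizer ((Q₁ ⊓ Q₂ : Subgroup G) : Set G) :=
      le_normalizer_of_conj hDA
    have hDfam : Q₁ ⊓ Q₂ ∈ Cfsg.signalizerFamily p A θ := family_of_le hQ₁.1 inf_le_left hDA
    have hDq : IsPGroup q ↥(Q₁ ⊓ Q₂) := hQ₁.2.1.to_le inf_le_left
    -- the subgroup `H = θ(a) ∩ N(D)`
    have hHA : ∀ b ∈ A, ∀ x ∈ θ a ⊓ Subgroup.normalizer ((Q₁ ⊓ Q₂ : Subgroup G) : Set G),
        b * x * b⁻¹ ∈ θ a ⊓ Subgroup.normalizer ((Q₁ ⊓ Q₂ : Subgroup G) : Set G) := by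
      intro b hb x hx
      have hbn := hADn hb
      exact Subgroup.mem_inf.mpr ⟨hθA a ha ha1 b hb x hx.1,
        Subgroup.mul_mem _ (Subgroup.mul_mem _ hbn hx.2) (Subgroup.inv_mem _ hbn)⟩
    have hHs : Group.IsSolvable ↥(θ a ⊓ Subgroup.normalizer ((Q₁ ⊓ Q₂ : Subgroup G) : Set G)) := by
      have := hθ.2 a ha ha1
      exact Group.isSolvable_of_isSolvable_injective
        (Subgroup.inclusion_injective (inf_le_left : θ a ⊓ _ ≤ θ a))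
    have hHp : ¬ p ∣ Nat.card ↥(θ a ⊓ Subgroup.normalizer ((Q₁ ⊓ Q₂ : Subgroup G) : Set G)) :=
      fun h => hθp a ha ha1 (h.trans (Subgroup.card_dvd_of_le inf_le_left))
    have hcop := coprime_card_of_elementary hA hHp
    have hAH := le_normalizer_of_conj hHA
    -- invariant subgroups `R_i`
    have hRprop : ∀ Q : Subgroup G, IsMaxQ p A θ q Q →
        (Subgroup.normalizer ((Q₁ ⊓ Q₂ : Subgroup G) : Set G) ⊓ Q ⊓ Subgroup.centralizer {a} ≤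
          θ a ⊓ Subgroup.normalizer ((Q₁ ⊓ Q₂ : Subgroup G) : Set G)) ∧
        IsPGroup q ↥(Subgroup.normalizer ((Q₁ ⊓ Q₂ : Subgroup G) : Set G) ⊓ Q ⊓
          Subgroup.centralizer {a}) ∧
        A ≤ Subgroup.normalizer ((Subgroup.normalizer ((Q₁ ⊓ Q₂ : Subgroup G) : Set G) ⊓ Q ⊓
          Subgroup.centralizer {a} : Subgroup G) : Set G) := by
      intro Q hQ
      refine ⟨?_, hQ.2.1.to_le (inf_le_left.trans inf_le_right), ?_⟩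
      · intro x hx
        exact Subgroup.mem_inf.mpr ⟨hQ.1.2.2.2 a ha ha1 ⟨hx.1.2, hx.2⟩, hx.1.1⟩
      · apply le_normalizer_of_conj
        intro b hb x hx
        have hbn := hADn hb
        have hbc : b ∈ Subgroup.centralizer ({a} : Set G) := by
          rw [Subgroup.mem_centralizer_singleton_iff]
          exact congrArg Subtype.val ((isMulCommutative_iff.mp hA.1) ⟨b, hb⟩ ⟨a, ha⟩)
        exact Subgroup.mem_inf.mpr ⟨Subgroup.mem_inf.mpr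
          ⟨Subgroup.mul_mem _ (Subgroup.mul_mem _ hbn hx.1.1) (Subgroup.inv_mem _ hbn),
            hQ.1.2.2.1 b hb x hx.1.2⟩,
          Subgroup.mul_mem _ (Subgroup.mul_mem _ hbc hx.2) (Subgroup.inv_mem _ hbc)⟩
    obtain ⟨hR₁H, hR₁q, hR₁A⟩ := hRprop Q₁ hQ₁
    obtain ⟨hR₂H, hR₂q, hR₂A⟩ := hRprop Q₂ hQ₂
    obtain ⟨P₁, hRP₁, hAP₁⟩ := Cfsg.Agent.S0025.result A _ hAH hcop (Or.inr hHs) q _ hR₁H hR₁q hR₁A
    obtain ⟨P₂, hRP₂, hAP₂⟩ := Cfsg.Agent.S0025.result A _ hAH hcop (Or.inr hHs) q _ hR₂H hR₂q hR₂A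
    obtain ⟨c, hcA, hcP⟩ := Cfsg.Agent.S0024.result A _ hAH hcop (Or.inr hHs) q P₁ P₂ hAP₁ hAP₂
    have hS12 := mem_map_conj_smul_sylow P₁ P₂ c hcP
    have hcW : (c : G) ∈ Cfsg.signalizerInf A θ := by
      rw [mem_sigInf]
      intro b hb hb1
      refine hθbal a ha ha1 b hb hb1 ⟨c.2.1, ?_⟩
      exact Subgroup.centralizer_le (by
        intro x hx
        rw [Set.mem_singleton_iff] at hx
        rw [hx]; exact hb) hcA
    -- the Sylow subgroups, seen in `G`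
    have hSprop : ∀ P : Sylow q ↥(θ a ⊓ Subgroup.normalizer ((Q₁ ⊓ Q₂ : Subgroup G) : Set G)),
        A ≤ Subgroup.normalizer (((P : Subgroup ↥(θ a ⊓ Subgroup.normalizer
          ((Q₁ ⊓ Q₂ : Subgroup G) : Set G))).map (θ a ⊓ Subgroup.normalizer
          ((Q₁ ⊓ Q₂ : Subgroup G) : Set G)).subtype : Subgroup G) : Set G) →
        (Q₁ ⊓ Q₂ ⊔ (P : Subgroup ↥(θ a ⊓ Subgroup.normalizer
          ((Q₁ ⊓ Q₂ : Subgroup G) : Set G))).map (θ a ⊓ Subgroup.normalizer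
          ((Q₁ ⊓ Q₂ : Subgroup G) : Set G)).subtype ∈ Cfsg.signalizerFamily p A θ) ∧
          IsPGroup q ↥(Q₁ ⊓ Q₂ ⊔ (P : Subgroup ↥(θ a ⊓ Subgroup.normalizer
          ((Q₁ ⊓ Q₂ : Subgroup G) : Set G))).map (θ a ⊓ Subgroup.normalizer
          ((Q₁ ⊓ Q₂ : Subgroup G) : Set G)).subtype : Subgroup G) := by
      intro P hAP
      have hSH : (P : Subgroup ↥(θ a ⊓ Subgroup.normalizer
          ((Q₁ ⊓ Q₂ : Subgroup G) : Set G))).map (θ a ⊓ Subgroup.normalizer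
          ((Q₁ ⊓ Q₂ : Subgroup G) : Set G)).subtype ≤
          θ a ⊓ Subgroup.normalizer ((Q₁ ⊓ Q₂ : Subgroup G) : Set G) := Subgroup.map_subtype_le _
      have hSq : IsPGroup q ↥((P : Subgroup ↥(θ a ⊓ Subgroup.normalizer
          ((Q₁ ⊓ Q₂ : Subgroup G) : Set G))).map (θ a ⊓ Subgroup.normalizer
          ((Q₁ ⊓ Q₂ : Subgroup G) : Set G)).subtype : Subgroup G) :=
        P.isPGroup'.map _
      have hSfam : (P : Subgroup ↥(θ a ⊓ Subgroup.normalizer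
          ((Q₁ ⊓ Q₂ : Subgroup G) : Set G))).map (θ a ⊓ Subgroup.normalizer
          ((Q₁ ⊓ Q₂ : Subgroup G) : Set G)).subtype ∈ Cfsg.signalizerFamily p A θ :=
        family_of_le_theta hθ ha ha1 (hSH.trans inf_le_left)
          (fun b hb v hv => (Subgroup.mem_normalizer_iff.mp (hAP hb) v).mp hv)
      refine ⟨Cfsg.Agent.S1280.result p A hA hA2 θ hθ _ _ hDfam hSfam (hSH.trans inf_le_right), ?_⟩
      have := hSq.to_sup_of_normal_right' hDq (hSH.trans inf_le_right)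
      rwa [sup_comm] at this
    obtain ⟨hT₁fam, hT₁q⟩ := hSprop P₁ hAP₁
    obtain ⟨hT₂fam, hT₂q⟩ := hSprop P₂ hAP₂
    obtain ⟨Q₃, hQ₃, hTQ₃⟩ := exists_isMaxQ_ge hT₁fam hT₁q
    obtain ⟨Q₄, hQ₄, hTQ₄⟩ := exists_isMaxQ_ge hT₂fam hT₂q
    obtain ⟨r₁, hr₁, hr₁D⟩ := SetLike.not_le_iff_exists.mp hR₁
    obtain ⟨r₂, hr₂, hr₂D⟩ := SetLike.not_le_iff_exists.mp hR₂
    have hG : ∀ K : Subgroup G, Nat.card ↥K ≤ Nat.card G := fun K => Subgroup.card_le_card_group K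
    -- `Q₃ ~ Q₁`
    have hlt₁ : Nat.card ↥(Q₁ ⊓ Q₂) < Nat.card ↥(Q₃ ⊓ Q₁) :=
      card_lt_of_mem_not_mem (le_inf (le_sup_left.trans hTQ₃) inf_le_left)
        (Subgroup.mem_inf.mpr ⟨hTQ₃ (Subgroup.mem_sup_right (hRP₁ hr₁)), hr₁.1.2⟩) hr₁D
    obtain ⟨c₁, hc₁, e₁⟩ := ih (Nat.card G - Nat.card ↥(Q₃ ⊓ Q₁))
      (by have := hG (Q₃ ⊓ Q₁); omega) Q₃ Q₁ hQ₃ hQ₁ rfl
    -- `Q₄ ~ Q₂`
    have hlt₂ : Nat.card ↥(Q₁ ⊓ Q₂) < Nat.card ↥(Q₄ ⊓ Q₂) :=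
      card_lt_of_mem_not_mem (le_inf (le_sup_left.trans hTQ₄) inf_le_right)
        (Subgroup.mem_inf.mpr ⟨hTQ₄ (Subgroup.mem_sup_right (hRP₂ hr₂)), hr₂.1.2⟩) hr₂D
    obtain ⟨c₂, hc₂, e₂⟩ := ih (Nat.card G - Nat.card ↥(Q₄ ⊓ Q₂))
      (by have := hG (Q₄ ⊓ Q₂); omega) Q₄ Q₂ hQ₄ hQ₂ rfl
    -- `Q₃^c ~ Q₄`
    have hQ₃' := isMaxQ_conj hθ' hcW hQ₃
    have hDQ₃' : Q₁ ⊓ Q₂ ≤ Q₃.map (MulAut.conj (c : G)).toMonoidHom := by
      intro x hx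
      rw [mem_map_conj_iff]
      apply hTQ₃
      apply Subgroup.mem_sup_left
      have hcn : (c : G)⁻¹ ∈ Subgroup.normalizer ((Q₁ ⊓ Q₂ : Subgroup G) : Set G) :=
        Subgroup.inv_mem _ c.2.2
      have := (Subgroup.mem_normalizer_iff.mp hcn x).mp hx
      simpa using this
    have hr₂Q₃' : r₂ ∈ Q₃.map (MulAut.conj (c : G)).toMonoidHom := by
      rw [mem_map_conj_iff]
      apply hTQ₃
      apply Subgroup.mem_sup_right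
      exact (hS12 r₂).mp (hRP₂ hr₂)
    have hlt₃ : Nat.card ↥(Q₁ ⊓ Q₂) <
        Nat.card ↥(Q₃.map (MulAut.conj (c : G)).toMonoidHom ⊓ Q₄) :=
      card_lt_of_mem_not_mem (le_inf hDQ₃' (le_sup_left.trans hTQ₄))
        (Subgroup.mem_inf.mpr ⟨hr₂Q₃', hTQ₄ (Subgroup.mem_sup_right (hRP₂ hr₂))⟩) hr₂D
    obtain ⟨c₃, hc₃, e₃⟩ := ih
      (Nat.card G - Nat.card ↥(Q₃.map (MulAut.conj (c : G)).toMonoidHom ⊓ Q₄))
      (by have := hG (Q₃.map (MulAut.conj (c : G)).toMonoidHom ⊓ Q₄); omega) _ Q₄ hQ₃' hQ₄ rfl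
    -- compose
    refine ⟨c₂ * c₃ * c * c₁⁻¹, Subgroup.mul_mem _ (Subgroup.mul_mem _ (Subgroup.mul_mem _ hc₂ hc₃)
      hcW) (Subgroup.inv_mem _ hc₁), ?_⟩
    exact map_conj_comp e₁ e₃ e₂

end Cfsg.Agent.H58
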