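import Mathlib
import Cfsg.Prelude.Def_Balance
import Cfsg.Agent.S0023
import Cfsg.Agent.H58.Sig4

set_option autoImplicit false

namespace Cfsg.Agent.H58

open Cfsg.Agent.H27 (mem_map_conj_iff)

variable {G : Type*} [Group G]

/-- The trivial subgroup is in the family of every signalizer functor. -/
theorem bot_mem_family {p : ℕ} [Fact p.Prime] {A : Subgroup G} {θ : G → Subgroup G} :
    (⊥ : Subgroup G) ∈ Cfsg.signalizerFamily p A θ := by
  have hp : p.Prime := Fact.out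
  refine ⟨inferInstance, ?_, ?_, ?_⟩
  · rw [Subgroup.card_bot]
    exact hp.one_lt.ne' ∘ Nat.dvd_one.mp
  · intro b _ u hu
    rw [Subgroup.mem_bot] at hu ⊢
    rw [hu]; group
  · intro a _ _ x hx
    have := (Subgroup.mem_inf.mp hx).1
    rw [Subgroup.mem_bot] at this
    rw [this]; exact Subgroup.one_mem _

/-- A Sylow subgroup of `H` lying in a `q`-subgroup `R` of the ambient group is `R ⊓ H`. -/
theorem sylow_map_eq_inf {q : ℕ} {H : Subgroup G} (S : Sylow q ↥H) {R : Subgroup G}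
    (hR : IsPGroup q ↥R) (hSR : (S : Subgroup ↥H).map H.subtype ≤ R) :
    (S : Subgroup ↥H).map H.subtype = R ⊓ H := by
  have h1 : IsPGroup q ↥(R.subgroupOf H) := hR.comap_subtype
  have h2 : (S : Subgroup ↥H) ≤ R.subgroupOf H := by
    intro x hx
    rw [Subgroup.mem_subgroupOf]
    exact hSR ⟨x, hx, rfl⟩
  have h3 := S.is_maximal' h1 h2
  have h4 : (S : Subgroup ↥H) = R.subgroupOf H := h3.symm
  rw [h4, Subgroup.subgroupOf_map_subtype]

/-- **Transitivity theorem**, for maximal `q`-members of the family. -/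
theorem transitivity [Finite G] (p : ℕ) [Fact p.Prime] (A : Subgroup G)
    (hA : Cfsg.IsElementaryAbelian p A) (hA3 : p ^ 3 ≤ Nat.card ↥A) (θ : G → Subgroup G)
    (hθ : Cfsg.IsSolvableSignalizerFunctor p A θ) (q : ℕ) [Fact q.Prime] (hqp : q ≠ p)
    {Q₁ Q₂ : Subgroup G} (h₁ : IsMaxQ p A θ q Q₁) (h₂ : IsMaxQ p A θ q Q₂) :
    ∃ c ∈ Cfsg.signalizerInf A θ, Q₁.map (MulAut.conj c).toMonoidHom = Q₂ :=
  transitivity_aux p A hA hA3 θ hθ q hqp _ Q₁ Q₂ h₁ h₂ rfl

/-- `θ(C_G(B))` for a nontrivial `B ≤ A` is in the family. -/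
theorem sigInf_mem_family {p : ℕ} {A : Subgroup G} {θ : G → Subgroup G}
    (hθ : Cfsg.IsSolvableSignalizerFunctor p A θ) {B : Subgroup G} (hBA : B ≤ A) (hB : B ≠ ⊥) :
    Cfsg.signalizerInf B θ ∈ Cfsg.signalizerFamily p A θ := by
  obtain ⟨b, hbB, hb1'⟩ := B.bot_or_exists_ne_one.resolve_left hB
  refine family_of_le_theta hθ (hBA hbB) hb1' (fun x hx => mem_sigInf.mp hx b hbB hb1') ?_
  intro a ha x hx
  rw [mem_sigInf] at hx ⊢
  intro b' hb' hb'1
  exact hθ.1.2.2.1 b' (hBA hb') hb'1 a ha x (hx b' hb' hb'1)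

/-- `θ(C_G(B))` centralizes `B`. -/
theorem sigInf_le_centralizer {p : ℕ} {A : Subgroup G} {θ : G → Subgroup G}
    (hθ : Cfsg.IsSignalizerFunctor p A θ) {B : Subgroup G} (hBA : B ≤ A) :
    Cfsg.signalizerInf B θ ≤ Subgroup.centralizer (B : Set G) := by
  intro x hx
  rw [Subgroup.mem_centralizer_iff]
  intro b hb
  by_cases hb1 : b = 1
  · rw [hb1]; simp
  · have h1 : x ∈ θ b := mem_sigInf.mp hx b hb hb1
    have h2 := hθ.1 b (hBA hb) hb1 h1
    exact (Subgroup.mem_centralizer_singleton_iff.mp h2).symm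

end Cfsg.Agent.H58
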