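import Mathlib
import Cfsg.Agent.H58.SolvStable
import Cfsg.Agent.H29.ZJ

/-!
# Thompson factorization for solvable groups

For `G` solvable with `O_{p'}(G) = 1`, `p` odd (abelian Sylow 2-subgroups if `p = 3`),
`J(G)` centralizes `V = ⟨Ω₁(Z(S)) | S ∈ Syl_p(G)⟩`.
-/

set_option autoImplicit false

namespace Cfsg.Agent.H58

open scoped commutatorElement Pointwise
open Cfsg

universe u

theorem thompson_le_centralizer_of_solvable {G : Type u} [Group G] [Finite G] {p : ℕ}
    [Fact p.Prime] (hp : p ≠ 2) (hs : Group.IsSolvable G)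
    (h3 : p = 3 → ∀ T : Sylow 2 G, IsMulCommutative T) (hO : pPrimeCore p G = ⊥) :
    thompsonSubgroup p G ≤ Subgroup.centralizer (H14.sylowCenterV p G : Set G) := by
  have hVn := H14.sylowCenterV_normal p G
  have hCQ : Subgroup.centralizer ((pCore p G : Subgroup G) : Set G) ≤ pCore p G :=
    H60.centralizer_pCore_le hs hO
  -- `V` is elementary abelian
  have hV : IsElementaryAbelian p (H14.sylowCenterV p G) := by
    have hT : IsElementaryAbelian p (Subgroup.closure {x : G | (x ∈ pCore p G ∧
        x ∈ Subgroup.centralizer ((pCore p G : Subgroup G) : Set G)) ∧ x ^ p = 1}) := by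
      apply H13.ea_closure
      · rintro x ⟨⟨hx, -⟩, -⟩ y ⟨⟨-, hy⟩, -⟩
        exact Subgroup.mem_centralizer_iff.mp hy x hx
      · rintro x ⟨-, hx⟩; exact hx
    refine H13.ea_mono ?_ hT
    unfold H14.sylowCenterV
    apply iSup_le
    intro S
    unfold omegaOne
    apply Subgroup.closure_mono
    rintro x ⟨hx, hxp⟩
    have hxc : x ∈ Subgroup.centralizer ((pCore p G : Subgroup G) : Set G) :=
      Subgroup.centralizer_le (H13.pCore_le_sylow S) (Subgroup.mem_inf.mp hx).2
    exact ⟨⟨hCQ hxc, hxc⟩, hxp⟩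
  set V := H14.sylowCenterV p G with hVdef
  set C := Subgroup.centralizer (V : Set G) with hC
  have hCn : C.Normal := Subgroup.normal_centralizer
  have hst : IsPStableOn p V := isPStableOn_of_solvable' hp h3 V hV
  set D := (pCore p (G ⧸ C)).comap (QuotientGroup.mk' C) with hD
  have hDn : D.Normal := (H13.pCore_normal p (G ⧸ C)).comap _
  have hq : ∀ x ∈ D, ∃ j : ℕ, x ^ p ^ j ∈ C := by
    intro x hx
    obtain ⟨j, hj⟩ := (H13.pCore_isPGroup p (G ⧸ C)) ⟨_, hx⟩
    refine ⟨j, ?_⟩
    have h1 := congrArg Subtype.val hj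
    rw [Subgroup.coe_pow, Subgroup.coe_one] at h1
    rw [← QuotientGroup.eq_one_iff, ← QuotientGroup.mk'_apply, map_pow]
    exact h1
  -- the claim: `S ∩ D ≤ C`
  have hclaim : ∀ S : Sylow p G, (S : Subgroup G) ⊓ D ≤ C := by
    intro S
    have hfr := H29.normalizer_sup_eq_top_of_pquot S D C hq
    set T := (S : Subgroup G) ⊓ D with hT
    set W := V ⊓ Subgroup.centralizer (T : Set G) with hW
    have hWn : W.Normal := by
      rw [← Subgroup.normalizer_eq_top_iff, eq_top_iff, ← hfr]
      apply sup_le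
      · intro g hg
        apply H14.mem_normalizer_of_conj_mem
        intro x hx
        refine Subgroup.mem_inf.mpr ⟨‹V.Normal›.conj_mem x hx.1 g, ?_⟩
        refine Subgroup.mem_centralizer_iff.mpr (fun t ht => ?_)
        have h1 : g⁻¹ * t * g⁻¹⁻¹ ∈ T :=
          (Subgroup.mem_normalizer_iff.mp (inv_mem hg) t).mp ht
        have h2 := Subgroup.mem_centralizer_iff.mp hx.2 _ h1
        rw [inv_inv] at h2
        calc t * (g * x * g⁻¹) = g * ((g⁻¹ * t * g) * x) * g⁻¹ := by group
          _ = g * (x * (g⁻¹ * t * g)) * g⁻¹ := by rw [h2]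
          _ = g * x * g⁻¹ * t := by group
      · intro g hg
        apply H14.mem_normalizer_of_conj_mem
        intro x hx
        have h1 : x * g = g * x := Subgroup.mem_centralizer_iff.mp hg x hx.1
        have h2 : g * x * g⁻¹ = x := by rw [← h1, mul_inv_cancel_right]
        rw [h2]; exact hx
    have hΩ : omegaOne p ((S : Subgroup G) ⊓ Subgroup.centralizer ((S : Subgroup G) : Set G)) ≤ W := by
      refine le_inf ?_ ?_
      · rw [hVdef]; unfold H14.sylowCenterV
        exact le_iSup (fun S : Sylow p G => omegaOne p ((S : Subgroup G) ⊓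
          Subgroup.centralizer ((S : Subgroup G) : Set G))) S
      · exact (H14.omegaOne_center_le_centralizer p (S : Subgroup G)).trans
          (Subgroup.centralizer_le inf_le_left)
    have hVW : V ≤ W := by
      have h1 : H14.sylowCenterV p G ≤ W := by
        unfold H14.sylowCenterV
        apply iSup_le
        intro S'
        obtain ⟨g, hg⟩ := MulAction.exists_smul_eq G S S'
        rw [← hg, H14.sylow_smul_coe, ← H14.omegaOne_center_conj]
        rintro _ ⟨x, hx, rfl⟩
        exact hWn.conj_mem x (hΩ hx) g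
      exact h1
    intro t ht
    rw [hC, Subgroup.mem_centralizer_iff]
    intro v hv
    exact (Subgroup.mem_centralizer_iff.mp (hVW hv).2 t ht).symm
  -- main argument
  unfold thompsonSubgroup
  apply sSup_le
  intro A hA
  obtain ⟨hA1, hA2, hA3⟩ := H14.thompson_replacement V hV A hA
  set A' := ⁅V, A⁆ ⊔ A ⊓ Subgroup.centralizer ((⁅V, A⁆ : Subgroup G) : Set G) with hA'
  have hA'C : A' ≤ C := by
    have hA'p : IsPGroup p A' := by
      rintro ⟨a, ha⟩
      refine ⟨1, Subtype.ext ?_⟩
      rw [pow_one, Subgroup.coe_pow, Subgroup.coe_one]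
      exact hA1.1.2 a ha
    obtain ⟨S', hS'⟩ := hA'p.exists_le_sylow
    refine le_trans ?_ (hclaim S')
    refine le_inf hS' ?_
    intro a ha
    have hq2 : ⁅⁅V, Subgroup.zpowers a⁆, Subgroup.zpowers a⁆ = ⊥ := by
      rw [eq_bot_iff, ← hA2]
      have hz : Subgroup.zpowers a ≤ A' := (Subgroup.zpowers_le).mpr ha
      exact Subgroup.commutator_mono (Subgroup.commutator_mono le_rfl hz) hz
    exact hst a hq2
  have hVA' : ⁅V, A'⁆ = ⊥ := by
    rw [Subgroup.commutator_comm, Subgroup.commutator_eq_bot_iff_le_centralizer]; exact hA'C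
  have hVA : ⁅V, A⁆ = ⊥ := by
    by_contra hne; exact hA3 hne hVA'
  rw [Subgroup.commutator_comm, Subgroup.commutator_eq_bot_iff_le_centralizer] at hVA
  exact hVA

end Cfsg.Agent.H58
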