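import Cfsg.Agent.H58.UqDefs
import Cfsg.Agent.S2942
import Cfsg.Agent.H12.SpConjG
import Cfsg.Agent.H51.Local
import Cfsg.Agent.H14.Thompson

/-!
# S2950: assemblies (KEY from KEYA/KEYB/KEYC, and the main statement)
-/

set_option autoImplicit false
open Cfsg

namespace Cfsg.Agent.H58.Uq

universe u

/-- A `J(T)`-component has `W_K` a nontrivial 2-group. -/
theorem wOf_facts {G : Type u} [Group G] (T K : Subgroup G) (hK : IsJComponent T K) :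
    IsPGroup 2 ↥(wOf K) ∧ wOf K ≠ ⊥ := by
  obtain ⟨-, -, -, -, hc, -⟩ := hK
  refine ⟨?_, ?_⟩
  · have : Fact (Nat.Prime 2) := ⟨Nat.prime_two⟩
    exact IsPGroup.of_card (n := 2) (by rw [hc]; norm_num)
  · intro h
    rw [h] at hc
    simp at hc

/-- A member of the family of `T₁` has `T₁` a nontrivial 2-group. -/
theorem jOvergroups_facts {G : Type u} [Group G] (T₁ L : Subgroup G) (h : L ∈ jOvergroups T₁) :
    IsPGroup 2 ↥T₁ ∧ T₁ ≠ ⊥ := by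
  refine ⟨h.1.2.1, ?_⟩
  intro hb
  apply h.2.1
  have := Cfsg.Agent.H14.thompsonSubgroupOf_le 2 T₁
  rw [hb] at this
  rw [hb]
  exact this.trans bot_le

/-- KEY from KEYA, KEYB, KEYC. -/
theorem key (hA : StKeyA.{u}) (hB : StKeyB.{u}) (hC : StKeyC.{u}) (hK0 : StK0Conj.{u}) :
    StKey.{u} := by
  intro G _ _ hZN T hT hT1 L L' T₁ T₂ hLmax hLT₁ hL'T₂ hJ1 hJ2 K hK hKL hKL' y hy
  have hy' := hA hZN T hT hT1 L' T₂ hL'T₂ hJ2 K hK hKL' y hy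
  have hKJ1 : IsJComponent T₁ K := ((k0_congr T T₁ hJ1).2 K).mpr hK.1
  obtain ⟨hT₁p, hT₁1⟩ := jOvergroups_facts T₁ L hLT₁
  have hsn : (K.subgroupOf L).IsSubnormal :=
    Cfsg.Agent.S2942.result hZN.1 hZN.2.1 hZN.2.2 T₁ hT₁p hT₁1 L hLT₁ K hKJ1 hKL
  obtain ⟨hW2, hWne⟩ := wOf_facts T K hK.1
  apply hC L K (K.map (MulAut.conj y).toMonoidHom) hLmax hKL hsn hW2 hWne
  intro x hx
  have hx' := hA hZN T hT hT1 L T₁ hLT₁ hJ1 K hK hKL x hx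
  have h := hB hZN T hT hT1 K hK (K.map (MulAut.conj x).toMonoidHom)
    (K.map (MulAut.conj y).toMonoidHom) hx'.1 ⟨x, hK0 T K x hK⟩ hx'.2 hy'.1 hy'.2
  rwa [Cfsg.Agent.H12.Sp.wOf_conj_map] at h

/-- The statement S2950 from END, S2948, MAXL, SYLEX (and S2942). -/
theorem main (h48 : St48.{u}) (hEnd : StEnd.{u}) (hMax : StMaxL.{u}) (hSyl : StSylEx.{u}) :
    StMain.{u} := by
  intro G _ _ hL hN hZ hO S M hM hMJ T hT K hK
  have hZN : ZN G := ⟨hL, hN, hZ⟩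
  obtain ⟨hTp, hT1, -, -⟩ := hT.1
  obtain ⟨hK0, hKM, hcore⟩ := hK
  have hL0 : IsTwoLocal (Subgroup.normalizer (pCoreOf 2 (K ⊔ T) : Set G)) :=
    ⟨pCoreOf 2 (K ⊔ T), Cfsg.Agent.H51.pCoreOf_isPGroup 2 (K ⊔ T), hcore, rfl⟩
  obtain ⟨L, hLmax, hL0L⟩ := hMax _ hL0
  have hKTL : K ⊔ T ≤ L := (Cfsg.Agent.H51.le_normalizer_pCoreOf 2 (K ⊔ T)).trans hL0L
  have hKL : K ≤ L := le_sup_left.trans hKTL
  have hTL : T ≤ L := le_sup_right.trans hKTL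
  have hLM : ¬ L ≤ M := fun h => hKM (hKL.trans h)
  have hJT : thompsonSubgroupOf 2 T ≤ T := Cfsg.Agent.H14.thompsonSubgroupOf_le 2 T
  have hJp : IsPGroup 2 ↥(thompsonSubgroupOf 2 T) :=
    hTp.of_injective (Subgroup.inclusion hJT) (Subgroup.inclusion_injective hJT)
  obtain ⟨T₀, hJT₀, hT₀⟩ := hSyl (thompsonSubgroupOf 2 T) L hJp (hJT.trans hTL)
  obtain ⟨-, -, -, hfin⟩ := h48 hL hN hZ hO S M hM hMJ T hT L hLmax.1 hLM T₀ hT₀ hJT₀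
  obtain ⟨hLT, -⟩ := hfin hTL
  refine ⟨L, hLmax, sup_le hKL (hJT.trans hTL), ?_, ?_, hLT.1⟩
  · intro L' hL'max hKJL'
    have hKL' : K ≤ L' := le_sup_left.trans hKJL'
    have hJL' : thompsonSubgroupOf 2 T ≤ L' := le_sup_right.trans hKJL'
    have hL'M : ¬ L' ≤ M := fun h => hKM (hKL'.trans h)
    obtain ⟨T₂, hJT₂, hT₂⟩ := hSyl (thompsonSubgroupOf 2 T) L' hJp hJL'
    obtain ⟨hJeq2, -, hL'T₂, -⟩ :=
      h48 hL hN hZ hO S M hM hMJ T hT L' hL'max.1 hL'M T₂ hT₂ hJT₂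
    exact hEnd hZN T hTp hT1 L L' T T₂ hLmax hL'max hLT hL'T₂ rfl hJeq2.symm K hK0 hKL hKL'
  · exact Cfsg.Agent.S2942.result hL hN hZ T hTp hT1 L hLT K hK0.1 hKL

end Cfsg.Agent.H58.Uq
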