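import Mathlib
import Cfsg.Agent.H58.WardInd

/-!
# Ward's theorem: abstract form

`A ≤ Aut G` elementary abelian of order `p²` without nontrivial common fixed points, `G` finite
solvable: some term of the lower central series of `G` is nilpotent.  Proved by passing to the
semidirect product `G ⋊ A`.
-/

set_option autoImplicit false
set_option linter.style.haveILetI false
set_option linter.unusedVariables false

namespace Cfsg.Agent.H58.Ward

universe u

theorem ward_abs {G : Type u} [Group G] [Finite G] (hG : Group.IsSolvable G) {p : ℕ}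
    (hp : p.Prime) (A : Subgroup (MulAut G)) (hAc : ∀ a ∈ A, ∀ b ∈ A, a * b = b * a)
    (hAe : ∀ a ∈ A, a ^ p = 1) (hcard : Nat.card A = p ^ 2)
    (hfpf : ∀ g : G, (∀ a ∈ A, a g = g) → g = 1) :
    ∃ k m, ((⊤ : Subgroup G).lowerCentralSeries k).lowerCentralSeries m = ⊥ := by
  haveI : Finite (G ⋊[A.subtype] ↥A) :=
    Finite.of_equiv _ (SemidirectProduct.equivProd (φ := A.subtype)).symm
  obtain ⟨Gs, hGs⟩ : ∃ Gs : Subgroup (G ⋊[A.subtype] ↥A),
      Gs = (SemidirectProduct.inl : G →* G ⋊[A.subtype] ↥A).range := ⟨_, rfl⟩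
  obtain ⟨As, hAs⟩ : ∃ As : Subgroup (G ⋊[A.subtype] ↥A),
      As = (SemidirectProduct.inr : ↥A →* G ⋊[A.subtype] ↥A).range := ⟨_, rfl⟩
  haveI hnorm : Gs.Normal := by
    rw [hGs, SemidirectProduct.range_inl_eq_ker_rightHom]; infer_instance
  have hwd : WD p Gs As :=
    { hp := hp
      hAG := by rw [Subgroup.normalizer_eq_top]; exact le_top
      hGs := by
        rw [hGs]
        exact Group.isSolvable_of_surjective
          (f := (SemidirectProduct.inl : G →* G ⋊[A.subtype] ↥A).rangeRestrict)
          (MonoidHom.rangeRestrict_surjective _)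
      comm := by
        rw [hAs]
        rintro _ ⟨a, rfl⟩ _ ⟨b, rfl⟩
        rw [← map_mul, ← map_mul]
        congr 1
        exact Subtype.ext (hAc a a.2 b b.2)
      exp := by
        rw [hAs]
        rintro _ ⟨a, rfl⟩
        rw [← map_pow]
        have h : a ^ p = 1 := Subtype.ext (by rw [Subgroup.coe_pow]; exact hAe a a.2)
        rw [h, map_one]
      card := by
        have h1 : Nat.card As = Nat.card A := by
          rw [hAs]
          exact (Nat.card_congr (MonoidHom.ofInjective
            (SemidirectProduct.inr_injective (N := G) (G := ↥A) (φ := A.subtype))).toEquiv).symm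
        rw [h1, hcard]
      hfix := by
        rw [eq_bot_iff]
        intro x hx
        obtain ⟨hx1, hx2⟩ := Subgroup.mem_inf.mp hx
        rw [hGs] at hx1
        obtain ⟨g, rfl⟩ := hx1
        have hg : g = 1 := by
          apply hfpf
          intro a ha
          have h1 := (Subgroup.mem_centralizer_iff.mp hx2) (SemidirectProduct.inr ⟨a, ha⟩)
            (by rw [hAs]; exact ⟨_, rfl⟩)
          have h2 := SemidirectProduct.inl_aut (φ := A.subtype) (⟨a, ha⟩ : A) g
          rw [map_inv, h1, mul_inv_cancel_right] at h2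
          exact SemidirectProduct.inl_injective h2
        rw [hg, map_one]; exact Subgroup.one_mem _ }
  obtain ⟨k, m, hkm⟩ := ward_int _ _ p Gs As rfl hwd
  refine ⟨k, m, ?_⟩
  have h1 : Gs = (⊤ : Subgroup G).map SemidirectProduct.inl := by
    rw [hGs, MonoidHom.range_eq_map]
  rw [h1, ← Subgroup.map_lowerCentralSeries, ← Subgroup.map_lowerCentralSeries] at hkm
  exact (Subgroup.map_eq_bot_iff_of_injective _ SemidirectProduct.inl_injective).mp hkm

end Cfsg.Agent.H58.Ward
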